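import Cfsg.Agent.Components.AltSection.Lines

/-!
Anticommuting square roots of scalars and the fixed-point-free case in degree eleven.
-/

set_option autoImplicit false

namespace Cfsg.Agent.Components.AltSection

open Equiv

universe u v w

/-- `2 m` anticommuting operators with nonzero scalar squares need dimension `2 ^ m`. -/
theorem two_pow_le_finrank {k : Type u} [Field k] [IsAlgClosed k] (h2 : (2 : k) ≠ 0) (m : ℕ) :
    ∀ (V : Type v) [AddCommGroup V] [Module k V] [FiniteDimensional k V] [Nontrivial V]
      (e : Fin (2 * m) → Module.End k V) (c : Fin (2 * m) → k),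
      (∀ i, c i ≠ 0) → (∀ i x, e i (e i x) = c i • x) →
      (∀ i j, i ≠ j → ∀ x, e i (e j x) = -(e j (e i x))) → 2 ^ m ≤ Module.finrank k V := by
  induction m with
  | zero =>
    intro V _ _ _ _ e c _ _ _
    rw [pow_zero]; exact Module.finrank_pos
  | succ m ih =>
    intro V _ _ _ _ e c hc hsq hanti
    let i0 : Fin (2 * (m + 1)) := ⟨0, by omega⟩
    let i1 : Fin (2 * (m + 1)) := ⟨1, by omega⟩
    let sh : Fin (2 * m) → Fin (2 * (m + 1)) := fun j => ⟨j + 2, by omega⟩
    have h01 : i0 ≠ i1 := by simp [i0, i1]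
    have hs0 : ∀ j, sh j ≠ i0 := fun j => by simp [sh, i0]
    have hs1 : ∀ j, sh j ≠ i1 := fun j => by simp [sh, i1]
    have hsinj : ∀ {j l}, j ≠ l → sh j ≠ sh l := fun {j l} h h' => h (by
      simp only [sh, Fin.mk.injEq] at h'; exact Fin.ext (by omega))
    obtain ⟨s, hs⟩ := IsAlgClosed.exists_pow_nat_eq (c i0) (show 0 < 2 by norm_num)
    have hs' : s ≠ 0 := fun h => hc i0 (by rw [← hs, h]; ring)
    let Vp := (e i0).eigenspace s
    let Vm := (e i0).eigenspace (-s)
    have hswap : ∀ i, i ≠ i0 → ∀ {μ : k} {x : V}, e i0 x = μ • x → e i0 (e i x) = (-μ) • e i x := by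
      intro i hi μ x hx
      rw [hanti i0 i hi.symm, hx, map_smul, neg_smul]
    have hp : Vp ≠ ⊥ := by
      obtain ⟨x, hx⟩ := exists_ne (0 : V)
      intro hbot
      have h1 : ∀ y, e i0 y = s • y → y = 0 := fun y hy =>
        (Submodule.eq_bot_iff _).mp hbot y (Module.End.mem_eigenspace_iff.mpr hy)
      have h3 : e i0 x + s • x = 0 := h1 _ (by
        rw [map_add, map_smul, hsq, smul_add, smul_smul, ← hs, pow_two]; abel)
      have h4 : e i0 x = (-s) • x := by rw [neg_smul]; exact eq_neg_of_add_eq_zero_left h3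
      have h5 : e i1 x = 0 := h1 _ (by rw [hswap i1 h01.symm h4, neg_neg])
      have h6 := hsq i1 x
      rw [h5, map_zero] at h6
      exact hx ((smul_eq_zero.mp h6.symm).resolve_left (hc i1))
    have hmapj : ∀ j, ∀ x ∈ Vp, (e i1 * e (sh j)) x ∈ Vp := by
      intro j x hx
      rw [Module.End.mem_eigenspace_iff] at hx ⊢
      rw [Module.End.mul_apply, hswap i1 h01.symm (hswap (sh j) (hs0 j) hx), neg_neg]
    haveI : Nontrivial Vp := Submodule.nontrivial_iff_ne_bot.mpr hp
    have hstep : ∀ j l y, e i1 (e (sh j) (e i1 (e (sh l) y))) = -(c i1 • e (sh j) (e (sh l) y)) := by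
      intro j l y
      rw [hanti (sh j) i1 (hs1 j), map_neg, hsq]
    have h := ih Vp (fun j => (e i1 * e (sh j)).restrict (hmapj j))
      (fun j => -(c i1 * c (sh j))) (fun j => neg_ne_zero.mpr (mul_ne_zero (hc _) (hc _))) ?_ ?_
    · have hdis : Disjoint Vp Vm := (e i0).eigenspaces_iSupIndep.pairwiseDisjoint fun h => by
        have : (2 : k) * s = 0 := by linear_combination h
        exact hs' ((mul_eq_zero.mp this).resolve_left h2)
      have hmap1 : ∀ x ∈ Vp, e i1 x ∈ Vm := fun x hx => by
        rw [Module.End.mem_eigenspace_iff] at hx ⊢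
        exact hswap i1 h01.symm hx
      have h3 : Module.finrank k Vp ≤ Module.finrank k Vm :=
        LinearMap.finrank_le_finrank_of_injective (f := (e i1).restrict hmap1) fun a b hab => by
          have hab' := congrArg (fun w : Vm => e i1 (w : V)) hab
          simp only [LinearMap.restrict_coe_apply, hsq] at hab'
          exact Subtype.ext (smul_right_injective V (hc i1) hab')
      have h4 := Submodule.finrank_sup_add_finrank_inf_eq Vp Vm
      rw [hdis.eq_bot, finrank_bot] at h4
      have h5 := Submodule.finrank_le (Vp ⊔ Vm)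
      rw [pow_succ]
      omega
    · intro j x
      apply Subtype.ext
      simp only [LinearMap.restrict_coe_apply, Module.End.mul_apply, SetLike.val_smul]
      rw [hstep, hsq, smul_smul, neg_smul]
    · intro j l hjl x
      apply Subtype.ext
      simp only [LinearMap.restrict_coe_apply, Module.End.mul_apply, Submodule.coe_neg]
      rw [hstep, hstep, hanti (sh j) (sh l) (hsinj hjl), smul_neg]

namespace Setup

variable {r : ℕ} {k : Type u} {V : Type v} {H : Type w} [Field k] [AddCommGroup V] [Module k V]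
  [Group H] (S : Setup r k V H) [Finite H] [FiniteDimensional k V] [IsAlgClosed k]

theorem c3_prod_sq {a b i j : Fin r} (hab : a ≠ b) (hai : a ≠ i) (haj : a ≠ j) (hbi : b ≠ i)
    (hbj : b ≠ j) (hij : i ≠ j) :
    (c3 a b i * c3 a b j) * (c3 a b i * c3 a b j) = 1 := by
  have f : ∀ {i j : Fin r}, a ≠ i → a ≠ j → b ≠ i → b ≠ j → i ≠ j →
      (c3 a b i * c3 a b j) a = i ∧ (c3 a b i * c3 a b j) i = a ∧
      (c3 a b i * c3 a b j) b = j ∧ (c3 a b i * c3 a b j) j = b := by
    intro i j hai haj hbi hbj hij
    simp only [Perm.mul_apply]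
    refine ⟨?_, ?_, ?_, ?_⟩
    · rw [c3_apply_fst hab haj.symm, c3_apply_snd hbi hai.symm]
    · rw [c3_apply_other hai.symm hbi.symm hij, c3_apply_thd]
    · rw [c3_apply_snd hbj haj.symm, c3_apply_other haj.symm hbj.symm hij.symm]
    · rw [c3_apply_thd, c3_apply_fst hab hai.symm]
  obtain ⟨f1, f2, f3, f4⟩ := f hai haj hbi hbj hij
  ext w
  rw [Perm.one_apply, Perm.mul_apply]
  by_cases w1 : w = a
  · rw [w1, f1, f2]
  by_cases w2 : w = b
  · rw [w2, f3, f4]
  by_cases w3 : w = i
  · rw [w3, f2, f1]
  by_cases w4 : w = j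
  · rw [w4, f4, f3]
  simp only [Perm.mul_apply]
  rw [c3_apply_other w1 w2 w4, c3_apply_other w1 w2 w3, c3_apply_other w1 w2 w4,
    c3_apply_other w1 w2 w3]

theorem clifford (h2 : (2 : k) ≠ 0) (h3 : (3 : k) ≠ 0) (h5 : (5 : k) = 0) (hr : r = 11)
    (hfpf : ∀ a b c, a ≠ b → b ≠ c → c ≠ a → ∀ x, S.T a b c x = x → x = 0) :
    16 ≤ Module.finrank k V := by
  classical
  subst hr
  haveI := S.nontriv
  let pt : Fin 9 → Fin 11 := fun i => ⟨i + 2, by omega⟩
  have hpt : ∀ i, (0 : Fin 11) ≠ pt i ∧ (1 : Fin 11) ≠ pt i := fun i =>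
    ⟨fun h => by have h' : 0 = (i : ℕ) + 2 := congrArg Fin.val h; omega,
     fun h => by have h' : 1 = (i : ℕ) + 2 := congrArg Fin.val h; omega⟩
  have hptinj : ∀ {i j}, i ≠ j → pt i ≠ pt j := fun {i j} h h' => h (by
    simp only [pt, Fin.mk.injEq] at h'; exact Fin.ext (by omega))
  let x : Fin 9 → Module.End k V := fun i => S.T 0 1 (pt i)
  have h01 : (0 : Fin 11) ≠ 1 := by simp
  -- quadratic relation
  have hquad : ∀ i y, x i (x i y) = -y - x i y := by
    intro i y
    have hcube := LinearMap.congr_fun (S.T_cube 0 1 (pt i)) y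
    simp only [Module.End.mul_apply, Module.End.one_apply] at hcube
    have := hfpf 0 1 (pt i) h01 (hpt i).2 (hpt i).1.symm (y + x i y + x i (x i y)) (by
      simp only [x, map_add, hcube]; abel)
    linear_combination (norm := module) this
  have hrel : ∀ i j, i ≠ j → ∀ y, x i (x j y) + x j (x i y) = -(y + x i y + x j y) := by
    intro i j hij
    obtain ⟨ti, hti, htiT⟩ := S.exists_T 0 1 (pt i) h01 (hpt i).2 (hpt i).1.symm
    obtain ⟨tj, htj, htjT⟩ := S.exists_T 0 1 (pt j) h01 (hpt j).2 (hpt j).1.symm
    obtain ⟨z, hz⟩ := S.scalar ((ti * tj) * (ti * tj)) (by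
      rw [map_mul, map_mul, hti, htj]
      exact c3_prod_sq h01 (hpt i).1 (hpt j).1 (hpt i).2 (hpt j).2 (hptinj hij))
    have hz1 : ∀ y, x i (x j (x i (x j y))) = z • y := by
      intro y
      have := LinearMap.congr_fun hz y
      simpa only [map_mul, htiT, htjT, Module.End.mul_apply, LinearMap.smul_apply,
        Module.End.one_apply] using this
    have cube : ∀ i y, x i (x i (x i y)) = y := by
      intro i y
      have := LinearMap.congr_fun (S.T_cube 0 1 (pt i)) y
      simpa only [Module.End.mul_apply, Module.End.one_apply] using this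
    have hA : ∀ y, x j (x i y) = z • (y + x i y + x j y + x i (x j y)) := by
      intro y
      have e1 : x j (x i (x j y)) = z • x i (x i y) := by
        rw [← cube i (x j (x i (x j y))), hz1, map_smul, map_smul]
      have e2 : x j (x i y) = x j (x i (x j (x j (x j y)))) := by rw [cube j y]
      rw [e2]
      have e3 : ∀ w, x j (x i (x j w)) = z • x i (x i w) := by
        intro w
        rw [← cube i (x j (x i (x j w))), hz1, map_smul, map_smul]
      rw [e3, hquad j y, hquad i]
      simp only [map_sub, map_neg]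
      module
    have hB : ∀ y, x i (x j y) = z • (y + x i y + x j y + x j (x i y)) := by
      intro y
      have e3 : ∀ w, x i (x j (x i w)) = z • x j (x j w) := by
        intro w
        have h' := hz1 (x j (x j w))
        rw [cube j w] at h'
        exact h'
      have e2 : x i (x j y) = x i (x j (x i (x i (x i y)))) := by rw [cube i y]
      rw [e2, e3, hquad i y, hquad j]
      simp only [map_sub, map_neg]
      module
    have hz' : z = -1 := by
      by_contra hne
      have hne' : (1 + z : k) ≠ 0 := fun h => hne (by linear_combination h)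
      have hcomm : ∀ y, x i (x j y) = x j (x i y) := by
        intro y
        have h' : (1 + z) • (x i (x j y) - x j (x i y)) = 0 := by
          linear_combination (norm := module) hB y - hA y
        exact sub_eq_zero.mp ((smul_eq_zero.mp h').resolve_left hne')
      have heq : ti * tj = tj * ti := S.inj (LinearMap.ext fun y => by
        simp only [map_mul, htiT, htjT, Module.End.mul_apply]; exact hcomm y)
      have h' := congrArg (fun h => S.π h (pt i)) heq
      simp only [map_mul, hti, htj, Perm.mul_apply] at h'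
      rw [c3_apply_other (hpt i).1.symm (hpt i).2.symm (hptinj hij), c3_apply_thd,
        c3_apply_fst h01 (hpt j).1.symm] at h'
      exact h01 h'
    intro y
    have := hA y
    rw [hz'] at this
    linear_combination (norm := module) this
  -- linear combinations with zero sum
  let E : (Fin 9 → k) → Module.End k V := fun a => ∑ i, a i • x i
  have hE : ∀ a b : Fin 9 → k, ∑ i, a i = 0 → ∑ i, b i = 0 → ∀ y,
      E a (E b y) + E b (E a y) = (-(∑ i, a i * b i)) • y := by
    intro a b ha hb y
    have key : ∀ i j, x i (x j y) + x j (x i y) =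
        -(y + x i y + x j y) - (if i = j then y else 0) := by
      intro i j
      by_cases h : i = j
      · subst h; rw [if_pos rfl, hquad]; module
      · rw [if_neg h, sub_zero, hrel i j h]
    have e1 : E a (E b y) + E b (E a y) = ∑ i, ∑ j, (a i * b j) • (x i (x j y) + x j (x i y)) := by
      simp only [E, LinearMap.sum_apply, LinearMap.smul_apply, map_sum, map_smul, smul_add,
        Finset.sum_add_distrib, Finset.smul_sum, smul_smul]
      congr 1
      · rw [Finset.sum_comm]
        exact Finset.sum_congr rfl fun i _ => Finset.sum_congr rfl fun j _ => by rw [mul_comm]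
    rw [e1]
    simp only [key, smul_sub, smul_neg, smul_add, Finset.sum_sub_distrib, Finset.sum_neg_distrib,
      Finset.sum_add_distrib, smul_ite, smul_zero, Finset.sum_ite_eq, Finset.mem_univ, if_true]
    have z1 : ∀ w : V, ∑ i, ∑ j, (a i * b j) • w = 0 := fun w => by
      simp only [← Finset.sum_smul, ← Finset.mul_sum, hb, mul_zero, zero_smul, Finset.sum_const_zero]
    have z2 : ∑ i, ∑ j, (a i * b j) • x i y = 0 := by
      simp only [← Finset.sum_smul, ← Finset.mul_sum, hb, mul_zero, zero_smul, Finset.sum_const_zero]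
    have z3 : ∑ i, ∑ j, (a i * b j) • x j y = 0 := by
      rw [Finset.sum_comm]
      simp only [← Finset.sum_smul, ← Finset.sum_mul, ha, zero_mul, zero_smul, Finset.sum_const_zero]
    rw [z1, z2, z3, ← Finset.sum_smul, neg_smul]
    module
  -- eight orthogonal vectors
  let M : Fin 8 → Fin 9 → ℤ := ![![1, -1, 0, 0, 0, 0, 0, 0, 0], ![0, 0, 1, -1, 0, 0, 0, 0, 0],
    ![0, 0, 0, 0, 1, -1, 0, 0, 0], ![0, 0, 0, 0, 0, 0, 1, -1, 0], ![1, 1, -1, -1, 0, 0, 0, 0, 0],
    ![0, 0, 0, 0, 1, 1, -1, -1, 0], ![1, 1, 1, 1, -1, -1, -1, -1, 0],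
    ![1, 1, 1, 1, 1, 1, 1, 1, -8]]
  have hsum : ∀ l, ∑ i, M l i = 0 := by decide
  have horth : ∀ l l', l ≠ l' → ∑ i, M l i * M l' i = 0 := by decide
  let N : Fin 8 → ℤ := ![1, 1, 1, 1, 2, 2, 4, 36]
  have hnorm : ∀ l, ∑ i, M l i * M l i = 2 * N l := by decide
  have hsum' : ∀ l, ∑ i, (M l i : k) = 0 := fun l => by
    rw [← Int.cast_sum, hsum, Int.cast_zero]
  have hdot : ∀ l l', ∑ i, (M l i : k) * (M l' i : k) = ((∑ i, M l i * M l' i : ℤ) : k) := by
    intro l l'; push_cast; rfl
  have h36 : ∀ l, (N l : k) ≠ 0 := by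
    have h4 : (4 : k) ≠ 0 := fun h => h2 (mul_self_eq_zero.mp (by linear_combination (1 : k) * h))
    have h36 : (36 : k) ≠ 0 := fun h => by
      have : (1 : k) = 0 := by linear_combination h - 7 * h5
      exact one_ne_zero this
    intro l
    fin_cases l <;> simp [N, h2, h4, h36]
  have := two_pow_le_finrank h2 4 V (fun l : Fin 8 => E fun i => (M l i : k))
    (fun l => -(N l : k)) (fun l => neg_ne_zero.mpr (h36 l)) (fun l y => by
      have h' := hE _ _ (hsum' l) (hsum' l) y
      rw [hdot, hnorm] at h'
      push_cast at h'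
      refine smul_right_injective V h2 ?_
      show (2 : k) • _ = (2 : k) • _
      linear_combination (norm := module) h') (fun l l' hl y => by
      have h' := hE _ _ (hsum' l) (hsum' l') y
      rw [hdot, horth l l' hl, Int.cast_zero, neg_zero, zero_smul] at h'
      exact eq_neg_of_add_eq_zero_left h')
  simpa using this

end Setup

end Cfsg.Agent.Components.AltSection
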