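import Mathlib

/-!
Orbits of weight vectors under even monomial substitutions.
-/

set_option autoImplicit false

namespace Cfsg.Agent.Components.AltSection

open Equiv

variable {m q : ℕ} [Fact q.Prime]

/-- Scale one coordinate. -/
def scl (i : Fin m) (u : (ZMod q)ˣ) (w : Fin m → ZMod q) : Fin m → ZMod q :=
  Function.update w i ((u : ZMod q) * w i)

theorem scl_same (i : Fin m) (u : (ZMod q)ˣ) (w : Fin m → ZMod q) :
    scl i u w i = (u : ZMod q) * w i := Function.update_self ..

theorem scl_ne {i j : Fin m} (h : j ≠ i) (u : (ZMod q)ˣ) (w : Fin m → ZMod q) :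
    scl i u w j = w j := Function.update_of_ne h ..

theorem scl_mul (i : Fin m) (u v : (ZMod q)ˣ) (w : Fin m → ZMod q) :
    scl i u (scl i v w) = scl i (u * v) w := by
  funext l
  by_cases h : l = i
  · subst h; simp [scl_same, mul_assoc]
  · simp [scl_ne h]

theorem scl_one (i : Fin m) (w : Fin m → ZMod q) : scl i 1 w = w := by
  funext l
  by_cases h : l = i
  · subst h; simp [scl_same]
  · simp [scl_ne h]

theorem scl_comm {i j : Fin m} (h : i ≠ j) (u v : (ZMod q)ˣ) (w : Fin m → ZMod q) :
    scl i u (scl j v w) = scl j v (scl i u w) := by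
  funext l
  by_cases h1 : l = i
  · subst h1; simp [scl_same, scl_ne h]
  · by_cases h2 : l = j
    · subst h2; simp [scl_same, scl_ne h.symm]
    · simp [scl_ne h1, scl_ne h2]

theorem scl_eq_self {i : Fin m} {w : Fin m → ZMod q} (h : w i = 0) (u : (ZMod q)ˣ) :
    scl i u w = w := by
  funext l
  by_cases h1 : l = i
  · subst h1; simp [scl_same, h]
  · simp [scl_ne h1]

theorem scl_ne_zero {i : Fin m} {u : (ZMod q)ˣ} {w : Fin m → ZMod q} (h : ∀ l, w l ≠ 0)
    (l : Fin m) : scl i u w l ≠ 0 := by
  by_cases h1 : l = i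
  · subst h1; rw [scl_same]; exact mul_ne_zero u.ne_zero (h l)
  · rw [scl_ne h1]; exact h l

/-- The number of nonzero coordinates. -/
def supp (w : Fin m → ZMod q) : Finset (Fin m) := Finset.univ.filter (w · ≠ 0)

theorem mem_supp {w : Fin m → ZMod q} {i : Fin m} : i ∈ supp w ↔ w i ≠ 0 := by simp [supp]

/-- The closure properties of a set of weights. -/
structure Moves (g : (ZMod q)ˣ) (C : Finset (Fin m → ZMod q)) : Prop where
  gen : ∀ u : (ZMod q)ˣ, ∃ e : ℕ, u = g ^ e
  pair : ∀ i j, i ≠ j → ∀ w ∈ C, scl i g (scl j g w) ∈ C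
  swap : ∀ i j, i ≠ j → ∀ w ∈ C, scl i g (w ∘ Equiv.swap i j) ∈ C
  two : m = 2 → g ^ 4 = 1 ∧ ∀ i, ∀ w ∈ C, scl i (g * g) w ∈ C

namespace Moves

variable {g : (ZMod q)ˣ} {C : Finset (Fin m → ZMod q)} (M : Moves g C)
include M

theorem pair_pow {i j : Fin m} (h : i ≠ j) (e : ℕ) :
    ∀ w ∈ C, scl i (g ^ e) (scl j (g ^ e) w) ∈ C := by
  induction e with
  | zero => intro w hw; rwa [pow_zero, scl_one, scl_one]
  | succ e ih =>
    intro w hw
    have := M.pair i j h _ (ih w hw)
    rwa [scl_comm h.symm g (g ^ e), scl_mul, scl_mul, ← pow_succ'] at this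

theorem single_of_zero {w : Fin m → ZMod q} (hw : w ∈ C) {l : Fin m} (hl : w l = 0) (i : Fin m)
    (u : (ZMod q)ˣ) : scl i u w ∈ C := by
  by_cases h : i = l
  · subst h; rwa [scl_eq_self hl]
  obtain ⟨e, rfl⟩ := M.gen u
  have := M.pair_pow h e w hw
  rwa [scl_eq_self hl] at this

theorem swap_of_zero {w : Fin m → ZMod q} (hw : w ∈ C) {l : Fin m} (hl : w l = 0) (i j : Fin m) :
    w ∘ Equiv.swap i j ∈ C := by
  by_cases h : i = j
  · subst h; simpa using hw
  have h1 := M.swap i j h w hw
  have h2 : scl i g (w ∘ Equiv.swap i j) (Equiv.swap i j l) = 0 := by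
    by_cases h3 : Equiv.swap i j l = i
    · rw [h3, scl_same, Function.comp_apply, show Equiv.swap i j i = l from
        (congrArg (Equiv.swap i j) h3).symm.trans (swap_apply_self i j l), hl, mul_zero]
    · rw [scl_ne h3, Function.comp_apply, swap_apply_self, hl]
  have h3 := M.single_of_zero h1 h2 i g⁻¹
  rwa [scl_mul, inv_mul_cancel, scl_one] at h3

theorem perm_of_zero (σ : Perm (Fin m)) :
    ∀ w ∈ C, (∃ l, w l = 0) → w ∘ σ ∈ C := by
  induction σ using Perm.swap_induction_on with
  | one => intro w hw _; simpa using hw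
  | @swap_mul f x y _ ih =>
    rintro w hw ⟨l, hl⟩
    have h1 := M.swap_of_zero hw hl x y
    exact ih _ h1 ⟨Equiv.swap x y l, by rw [Function.comp_apply, swap_apply_self, hl]⟩

theorem exists_single (hm : 2 ≤ m) {w : Fin m → ZMod q} (hw : w ∈ C) (hw0 : ∀ l, w l ≠ 0)
    (i : Fin m) : scl i g w ∈ C := by
  haveI : Nontrivial (Fin m) := Fin.nontrivial_iff_two_le.mpr hm
  obtain ⟨j, hij⟩ := exists_ne i
  obtain ⟨e, he⟩ := M.gen (Units.mk0 (w j) (hw0 j) * (Units.mk0 (w i) (hw0 i))⁻¹)
  have hje : w j = ((g ^ e : (ZMod q)ˣ) : ZMod q) * w i := by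
    rw [← he]; simp [hw0 i]
  by_cases hm3 : 3 ≤ m
  · obtain ⟨l, hli, hlj⟩ : ∃ l, l ≠ i ∧ l ≠ j := by
      have : (({i, j} : Finset (Fin m))ᶜ).Nonempty := by
        rw [← Finset.card_pos, Finset.card_compl, Fintype.card_fin]
        have := Finset.card_le_two (a := i) (b := j)
        omega
      obtain ⟨l, hl⟩ := this
      simp only [Finset.mem_compl, Finset.mem_insert, Finset.mem_singleton, not_or] at hl
      exact ⟨l, hl⟩
    have h1 := M.pair_pow hli.symm e w hw
    let w1 := scl i (g ^ e) (scl l (g ^ e) w)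
    have e1 : w1 i = w1 j := by
      simp only [w1, scl_same, scl_ne hli.symm, scl_ne hij, scl_ne (Ne.symm hlj), hje]
    have e2 : w1 ∘ Equiv.swap i j = w1 := by
      funext x
      rw [Function.comp_apply]
      rcases eq_or_ne x i with rfl | hxi
      · rw [swap_apply_left, e1]
      rcases eq_or_ne x j with rfl | hxj
      · rw [swap_apply_right, e1]
      rw [swap_apply_of_ne_of_ne hxi hxj]
    have h2 := M.swap i j hij.symm w1 h1
    rw [e2] at h2
    have h3 := M.pair_pow hli.symm (e * (q - 2)) _ h2
    have hord : g ^ (e * (q - 2)) * g ^ e = 1 := by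
      rw [← pow_add]
      have h5 : e * (q - 2) + e = (q - 1) * e := by
        have := (Fact.out : q.Prime).two_le
        rw [← Nat.mul_succ, mul_comm]; congr 1; omega
      rw [h5, pow_mul, ZMod.units_pow_card_sub_one_eq_one, one_pow]
    simp only [w1] at h3
    rwa [scl_comm hli (g ^ (e * (q - 2))) g, scl_comm hli (g ^ (e * (q - 2))) (g ^ e),
      scl_mul (i := l), hord, scl_one, scl_mul, scl_mul, mul_right_comm, hord, one_mul] at h3
  · have hm2 : m = 2 := by omega
    obtain ⟨h4, hI⟩ := M.two hm2
    have hIpow : ∀ (a : ℕ) (x : Fin m), ∀ v ∈ C, scl x (g ^ (2 * a)) v ∈ C := by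
      intro a x
      induction a with
      | zero => intro v hv; rwa [mul_zero, pow_zero, scl_one]
      | succ a ih =>
        intro v hv
        have := hI x _ (ih v hv)
        rwa [scl_mul, show g * g * g ^ (2 * a) = g ^ (2 * (a + 1)) by
          rw [mul_add, mul_one, pow_add, pow_two, mul_comm]] at this
    have hcan : ∀ a : ℕ, g ^ (2 * a) * g ^ (2 * a) = 1 := fun a => by
      rw [← pow_add, show 2 * a + 2 * a = 4 * a by ring, pow_mul, h4, one_pow]
    have hall : ∀ x, x = i ∨ x = j := by
      intro x
      subst hm2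
      omega
    obtain ⟨a, rfl | rfl⟩ := Nat.even_or_odd' e
    · have h1 := hIpow a i w hw
      let w1 := scl i (g ^ (2 * a)) w
      have e1 : w1 i = w1 j := by simp only [w1, scl_same, scl_ne hij, hje]
      have e2 : w1 ∘ Equiv.swap i j = w1 := by
        funext x
        rw [Function.comp_apply]
        rcases hall x with rfl | rfl
        · rw [swap_apply_left, e1]
        · rw [swap_apply_right, e1]
      have h2 := M.swap i j hij.symm w1 h1
      rw [e2] at h2
      have h3 := hIpow a i _ h2
      simp only [w1] at h3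
      rwa [scl_mul, scl_mul, mul_right_comm, hcan, one_mul] at h3
    · have h1 := hIpow a i w hw
      let w1 := scl i (g ^ (2 * a)) w
      have e1 : w1 j = (g : ZMod q) * w1 i := by
        simp only [w1, scl_same, scl_ne hij, hje]
        push_cast [pow_succ]; ring
      have h2 := M.swap i j hij.symm w1 h1
      have h3 := hI i _ h2
      have h4' := M.pair i j hij.symm _ h3
      have e2 : scl i g (scl j g (scl i (g * g) (scl i g (w1 ∘ Equiv.swap i j)))) = scl i g w1 := by
        funext x
        rcases hall x with rfl | rfl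
        · simp only [scl_same, scl_ne hij.symm, Function.comp_apply, swap_apply_left, e1]
          have hg : ((g : ZMod q)) ^ 4 = 1 := by rw [← Units.val_pow_eq_pow_val, h4, Units.val_one]
          push_cast
          linear_combination (g : ZMod q) * w1 x * hg
        · simp only [scl_same, scl_ne hij, Function.comp_apply, swap_apply_right, e1]
      rw [e2] at h4'
      have h5 := hIpow a i _ h4'
      simp only [w1] at h5
      rwa [scl_mul, scl_mul, mul_right_comm, hcan, one_mul] at h5

theorem single_of_full (hm : 2 ≤ m) {w : Fin m → ZMod q} (hw : w ∈ C) (hw0 : ∀ l, w l ≠ 0)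
    (i : Fin m) (u : (ZMod q)ˣ) : scl i u w ∈ C := by
  obtain ⟨e, rfl⟩ := M.gen u
  induction e with
  | zero => rwa [pow_zero, scl_one]
  | succ e ih =>
    have := M.exists_single hm ih (scl_ne_zero hw0) i
    rwa [scl_mul, ← pow_succ'] at this

theorem single (hm : 2 ≤ m) {w : Fin m → ZMod q} (hw : w ∈ C) (i : Fin m) (u : (ZMod q)ˣ) :
    scl i u w ∈ C := by
  by_cases h : ∃ l, w l = 0
  · exact M.single_of_zero hw h.choose_spec i u
  · exact M.single_of_full hm hw (not_exists.mp h) i u

/-- A set of weights contains every vector with the same support size. -/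
theorem orbit (hm : 2 ≤ m) {w v : Fin m → ZMod q} (hw : w ∈ C)
    (h : (supp v).card = (supp w).card) : v ∈ C := by
  classical
  obtain ⟨w', hw', hsupp⟩ : ∃ w' ∈ C, supp w' = supp v := by
    by_cases hz : ∃ l, w l = 0
    · let e : supp v ≃ supp w := Finset.equivOfCardEq h
      let σ := e.extendSubtype
      refine ⟨w ∘ σ, M.perm_of_zero σ w hw hz, ?_⟩
      ext x
      rw [mem_supp, Function.comp_apply, ← mem_supp]
      constructor
      · intro hx
        by_contra hxv
        exact e.extendSubtype_not_mem x hxv hx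
      · intro hx
        exact e.extendSubtype_mem x hx
    · refine ⟨w, hw, ?_⟩
      have h1 : supp w = Finset.univ := by
        ext x; simp [mem_supp, not_exists.mp hz x]
      rw [h1, Finset.card_univ] at h
      rw [h1, (Finset.card_eq_iff_eq_univ _).mp h]
  have key : ∀ s : Finset (Fin m), (fun x => if x ∈ s then v x else w' x) ∈ C := by
    intro s
    induction s using Finset.induction with
    | empty => simpa using hw'
    | @insert a s has ih =>
      by_cases ha : v a = 0
      · have hwa : w' a = 0 := by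
          by_contra hh
          exact (mem_supp.mp (hsupp ▸ mem_supp.mpr hh)) ha
        convert ih using 1
        funext x
        by_cases hx : x = a
        · subst hx; simp [has, ha, hwa]
        · simp [hx]
      · have hwa : w' a ≠ 0 := mem_supp.mp (hsupp.symm ▸ mem_supp.mpr ha)
        convert M.single hm ih a (Units.mk0 (v a) ha * (Units.mk0 (w' a) hwa)⁻¹) using 1
        funext x
        by_cases hx : x = a
        · subst hx; simp [scl_same, has, hwa]
        · simp [scl_ne hx, hx]
  simpa using key Finset.univ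

theorem count (hm : 2 ≤ m) (S : Finset ℕ) (h : ∀ s ∈ S, ∃ w ∈ C, (supp w).card = s) :
    ∑ s ∈ S, m.choose s * (q - 1) ^ s ≤ C.card := by
  classical
  let F : Finset (Fin m) → Finset (Fin m → ZMod q) := fun T =>
    Fintype.piFinset fun i => if i ∈ T then Finset.univ.erase 0 else {0}
  have hF : ∀ T v, v ∈ F T ↔ supp v = T := by
    intro T v
    simp only [F, Fintype.mem_piFinset]
    constructor
    · intro hv
      ext i
      have := hv i
      split at this <;> simp_all [mem_supp]
    · rintro rfl i
      split <;> simp_all [mem_supp]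
  have hcard : ∀ T, (F T).card = (q - 1) ^ T.card := by
    intro T
    simp only [F, Fintype.card_piFinset]
    rw [← Finset.prod_const, ← Finset.prod_subset (Finset.subset_univ T)]
    · refine Finset.prod_congr rfl fun i hi => ?_
      rw [if_pos hi, Finset.card_erase_of_mem (Finset.mem_univ _), Finset.card_univ, ZMod.card]
    · intro i _ hi; rw [if_neg hi, Finset.card_singleton]
  let U := (S.biUnion fun s => Finset.powersetCard s Finset.univ).biUnion F
  have hU : U ⊆ C := by
    intro v hv
    simp only [U, Finset.mem_biUnion, Finset.mem_powersetCard] at hv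
    obtain ⟨T, ⟨s, hs, -, hT⟩, hv⟩ := hv
    obtain ⟨w, hw, hws⟩ := h s hs
    exact M.orbit hm hw (by rw [(hF T v).mp hv, hT, hws])
  refine le_trans (le_of_eq ?_) (Finset.card_le_card hU)
  rw [Finset.card_biUnion, Finset.sum_biUnion]
  · refine Finset.sum_congr rfl fun s _ => ?_
    rw [Finset.sum_congr rfl fun T hT => by rw [hcard T, (Finset.mem_powersetCard.mp hT).2],
      Finset.sum_const, Finset.card_powersetCard, Finset.card_univ, Fintype.card_fin, smul_eq_mul]
  · intro s _ t _ hst
    simp only [Function.onFun, Finset.disjoint_left, Finset.mem_powersetCard]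
    intro T h1 h2
    exact hst (h1.2.symm.trans h2.2)
  · intro T _ T' _ hTT
    simp only [Function.onFun, Finset.disjoint_left, hF]
    intro v h1 h2
    exact hTT (h1.symm.trans h2)

end Moves

end Cfsg.Agent.Components.AltSection
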