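import Cfsg.Agent.Components.AltSection.Weights

/-!
Either many weights, or displacement spaces of disjoint 3-cycles are killed by each other.
-/

set_option autoImplicit false

namespace Cfsg.Agent.Components.AltSection

open Equiv

universe u v w

/-- Five points as an embedding. -/
theorem exists_emb5 {r : ℕ} (a b c : Fin r) (hab : a ≠ b) (hbc : b ≠ c) (hca : c ≠ a)
    (X : Finset (Fin r)) (hX : X.card + 5 ≤ r) (ha : a ∉ X) (hb : b ∉ X) (hc : c ∉ X) :
    ∃ e : ZMod 5 ↪ Fin r, e 0 = a ∧ e 1 = b ∧ e 2 = c ∧ ∀ i, e i ∉ X := by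
  classical
  obtain ⟨u, v, hu, hv, huv⟩ := exists_two_out (X ∪ {a, b, c}) (by
    have := Finset.card_union_le X {a, b, c}
    have := Finset.card_le_three (a := a) (b := b) (c := c)
    omega)
  simp only [Finset.mem_union, Finset.mem_insert, Finset.mem_singleton, not_or] at hu hv
  obtain ⟨hu0, hu1, hu2, hu3⟩ := hu
  obtain ⟨hv0, hv1, hv2, hv3⟩ := hv
  let f : ZMod 5 → Fin r := fun i : Fin 5 => ![a, b, c, u, v] i
  have hf : Function.Injective f := by
    intro (i : Fin 5) (j : Fin 5) h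
    fin_cases i <;> fin_cases j <;> simp_all [f, eq_comm] <;> rfl
  refine ⟨⟨f, hf⟩, rfl, rfl, rfl, fun (i : Fin 5) => ?_⟩
  fin_cases i <;> assumption

theorem mem_range_emb3 {r : ℕ} {a b c : Fin r} {hab : a ≠ b} {hbc : b ≠ c} {hca : c ≠ a}
    {w : Fin r} : w ∈ Set.range (emb3 a b c hab hbc hca) ↔ w = a ∨ w = b ∨ w = c := by
  constructor
  · rintro ⟨(i : Fin 3), rfl⟩
    fin_cases i
    · exact Or.inl rfl
    · exact Or.inr (Or.inl rfl)
    · exact Or.inr (Or.inr rfl)
  · rintro (rfl | rfl | rfl)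
    · exact ⟨(0 : Fin 3), rfl⟩
    · exact ⟨(1 : Fin 3), rfl⟩
    · exact ⟨(2 : Fin 3), rfl⟩

theorem disjoint_emb3 {r : ℕ} {a b c d e f : Fin r} {hab : a ≠ b} {hbc : b ≠ c} {hca : c ≠ a}
    {hde : d ≠ e} {hef : e ≠ f} {hfd : f ≠ d} (ha : a ∉ ({d, e, f} : Finset (Fin r)))
    (hb : b ∉ ({d, e, f} : Finset (Fin r))) (hc : c ∉ ({d, e, f} : Finset (Fin r))) :
    Disjoint (Set.range (emb3 a b c hab hbc hca)) (Set.range (emb3 d e f hde hef hfd)) := by
  rw [Set.disjoint_left]
  intro w hw hw'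
  rw [mem_range_emb3] at hw hw'
  have : w ∈ ({d, e, f} : Finset (Fin r)) := by simpa using hw'
  rcases hw with rfl | rfl | rfl <;> contradiction

namespace Setup

variable {r : ℕ} {k : Type u} {V : Type v} {H : Type w} [Field k] [AddCommGroup V] [Module k V]
  [Group H] (S : Setup r k V H)

/-- Displacements of disjoint cycles are killed by each other. -/
def ProdZero {q : ℕ} [Fact q.Prime] (hq : q = 3 ∨ q = 5) {q' : ℕ} [Fact q'.Prime]
    (hq' : q' = 3 ∨ q' = 5) : Prop :=
  ∀ (e : ZMod q ↪ Fin r) (e' : ZMod q' ↪ Fin r), Disjoint (Set.range e) (Set.range e') →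
    ∀ x, S.op hq e (S.op hq' e' x - x) = S.op hq' e' x - x

/-- The disjointness condition for 3-cycles. -/
def DC : Prop :=
  ∀ a b c d e f : Fin r, a ≠ b → b ≠ c → c ≠ a → d ≠ e → e ≠ f → f ≠ d →
    a ∉ ({d, e, f} : Finset (Fin r)) → b ∉ ({d, e, f} : Finset (Fin r)) →
    c ∉ ({d, e, f} : Finset (Fin r)) → ∀ x, S.T a b c (S.T d e f x - x) = S.T d e f x - x

variable [FiniteDimensional k V] [IsAlgClosed k]

theorem prod_zero_or {q : ℕ} [Fact q.Prime] (hq : q = 3 ∨ q = 5) (hqk : (q : k) ≠ 0) {m : ℕ}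
    (hm : 2 ≤ m) (hr : m * q ≤ r) (h2 : m = 2 → q = 5) (N : ℕ)
    (hN : ∀ s, 2 ≤ s → s ≤ m → N ≤ m.choose s * (q - 1) ^ s) :
    N ≤ Module.finrank k V ∨ S.ProdZero hq hq := by
  by_cases h : S.ProdZero hq hq
  · exact Or.inr h
  left
  simp only [ProdZero, not_forall] at h
  obtain ⟨e, e', hd, x, hx⟩ := h
  obtain ⟨E, hE0, hE1⟩ := exists_grid hm hr e e' hd
  haveI : NeZero (q : k) := ⟨hqk⟩
  obtain ⟨ζ, hζ⟩ := HasEnoughRootsOfUnity.exists_primitiveRoot k q
  obtain ⟨w, hw, hwR, -⟩ := S.exists_wt hq E hqk hζ (y := S.op hq e (S.op hq e' x - x) -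
    (S.op hq e' x - x)) (sub_ne_zero.mpr hx)
  obtain ⟨g, M⟩ := S.wts_moves hq E hζ.pow_eq_one h2
  have hw0 : w ⟨0, by omega⟩ ≠ 0 := hwR _ ⟨S.op hq e' x - x, by rw [hE0]; rfl⟩
  have hw1 : w ⟨1, by omega⟩ ≠ 0 := hwR _ ⟨S.op hq e x - x, by
    rw [hE1, LinearMap.sub_apply, Module.End.one_apply, map_sub, map_sub]
    have hc := LinearMap.congr_fun ((S.lift_commute hq hq e e' hd).map S.ρ).eq x
    simp only [Module.End.mul_apply] at hc
    simp only [op]
    rw [hc]; abel⟩
  have hs : 2 ≤ (supp w).card := Finset.one_lt_card.mpr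
    ⟨_, mem_supp.mpr hw0, _, mem_supp.mpr hw1, by simp⟩
  have hs' : (supp w).card ≤ m := by simpa using Finset.card_le_univ (supp w)
  refine le_trans ?_ (S.card_wts_le hq E hζ)
  refine le_trans (hN _ hs hs') ?_
  simpa using M.count hm {(supp w).card}
    (fun s hs => ⟨w, (S.mem_wts hq E).mpr hw, (Finset.mem_singleton.mp hs).symm⟩)

theorem eleven [Finite H] (hr : r = 11) (h3 : (3 : k) ≠ 0) :
    10 ≤ Module.finrank k V ∨ S.DC ∨
      ∀ a b c, a ≠ b → b ≠ c → c ≠ a → ∀ x, S.T a b c x = x → x = 0 := by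
  haveI : Fact (Nat.Prime 3) := ⟨Nat.prime_three⟩
  have hqk : ((3 : ℕ) : k) ≠ 0 := by exact_mod_cast h3
  let o : (ZMod 3 ↪ Fin r) → Module.End k V := S.op (Or.inl rfl)
  by_cases hP : S.ProdZero (q := 3) (q' := 3) (Or.inl rfl) (Or.inl rfl)
  · right; left
    intro a b c d e f hab hbc hca hde hef hfd ha hb hc x
    rw [S.T_eq a b c hab hbc hca, S.T_eq d e f hde hef hfd]
    exact hP _ _ (disjoint_emb3 ha hb hc) x
  simp only [ProdZero, not_forall] at hP
  obtain ⟨e, e', hd, x, hx⟩ := hP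
  obtain ⟨E, hE0, hE1⟩ := exists_grid (m := 3) (by norm_num) (by omega) e e' hd
  haveI : NeZero ((3 : ℕ) : k) := ⟨hqk⟩
  obtain ⟨ζ, hζ⟩ := HasEnoughRootsOfUnity.exists_primitiveRoot k 3
  obtain ⟨w, hw, hwR, -⟩ := S.exists_wt (Or.inl rfl) E hqk hζ (y := o e (o e' x - x) -
    (o e' x - x)) (sub_ne_zero.mpr hx)
  obtain ⟨g, M⟩ := S.wts_moves (Or.inl rfl) E hζ.pow_eq_one (by norm_num)
  have hw0 : w ⟨0, by omega⟩ ≠ 0 := hwR _ ⟨o e' x - x, by rw [hE0]; rfl⟩
  have hw1 : w ⟨1, by omega⟩ ≠ 0 := hwR _ ⟨o e x - x, by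
    rw [hE1, LinearMap.sub_apply, Module.End.one_apply, map_sub, map_sub]
    have hc := LinearMap.congr_fun ((S.lift_commute (q := 3) (q' := 3) (Or.inl rfl) (Or.inl rfl)
      e e' hd).map S.ρ).eq x
    simp only [Module.End.mul_apply] at hc
    simp only [o, op]
    rw [hc]; abel⟩
  have hs : 2 ≤ (supp w).card := Finset.one_lt_card.mpr
    ⟨_, mem_supp.mpr hw0, _, mem_supp.mpr hw1, by simp⟩
  have hs' : (supp w).card ≤ 3 := by simpa using Finset.card_le_univ (supp w)
  have hwm := (S.mem_wts (Or.inl rfl) E).mpr hw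
  have hle := S.card_wts_le (Or.inl rfl) E hζ
  obtain hs2 | hs3 : (supp w).card = 2 ∨ (supp w).card = 3 := by omega
  · left
    have := M.count (by norm_num) {2}
      (fun s hs => ⟨w, hwm, hs2.trans (Finset.mem_singleton.mp hs).symm⟩)
    rw [Finset.sum_singleton, show Nat.choose 3 2 * (3 - 1) ^ 2 = 12 from rfl] at this
    omega
  by_cases h12 : ∃ v ∈ S.wts (Or.inl rfl) E ζ, (supp v).card = 1 ∨ (supp v).card = 2
  · left
    obtain ⟨v, hv, hv1 | hv2⟩ := h12
    · have := M.count (by norm_num) {1, 3} (by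
        intro s hs
        rcases Finset.mem_insert.mp hs with rfl | hs
        · exact ⟨v, hv, hv1⟩
        · exact ⟨w, hwm, hs3.trans (Finset.mem_singleton.mp hs).symm⟩)
      rw [Finset.sum_pair (by norm_num),
        show Nat.choose 3 1 * (3 - 1) ^ 1 + Nat.choose 3 3 * (3 - 1) ^ 3 = 14 from rfl] at this
      omega
    · have := M.count (by norm_num) {2}
        (fun s hs => ⟨v, hv, hv2.trans (Finset.mem_singleton.mp hs).symm⟩)
      rw [Finset.sum_singleton, show Nat.choose 3 2 * (3 - 1) ^ 2 = 12 from rfl] at this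
      omega
  right; right
  -- fixed spaces in the grid are nested
  have hnest : ∀ i j y, o (row E i) y = y → o (row E j) y = y := by
    intro i j y hy
    by_contra hne
    obtain ⟨v, hv, hvR, hvF⟩ := S.exists_wt (Or.inl rfl) E hqk hζ (y := o (row E j) y - y)
      (sub_ne_zero.mpr hne)
    have hvj : v j ≠ 0 := hvR j ⟨y, rfl⟩
    have hvi : v i = 0 := hvF i (by
      show o (row E i) (o (row E j) y - y) = o (row E j) y - y
      rw [map_sub, hy, ← Module.End.mul_apply, (S.B_commute _ E i j).eq, Module.End.mul_apply, hy])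
    have h1 : 1 ≤ (supp v).card := Finset.card_pos.mpr ⟨j, mem_supp.mpr hvj⟩
    have h2 : (supp v).card < 3 := by
      have := Finset.card_lt_univ_of_notMem (s := supp v) (x := i) (by simp [mem_supp, hvi])
      simpa using this
    exact h12 ⟨v, (S.mem_wts _ E).mpr hv, by omega⟩
  -- transport
  have hgen : ∀ f f' : ZMod 3 ↪ Fin r, Disjoint (Set.range f) (Set.range f') → ∀ y,
      o f y = y → o f' y = y := by
    intro f f' hff y hy
    let F : ZMod 3 ⊕ ZMod 3 ↪ Fin r := ⟨Sum.elim (row E 0) (row E 1),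
      (row E _).injective.sumElim (row E _).injective fun a b hab =>
        Set.disjoint_left.mp (row_disjoint E (i := (0 : Fin 3)) (j := 1) (by decide))
          ⟨a, rfl⟩ ⟨b, hab.symm⟩⟩
    let F' : ZMod 3 ⊕ ZMod 3 ↪ Fin r := ⟨Sum.elim f f', f.injective.sumElim f'.injective
      fun a b hab => Set.disjoint_left.mp hff ⟨a, rfl⟩ ⟨b, hab.symm⟩⟩
    obtain ⟨σ, hσ, hσF⟩ := exists_even_map F F' (by rw [Fintype.card_sum, ZMod.card]; omega)
    obtain ⟨g, rfl⟩ := S.exists_pre hσ
    have e1 : S.ρ g * o (row E 0) = o f * S.ρ g :=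
      S.op_conj _ _ _ g (cyc_conj _ _ _ fun a => hσF (Sum.inl a))
    have e2 : S.ρ g * o (row E 1) = o f' * S.ρ g :=
      S.op_conj _ _ _ g (cyc_conj _ _ _ fun a => hσF (Sum.inr a))
    have hy' : o (row E 0) (S.ρ g⁻¹ y) = S.ρ g⁻¹ y := by
      have := LinearMap.congr_fun e1 (S.ρ g⁻¹ y)
      rw [Module.End.mul_apply, Module.End.mul_apply, S.ρ_inv_right, hy] at this
      have h' := congrArg (S.ρ g⁻¹) this
      rwa [S.ρ_inv_left] at h'
    have := LinearMap.congr_fun e2 (S.ρ g⁻¹ y)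
    rw [Module.End.mul_apply, Module.End.mul_apply, hnest 0 1 _ hy', S.ρ_inv_right] at this
    exact this.symm
  intro a b c hab hbc hca y hy
  refine S.no_fixed fun d f g hdf hfg hgd => ?_
  have h6 := Finset.card_le_six (a := a) (b := b) (c := c) (d := d) (e := f) (f := g)
  obtain ⟨u, -, hu, -, -⟩ := exists_two_out ({a, b, c, d, f, g} : Finset (Fin r)) (by omega)
  obtain ⟨v, t, hv, ht, hvt⟩ := exists_two_out (insert u ({a, b, c, d, f, g} : Finset (Fin r))) (by
    have := Finset.card_insert_le u ({a, b, c, d, f, g} : Finset (Fin r))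
    omega)
  simp only [Finset.mem_insert, Finset.mem_singleton, not_or] at hu hv ht
  rw [S.T_eq d f g hdf hfg hgd]
  refine hgen (emb3 u v t (Ne.symm hv.1) hvt ht.1) _ ?_ _ (hgen (emb3 a b c hab hbc hca) _ ?_ _ ?_)
  · obtain ⟨-, -, -, hud, huf, hug⟩ := hu
    obtain ⟨-, -, -, -, hvd, hvf, hvg⟩ := hv
    obtain ⟨-, -, -, -, htd, htf, htg⟩ := ht
    exact disjoint_emb3 (by simp [hud, huf, hug]) (by simp [hvd, hvf, hvg]) (by simp [htd, htf, htg])
  · obtain ⟨hua, hub, huc, -⟩ := hu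
    obtain ⟨-, hva, hvb, hvc, -⟩ := hv
    obtain ⟨-, hta, htb, htc, -⟩ := ht
    exact (disjoint_emb3 (by simp [hua, hub, huc]) (by simp [hva, hvb, hvc])
      (by simp [hta, htb, htc])).symm
  · show S.op _ _ y = y
    rw [← S.T_eq a b c hab hbc hca]; exact hy

theorem nine_three (hr : r = 9) (h5 : (5 : k) ≠ 0) (h3 : (3 : k) = 0) :
    haveI : Fact (Nat.Prime 3) := ⟨Nat.prime_three⟩
    haveI : Fact (Nat.Prime 5) := ⟨Nat.prime_five⟩
    8 ≤ Module.finrank k V ∨ S.ProdZero (q := 3) (q' := 5) (Or.inl rfl) (Or.inr rfl) := by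
  haveI : Fact (Nat.Prime 3) := ⟨Nat.prime_three⟩
  haveI : Fact (Nat.Prime 5) := ⟨Nat.prime_five⟩
  by_cases hP : S.ProdZero (q := 3) (q' := 5) (Or.inl rfl) (Or.inr rfl)
  · exact Or.inr hP
  left
  simp only [ProdZero, not_forall] at hP
  obtain ⟨σ, e, hd, x, hx⟩ := hP
  let Y := S.op (q := 5) (Or.inr rfl) e
  let T₀ := S.op (q := 3) (Or.inl rfl) σ
  have hqk : ((5 : ℕ) : k) ≠ 0 := by exact_mod_cast h5
  haveI : NeZero ((5 : ℕ) : k) := ⟨hqk⟩
  obtain ⟨ζ, hζ⟩ := HasEnoughRootsOfUnity.exists_primitiveRoot k 5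
  have hc : Commute T₀ Y := (S.lift_commute (Or.inl rfl) (Or.inr rfl) σ e hd).map S.ρ
  -- an eigenspace on which the 3-cycle acts nontrivially
  let z0 := T₀ (Y x - x) - (Y x - x)
  have hz0 : z0 ≠ 0 := sub_ne_zero.mpr hx
  let N : Submodule k V := LinearMap.range (Y - 1) ⊓ LinearMap.range (T₀ - 1)
  have hz0N : z0 ∈ N := by
    refine ⟨⟨T₀ x - x, ?_⟩, ⟨Y x - x, rfl⟩⟩
    simp only [z0, LinearMap.sub_apply, Module.End.one_apply, map_sub]
    rw [← Module.End.mul_apply Y, ← hc.eq, Module.End.mul_apply]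
  obtain ⟨z, hzN, hz, hzY⟩ := exists_common_eigen (fun _ : Unit => Y) (fun _ _ => Commute.refl _)
    Finset.univ N (fun h => hz0 ((Submodule.eq_bot_iff _).mp h z0 hz0N)) (by
      rintro - y ⟨⟨y1, rfl⟩, ⟨y2, hy2⟩⟩
      refine ⟨⟨Y y1, ?_⟩, ⟨Y y2, ?_⟩⟩
      · simp [map_sub]
      · rw [← hy2, ← Module.End.mul_apply, ← Module.End.mul_apply]
        exact congrArg (· y2) ((hc.sub_left (Commute.one_left Y)).eq))
  obtain ⟨μ, hμ⟩ := hzY () (Finset.mem_univ _)
  have hμ5 : μ ^ 5 = 1 := by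
    have := pow_apply_eigen _ hμ 5
    rw [S.op_pow_self, Module.End.one_apply] at this
    exact smul_left_injective k hz (by simpa using this.symm)
  have hμ1 : μ ≠ 1 := fun h => hz (eq_zero_of_fixed_range hqk (S.op_pow_self _ _)
    (by rw [hμ, h, one_smul]) hzN.1)
  obtain ⟨a, ha, rfl⟩ := hζ.eq_pow_of_pow_eq_one hμ5
  let Es : Fin 4 → Submodule k V := fun i => Y.eigenspace (ζ ^ ((i : ℕ) + 1))
  -- the special eigenspace has dimension at least two
  have hdim : 2 ≤ Module.finrank k (Y.eigenspace (ζ ^ a)) := by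
    by_contra hlt
    have hzE : z ∈ Y.eigenspace (ζ ^ a) := Module.End.mem_eigenspace_iff.mpr hμ
    have hd1 : Module.finrank k (Y.eigenspace (ζ ^ a)) = 1 := by
      have : 1 ≤ Module.finrank k (Y.eigenspace (ζ ^ a)) := by
        rw [Nat.one_le_iff_ne_zero, ne_eq, Submodule.finrank_eq_zero]
        exact fun h => hz ((Submodule.eq_bot_iff _).mp h z hzE)
      omega
    have hspan : ∀ y ∈ Y.eigenspace (ζ ^ a), ∃ t : k, t • z = y := by
      intro y hy
      obtain ⟨t, ht⟩ := exists_smul_eq_of_finrank_eq_one hd1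
        (x := (⟨z, hzE⟩ : Y.eigenspace (ζ ^ a))) (by simpa using hz) ⟨y, hy⟩
      exact ⟨t, congrArg Subtype.val ht⟩
    obtain ⟨u, hu⟩ := hzN.2
    obtain ⟨t, ht⟩ := hspan (T₀ z) (Module.End.mem_eigenspace_iff.mpr (by
      rw [← Module.End.mul_apply, ← hc.eq, Module.End.mul_apply, hμ, map_smul]))
    have ht3 : t ^ 3 = 1 := by
      have := pow_apply_eigen _ ht.symm 3
      rw [S.op_pow_self, Module.End.one_apply] at this
      exact smul_left_injective k hz (by simpa using this.symm)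
    have ht1 : t = 1 := by
      have : (t - 1) ^ 3 = 0 := by linear_combination ht3 - (t ^ 2 - t) * h3
      exact sub_eq_zero.mp (pow_eq_zero_iff (by norm_num) |>.mp this)
    -- the component of `u` in the eigenspace
    have hne : ζ ^ a ≠ 0 := pow_ne_zero _ (hζ.ne_zero (by norm_num))
    let c0 : k := (ζ ^ a)⁻¹
    let P : Module.End k V :=
      1 + c0 • Y + c0 ^ 2 • (Y ^ 2) + c0 ^ 3 • (Y ^ 3) + c0 ^ 4 • (Y ^ 4)
    have hPz : P z = (5 : k) • z := by
      have hcm : ∀ j : ℕ, c0 ^ j • ((Y ^ j) z) = z := fun j => by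
        rw [pow_apply_eigen _ hμ, smul_smul, ← mul_pow, inv_mul_cancel₀ hne, one_pow, one_smul]
      have h1 := hcm 1
      rw [pow_one, pow_one] at h1
      simp only [P, LinearMap.add_apply, LinearMap.smul_apply, Module.End.one_apply, h1, hcm]
      module
    have hPu : P u ∈ Y.eigenspace (ζ ^ a) := by
      rw [Module.End.mem_eigenspace_iff]
      have h4 : Y (Y (Y (Y (Y u)))) = u := by
        have hY5 : (Y ^ 5) u = u := by rw [S.op_pow_self]; rfl
        simpa [pow_succ', Module.End.mul_apply] using hY5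
      simp only [P, LinearMap.add_apply, LinearMap.smul_apply, Module.End.one_apply, map_add, map_smul,
        pow_succ' Y, pow_zero, Module.End.mul_apply, h4]
      have e0 : ζ ^ a * c0 = 1 := mul_inv_cancel₀ hne
      have e5 : c0 ^ 5 = 1 := by rw [inv_pow, hμ5, inv_one]
      match_scalars
      · linear_combination -e0
      · linear_combination -c0 * e0
      · linear_combination -c0 ^ 2 * e0
      · linear_combination -c0 ^ 3 * e0
      · linear_combination ζ ^ a * e5 - c0 ^ 4 * e0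
    obtain ⟨t', ht'⟩ := hspan _ hPu
    have hTP : T₀ (P u) - P u = P z := by
      have hcP : Commute T₀ P := ((((Commute.one_right _).add_right (hc.smul_right _)).add_right
        ((hc.pow_right 2).smul_right _)).add_right ((hc.pow_right 3).smul_right _)).add_right
        ((hc.pow_right 4).smul_right _)
      rw [← Module.End.mul_apply, hcP.eq, Module.End.mul_apply, ← map_sub]
      exact congrArg P hu
    rw [← ht', map_smul, ← ht, ht1, one_smul, sub_self, hPz] at hTP
    exact hz ((smul_eq_zero.mp hTP.symm).resolve_left h5)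
  -- all four eigenspaces have the same dimension
  have hsame : ∀ i, 2 ≤ Module.finrank k (Es i) := by
    intro i
    have hb : ((i : ℕ) + 1 : ZMod 5) ≠ 0 := by
      rw [← Nat.cast_one, ← Nat.cast_add, ne_eq, ZMod.natCast_eq_zero_iff]
      omega
    have ha0 : (a : ZMod 5) ≠ 0 := by
      rw [ne_eq, ZMod.natCast_eq_zero_iff]
      intro hd'
      have : a = 0 := Nat.eq_zero_of_dvd_of_lt hd' ha
      exact hμ1 (by rw [this, pow_zero])
    let cu : (ZMod 5)ˣ := Units.mk0 ((a : ZMod 5) * (((i : ℕ) + 1 : ZMod 5))⁻¹)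
      (mul_ne_zero ha0 (inv_ne_zero hb))
    obtain ⟨s, hs, hse⟩ := exists_mul_elem e cu (by omega)
    obtain ⟨g, rfl⟩ := S.exists_pre hs
    have hnd : ¬ 5 ∣ (cu : ZMod 5).val := fun hd' =>
      cu.ne_zero ((ZMod.val_eq_zero _).mp (Nat.eq_zero_of_dvd_of_lt hd' (ZMod.val_lt _)))
    have hop : S.ρ g * Y = Y ^ (cu : ZMod 5).val * S.ρ g := by
      simp only [Y, op]
      rw [← map_pow, ← map_mul, ← map_mul, ← S.lift_conj_pow (Or.inr rfl) _ _ g _ hnd hse]
      congr 1; group
    have hmap : ∀ y ∈ Y.eigenspace (ζ ^ a), S.ρ g y ∈ Es i := by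
      intro y hy
      rw [Module.End.mem_eigenspace_iff] at hy
      have h1 : (Y ^ (cu : ZMod 5).val) (S.ρ g y) = ζ ^ a • S.ρ g y := by
        rw [← Module.End.mul_apply, ← hop, Module.End.mul_apply, hy, map_smul]
      have h2 := pow_apply_eigen _ h1 (((cu⁻¹ : (ZMod 5)ˣ) : ZMod 5)).val
      rw [← pow_mul, ← pow_mul, pow_eq_pow_mod _ (S.op_pow_self _ e), ← ZMod.val_mul, Units.mul_inv,
        ZMod.val_one, pow_one] at h2
      refine Module.End.mem_eigenspace_iff.mpr (h2.trans ?_)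
      congr 1
      rw [pow_eq_pow_mod _ hζ.pow_eq_one, pow_eq_pow_mod ((i : ℕ) + 1) hζ.pow_eq_one]
      congr 1
      rw [← ZMod.natCast_eq_natCast_iff']
      simp only [Nat.cast_mul, ZMod.natCast_zmod_val, Nat.cast_add, Nat.cast_one, cu,
        Units.val_inv_eq_inv_val, Units.val_mk0, mul_inv, inv_inv]
      rw [← mul_assoc, mul_inv_cancel₀ ha0, one_mul]
    have hinj : Function.Injective ((S.ρ g).restrict hmap) := by
      intro y y' h
      apply Subtype.ext
      have h' := congrArg (fun w : Es i => S.ρ g⁻¹ (w : V)) h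
      simpa [S.ρ_inv_left] using h'
    exact hdim.trans (LinearMap.finrank_le_finrank_of_injective hinj)
  -- four independent eigenspaces
  have hind : iSupIndep Es := (Y.eigenspaces_iSupIndep).comp fun i j hij => by
    have := hζ.pow_inj (by omega) (by omega) hij
    exact Fin.ext (by omega)
  have hsum : ∀ s : Finset (Fin 4), 2 * s.card ≤ Module.finrank k ↥(⨆ i ∈ (s : Set (Fin 4)), Es i) := by
    intro s
    induction s using Finset.induction with
    | empty => simp
    | @insert b s hbs ih =>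
      have hdj := hind.disjoint_biSup (x := b) (y := (s : Set (Fin 4))) (by simpa using hbs)
      have h1 := Submodule.finrank_sup_add_finrank_inf_eq (Es b) (⨆ i ∈ (s : Set (Fin 4)), Es i)
      rw [hdj.eq_bot, finrank_bot, add_zero] at h1
      rw [Finset.card_insert_of_notMem hbs, Finset.coe_insert, iSup_insert]
      have := hsame b
      omega
  exact le_trans (by simpa using hsum Finset.univ) (Submodule.finrank_le _)

end Setup

end Cfsg.Agent.Components.AltSection
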