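import Cfsg.Agent.Components.AltSection.Dichotomy

/-!
The disjointness condition for 3-cycles from cycles of length five.
-/

set_option autoImplicit false

namespace Cfsg.Agent.Components.AltSection

open Equiv

universe u v w

namespace Setup

variable {r : ℕ} {k : Type u} {V : Type v} {H : Type w} [Field k] [AddCommGroup V] [Module k V]
  [Group H] (S : Setup r k V H)

theorem range_invariant {q : ℕ} [Fact q.Prime] (hq : q = 3 ∨ q = 5) (e : ZMod q ↪ Fin r) (g : H)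
    (hg : ∀ a, S.π g (e a) = e a) :
    ∀ x ∈ LinearMap.range (S.op hq e - 1), S.ρ g x ∈ LinearMap.range (S.op hq e - 1) := by
  have hc : Commute g (S.lift hq e) := by
    refine S.commute_of_commute hq e (S.π_lift hq e) ?_
    have := cyc_conj e e (S.π g) hg
    exact mul_inv_eq_iff_eq_mul.mp this
  rintro _ ⟨y, rfl⟩
  refine ⟨S.ρ g y, ?_⟩
  rw [LinearMap.sub_apply, LinearMap.sub_apply, Module.End.one_apply, Module.End.one_apply, map_sub,
    op, ← Module.End.mul_apply, ← Module.End.mul_apply, (hc.map S.ρ).eq]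

theorem scalar_of_π_eq {t y₁ y₂ : H} (h : S.π t = S.π y₁ * S.π y₂) :
    ∃ c : k, S.ρ t = c • (S.ρ y₁ * S.ρ y₂) := by
  obtain ⟨c, hc⟩ := S.scalar (t * (y₁ * y₂)⁻¹) (by
    rw [map_mul, map_inv, map_mul, h, mul_inv_cancel])
  refine ⟨c, ?_⟩
  calc S.ρ t = S.ρ ((t * (y₁ * y₂)⁻¹) * (y₁ * y₂)) := by rw [inv_mul_cancel_right]
    _ = _ := by rw [map_mul, hc, map_mul, smul_mul_assoc, one_mul]

/-- A 3-cycle acts trivially where all 5-cycles on five points containing it do. -/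
theorem kill (e : ZMod 5 ↪ Fin r) (W : Submodule k V)
    (hW : ∀ g : H, (∀ w, w ∉ Set.range e → S.π g w = w) → ∀ x ∈ W, S.ρ g x ∈ W)
    (h : ∀ e' : ZMod 5 ↪ Fin r, Set.range e' ⊆ Set.range e →
      haveI : Fact (Nat.Prime 5) := ⟨Nat.prime_five⟩
      ∀ x ∈ W, S.op (q := 5) (Or.inr rfl) e' x = x) :
    ∀ x ∈ W, S.T (e 0) (e 1) (e 2) x = x := by
  haveI : Fact (Nat.Prime 5) := ⟨Nat.prime_five⟩
  intro x hx
  by_cases hx0 : x = 0
  · rw [hx0, map_zero]
  have hab : e 0 ≠ e 1 := e.injective.ne (show (0 : Fin 5) ≠ 1 by decide)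
  have hbc : e 1 ≠ e 2 := e.injective.ne (show (1 : Fin 5) ≠ 2 by decide)
  have hca : e 2 ≠ e 0 := e.injective.ne (show (2 : Fin 5) ≠ 0 by decide)
  have hde : e 3 ≠ e 4 := e.injective.ne (show (3 : Fin 5) ≠ 4 by decide)
  obtain ⟨e₁, e₂, h1, h2, he⟩ := c3_eq_mul_cyc e
  obtain ⟨t, ht, htT⟩ := S.exists_T _ _ _ hab hbc hca
  obtain ⟨c, hc⟩ := S.scalar_of_π_eq (t := t) (y₁ := S.lift (q := 5) (Or.inr rfl) e₁)
    (y₂ := S.lift (q := 5) (Or.inr rfl) e₂) (by rw [ht, he, π_lift, π_lift])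
  have hTW : ∀ y ∈ W, S.T (e 0) (e 1) (e 2) y = c • y := by
    intro y hy
    rw [← htT, hc, LinearMap.smul_apply, Module.End.mul_apply]
    rw [show S.ρ (S.lift (q := 5) (Or.inr rfl) e₂) y = y from h e₂ h2 y hy,
      show S.ρ (S.lift (q := 5) (Or.inr rfl) e₁) y = y from h e₁ h1 y hy]
  -- an inverting element supported on the five points
  obtain ⟨g, hg⟩ := S.exists_pre (σ := Equiv.swap (e 0) (e 1) * Equiv.swap (e 3) (e 4))
    (Perm.mem_alternatingGroup.mpr (by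
      rw [map_mul, Perm.sign_swap hab, Perm.sign_swap hde]; rfl))
  have hgout : ∀ w, w ∉ Set.range e → S.π g w = w := by
    intro w hw
    have h' : ∀ i, w ≠ e i := fun i h => hw ⟨i, h.symm⟩
    rw [hg, Perm.mul_apply, swap_apply_of_ne_of_ne (h' 3) (h' 4),
      swap_apply_of_ne_of_ne (h' 0) (h' 1)]
  have n30 : e 0 ≠ e 3 := e.injective.ne (show (0 : Fin 5) ≠ 3 by decide)
  have n40 : e 0 ≠ e 4 := e.injective.ne (show (0 : Fin 5) ≠ 4 by decide)
  have n31 : e 1 ≠ e 3 := e.injective.ne (show (1 : Fin 5) ≠ 3 by decide)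
  have n41 : e 1 ≠ e 4 := e.injective.ne (show (1 : Fin 5) ≠ 4 by decide)
  have n32 : e 2 ≠ e 3 := e.injective.ne (show (2 : Fin 5) ≠ 3 by decide)
  have n42 : e 2 ≠ e 4 := e.injective.ne (show (2 : Fin 5) ≠ 4 by decide)
  have g0 : S.π g (e 0) = e 1 := by
    rw [hg, Perm.mul_apply, swap_apply_of_ne_of_ne n30 n40, swap_apply_left]
  have g1 : S.π g (e 1) = e 0 := by
    rw [hg, Perm.mul_apply, swap_apply_of_ne_of_ne n31 n41, swap_apply_right]
  have g2 : S.π g (e 2) = e 2 := by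
    rw [hg, Perm.mul_apply, swap_apply_of_ne_of_ne n32 n42, swap_apply_of_ne_of_ne hca hbc.symm]
  have hconj := LinearMap.congr_fun (S.T_conj g (e 0) (e 1) (e 2)) x
  have hgx := hW g hgout x hx
  rw [Module.End.mul_apply, Module.End.mul_apply, g0, g1, g2, hTW x hx, map_smul,
    S.T_rot (e 1) (e 0) (e 2), S.T_rot (e 0) (e 2) (e 1), S.T_inv _ _ _ hab hbc hca,
    Module.End.mul_apply, hTW _ hgx, map_smul, hTW _ hgx, smul_smul] at hconj
  have hgx0 : S.ρ g x ≠ 0 := fun h0 => hx0 (by rw [← S.ρ_inv_left g x, h0, map_zero])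
  have hcc : c = c * c := smul_left_injective k hgx0 hconj
  have hc0 : c ≠ 0 := by
    intro h0
    have := LinearMap.congr_fun (S.T_cube (e 0) (e 1) (e 2)) x
    rw [Module.End.mul_apply, Module.End.mul_apply, Module.End.one_apply, hTW x hx, h0, zero_smul,
      LinearMap.map_zero, LinearMap.map_zero] at this
    exact hx0 this.symm
  have hc1 : c = 1 := mul_left_cancel₀ hc0 (by rw [mul_one, ← hcc])
  rw [hTW x hx, hc1, one_smul]

theorem dc_of_three : haveI : Fact (Nat.Prime 3) := ⟨Nat.prime_three⟩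
    S.ProdZero (q := 3) (q' := 3) (Or.inl rfl) (Or.inl rfl) → S.DC := by
  haveI : Fact (Nat.Prime 3) := ⟨Nat.prime_three⟩
  intro h a b c d e f hab hbc hca hde hef hfd ha hb hc x
  rw [S.T_eq a b c hab hbc hca, S.T_eq d e f hde hef hfd]
  exact h _ _ (disjoint_emb3 ha hb hc) x

theorem dc_of_mixed : haveI : Fact (Nat.Prime 3) := ⟨Nat.prime_three⟩
    haveI : Fact (Nat.Prime 5) := ⟨Nat.prime_five⟩
    S.ProdZero (q := 3) (q' := 5) (Or.inl rfl) (Or.inr rfl) → S.DC := by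
  haveI : Fact (Nat.Prime 3) := ⟨Nat.prime_three⟩
  haveI : Fact (Nat.Prime 5) := ⟨Nat.prime_five⟩
  intro h a b c d e f hab hbc hca hde hef hfd ha hb hc x
  have hr := S.nine
  obtain ⟨E, E0, E1, E2, hE⟩ := exists_emb5 a b c hab hbc hca {d, e, f} (by
    have := Finset.card_le_three (a := d) (b := e) (c := f); omega) ha hb hc
  have hker := S.kill E (LinearMap.range (S.T d e f - 1)) ?_ ?_ _ ⟨x, rfl⟩
  · rw [E0, E1, E2] at hker; exact hker
  · intro g hg
    rw [S.T_eq d e f hde hef hfd]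
    refine S.range_invariant _ _ g fun (i : Fin 3) => hg _ fun ⟨j, hj⟩ => hE j ?_
    rw [hj, Finset.mem_insert, Finset.mem_insert, Finset.mem_singleton]
    exact mem_range_emb3.mp ⟨i, rfl⟩
  · intro e' he' y hy
    obtain ⟨y', rfl⟩ := hy
    have hd : Disjoint (Set.range (emb3 d e f hde hef hfd)) (Set.range e') := by
      rw [Set.disjoint_left]
      intro w hw hw'
      obtain ⟨j, hj⟩ := he' hw'
      refine hE j ?_
      rw [hj]
      simpa using mem_range_emb3.mp hw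
    rw [LinearMap.sub_apply, Module.End.one_apply, S.T_eq d e f hde hef hfd]
    have hc' := LinearMap.congr_fun
      ((S.lift_commute (q := 3) (q' := 5) (Or.inl rfl) (Or.inr rfl) _ _ hd).map S.ρ).eq y'
    have h1 := h (emb3 d e f hde hef hfd) e' hd y'
    simp only [op, map_sub, Module.End.mul_apply] at hc' h1 ⊢
    rw [hc'] at h1
    linear_combination (norm := module) h1

theorem mixed_of_five (hr : 10 ≤ r) : haveI : Fact (Nat.Prime 3) := ⟨Nat.prime_three⟩
    haveI : Fact (Nat.Prime 5) := ⟨Nat.prime_five⟩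
    S.ProdZero (q := 5) (q' := 5) (Or.inr rfl) (Or.inr rfl) →
      S.ProdZero (q := 3) (q' := 5) (Or.inl rfl) (Or.inr rfl) := by
  haveI : Fact (Nat.Prime 3) := ⟨Nat.prime_three⟩
  haveI : Fact (Nat.Prime 5) := ⟨Nat.prime_five⟩
  intro h σ e hd x
  have h01 : σ 0 ≠ σ 1 := σ.injective.ne (show (0 : Fin 3) ≠ 1 by decide)
  have h12 : σ 1 ≠ σ 2 := σ.injective.ne (show (1 : Fin 3) ≠ 2 by decide)
  have h20 : σ 2 ≠ σ 0 := σ.injective.ne (show (2 : Fin 3) ≠ 0 by decide)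
  have hσ : σ = emb3 (σ 0) (σ 1) (σ 2) h01 h12 h20 := by
    refine DFunLike.ext _ _ fun (i : Fin 3) => ?_
    fin_cases i <;> rfl
  have hout : ∀ i, σ i ∉ Finset.univ.map e := fun i hi => by
    obtain ⟨j, -, hj⟩ := Finset.mem_map.mp hi
    exact Set.disjoint_left.mp hd ⟨i, rfl⟩ ⟨j, hj⟩
  obtain ⟨E, E0, E1, E2, hE⟩ := exists_emb5 (σ 0) (σ 1) (σ 2) h01 h12 h20 (Finset.univ.map e)
    (by rw [Finset.card_map, Finset.card_univ, ZMod.card]; omega) (hout 0) (hout 1) (hout 2)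
  have hker := S.kill E (LinearMap.range (S.op (q := 5) (Or.inr rfl) e - 1)) ?_ ?_ _ ⟨x, rfl⟩
  · rw [E0, E1, E2, S.T_eq _ _ _ h01 h12 h20, ← hσ] at hker
    exact hker
  · intro g hg
    exact S.range_invariant _ e g fun i => hg _ fun ⟨j, hj⟩ =>
      hE j (Finset.mem_map.mpr ⟨i, Finset.mem_univ _, hj.symm⟩)
  · intro e' he' y hy
    obtain ⟨y', rfl⟩ := hy
    refine h e' e ?_ y'
    rw [Set.disjoint_left]
    intro w hw ⟨i, hi⟩
    obtain ⟨j, hj⟩ := he' hw
    exact hE j (Finset.mem_map.mpr ⟨i, Finset.mem_univ _, hi.trans hj.symm⟩)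

end Setup

end Cfsg.Agent.Components.AltSection
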