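import Cfsg.Agent.Components.AltSection.DisjointCond

/-!
The filtration by displacement spaces of 3-cycles.
-/

set_option autoImplicit false

namespace Cfsg.Agent.Components.AltSection

open Equiv

universe u v w

namespace Setup

variable {r : ℕ} {k : Type u} {V : Type v} {H : Type w} [Field k] [AddCommGroup V] [Module k V]
  [Group H] (S : Setup r k V H)

/-- Displacement space. -/
noncomputable def U (a b c : Fin r) : Submodule k V := LinearMap.range (S.T a b c - 1)

theorem mem_U {a b c : Fin r} {x : V} : x ∈ S.U a b c ↔ ∃ y, S.T a b c y - y = x := by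
  simp [U, LinearMap.mem_range]

theorem sub_mem_U (a b c : Fin r) (y : V) : S.T a b c y - y ∈ S.U a b c := S.mem_U.mpr ⟨y, rfl⟩

theorem U_rot (a b c : Fin r) : S.U a b c = S.U b c a := by rw [U, U, S.T_rot]

theorem U_rev {a b c : Fin r} (hab : a ≠ b) (hbc : b ≠ c) (hca : c ≠ a) :
    S.U c b a = S.U a b c := by
  have key : ∀ {a b c : Fin r}, a ≠ b → b ≠ c → c ≠ a → S.U c b a ≤ S.U a b c := by
    intro a b c h1 h2 h3 x hx
    obtain ⟨y, rfl⟩ := S.mem_U.mp hx
    refine S.mem_U.mpr ⟨S.T a b c y + y, ?_⟩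
    rw [S.T_inv a b c h1 h2 h3, Module.End.mul_apply, map_add]; abel
  exact le_antisymm (key hab hbc hca) (key hbc.symm hab.symm hca.symm)

theorem U_degenerate {a b c : Fin r} (h : ¬(a ≠ b ∧ b ≠ c ∧ c ≠ a)) : S.U a b c = ⊥ := by
  rw [U, T, dif_neg h, sub_self, LinearMap.range_zero]

theorem U_ne_bot {a b c : Fin r} (hab : a ≠ b) (hbc : b ≠ c) (hca : c ≠ a) : S.U a b c ≠ ⊥ := by
  haveI : Fact (Nat.Prime 3) := ⟨Nat.prime_three⟩
  rw [U, ne_eq, LinearMap.range_eq_bot, sub_eq_zero, S.T_eq a b c hab hbc hca]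
  exact S.op_ne_one _ _

theorem map_U (g : H) {a b c : Fin r} {x : V} (hx : x ∈ S.U a b c) :
    S.ρ g x ∈ S.U (S.π g a) (S.π g b) (S.π g c) := by
  obtain ⟨y, rfl⟩ := S.mem_U.mp hx
  refine S.mem_U.mpr ⟨S.ρ g y, ?_⟩
  rw [map_sub, ← Module.End.mul_apply, ← S.T_conj, Module.End.mul_apply]

theorem U_set {a b c x y z : Fin r} (hab : a ≠ b) (hbc : b ≠ c) (hca : c ≠ a) (hxy : x ≠ y)
    (hyz : y ≠ z) (hzx : z ≠ x) (hx : x ∈ ({a, b, c} : Finset (Fin r)))
    (hy : y ∈ ({a, b, c} : Finset (Fin r))) (hz : z ∈ ({a, b, c} : Finset (Fin r))) :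
    S.U x y z = S.U a b c := by
  simp only [Finset.mem_insert, Finset.mem_singleton] at hx hy hz
  rcases hx with rfl | rfl | rfl <;> rcases hy with rfl | rfl | rfl <;>
    rcases hz with rfl | rfl | rfl <;>
    first
      | (exfalso; exact hxy rfl)
      | (exfalso; exact hyz rfl)
      | (exfalso; exact hzx rfl)
      | rfl
      | exact S.U_rot _ _ _
      | exact (S.U_rot _ _ _).symm
      | exact S.U_rev hab hbc hca
      | exact (S.U_rot _ _ _).trans (S.U_rev hab hbc hca)
      | exact (S.U_rot _ _ _).trans ((S.U_rot _ _ _).trans (S.U_rev hab hbc hca))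

/-- The span of displacement spaces inside a set of points. -/
noncomputable def W (s : Finset (Fin r)) : Submodule k V :=
  ⨆ a ∈ s, ⨆ b ∈ s, ⨆ c ∈ s, S.U a b c

theorem U_le_W {s : Finset (Fin r)} {a b c : Fin r} (ha : a ∈ s) (hb : b ∈ s) (hc : c ∈ s) :
    S.U a b c ≤ S.W s :=
  le_iSup₂_of_le a ha (le_iSup₂_of_le b hb (le_iSup₂_of_le c hc le_rfl))

theorem W_le {s : Finset (Fin r)} {X : Submodule k V}
    (h : ∀ a ∈ s, ∀ b ∈ s, ∀ c ∈ s, a ≠ b → b ≠ c → c ≠ a → S.U a b c ≤ X) : S.W s ≤ X := by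
  refine iSup₂_le fun a ha => iSup₂_le fun b hb => iSup₂_le fun c hc => ?_
  by_cases hd : a ≠ b ∧ b ≠ c ∧ c ≠ a
  · exact h a ha b hb c hc hd.1 hd.2.1 hd.2.2
  · rw [S.U_degenerate hd]; exact bot_le

theorem W_mono {s t : Finset (Fin r)} (h : s ⊆ t) : S.W s ≤ S.W t :=
  S.W_le fun _ ha _ hb _ hc _ _ _ => S.U_le_W (h ha) (h hb) (h hc)

theorem map_W (g : H) {s t : Finset (Fin r)} (h : ∀ a ∈ s, S.π g a ∈ t) {x : V} (hx : x ∈ S.W s) :
    S.ρ g x ∈ S.W t := by
  suffices S.W s ≤ (S.W t).comap (S.ρ g) from this hx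
  exact S.W_le fun a ha b hb c hc _ _ _ y hy =>
    S.U_le_W (h a ha) (h b hb) (h c hc) (S.map_U g hy)

theorem W_fixed (hDC : S.DC) {s : Finset (Fin r)} {a b c : Fin r} (hab : a ≠ b) (hbc : b ≠ c)
    (hca : c ≠ a) (ha : a ∉ s) (hb : b ∉ s) (hc : c ∉ s) {x : V} (hx : x ∈ S.W s) :
    S.T a b c x = x := by
  suffices S.W s ≤ LinearMap.ker (S.T a b c - 1) by
    simpa [sub_eq_zero] using this hx
  refine S.W_le fun d hd e he f hf hde hef hfd y hy => ?_
  obtain ⟨z, rfl⟩ := S.mem_U.mp hy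
  have hsub : ∀ {w : Fin r}, w ∉ s → w ∉ ({d, e, f} : Finset (Fin r)) := by
    intro w hw
    simp only [Finset.mem_insert, Finset.mem_singleton, not_or]
    exact ⟨fun h => hw (h ▸ hd), fun h => hw (h ▸ he), fun h => hw (h ▸ hf)⟩
  rw [LinearMap.mem_ker, LinearMap.sub_apply, Module.End.one_apply,
    hDC a b c d e f hab hbc hca hde hef hfd (hsub ha) (hsub hb) (hsub hc) z, sub_self]

theorem exists_three_out (s : Finset (Fin r)) (h : s.card + 3 ≤ r) :
    ∃ a b c, a ∉ s ∧ b ∉ s ∧ c ∉ s ∧ a ≠ b ∧ b ≠ c ∧ c ≠ a := by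
  obtain ⟨a, -, ha, -, -⟩ := exists_two_out s (by omega)
  obtain ⟨b, c, hb, hc, hbc⟩ := exists_two_out (insert a s) (by
    have := Finset.card_insert_le a s; omega)
  rw [Finset.mem_insert, not_or] at hb hc
  exact ⟨a, b, c, ha, hb.2, hc.2, Ne.symm hb.1, hbc, hc.1⟩

theorem exists_map_three {a b c x y z : Fin r} (hab : a ≠ b) (hbc : b ≠ c) (hca : c ≠ a)
    (hxy : x ≠ y) (hyz : y ≠ z) (hzx : z ≠ x) :
    ∃ g : H, S.π g a = x ∧ S.π g b = y ∧ S.π g c = z := by
  obtain ⟨σ, hσ, h⟩ := exists_even_map (emb3 a b c hab hbc hca) (emb3 x y z hxy hyz hzx)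
    (by have := S.nine; rw [ZMod.card]; omega)
  obtain ⟨g, rfl⟩ := S.exists_pre hσ
  exact ⟨g, h (0 : Fin 3), h (1 : Fin 3), h (2 : Fin 3)⟩

theorem ρ_injective (g : H) : Function.Injective (S.ρ g) :=
  Function.LeftInverse.injective (S.ρ_inv_left g)

variable [Finite H] [FiniteDimensional k V]

theorem finrank_U_eq {a b c x y z : Fin r} (hab : a ≠ b) (hbc : b ≠ c) (hca : c ≠ a)
    (hxy : x ≠ y) (hyz : y ≠ z) (hzx : z ≠ x) :
    Module.finrank k (S.U a b c) = Module.finrank k (S.U x y z) := by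
  have key : ∀ {a b c x y z : Fin r}, a ≠ b → b ≠ c → c ≠ a → x ≠ y → y ≠ z → z ≠ x →
      Module.finrank k (S.U a b c) ≤ Module.finrank k (S.U x y z) := by
    intro a b c x y z h1 h2 h3 h4 h5 h6
    obtain ⟨g, rfl, rfl, rfl⟩ := S.exists_map_three h1 h2 h3 h4 h5 h6
    refine LinearMap.finrank_le_finrank_of_injective
      (f := (S.ρ g).restrict fun w hw => S.map_U g hw) fun u v h => Subtype.ext ?_
    exact S.ρ_injective g (congrArg Subtype.val h)
  exact le_antisymm (key hab hbc hca hxy hyz hzx) (key hxy hyz hzx hab hbc hca)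

theorem W_strict (hDC : S.DC) {s : Finset (Fin r)} (hs : 3 ≤ s.card) (hr : s.card + 3 ≤ r)
    {a : Fin r} (ha : a ∉ s) :
    Module.finrank k (S.W s) < Module.finrank k (S.W (insert a s)) := by
  refine Submodule.finrank_lt_finrank_of_lt (lt_of_le_of_ne (S.W_mono (Finset.subset_insert a s))
    fun hstall => ?_)
  have hall : ∀ b, b ∉ s → S.W (insert b s) ≤ S.W s := by
    intro b hb
    by_cases hba : b = a
    · rw [hba, ← hstall]
    obtain ⟨u, hu⟩ : ∃ u, u ∉ insert b (insert a s) := by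
      have h' : ((insert b (insert a s))ᶜ).Nonempty := by
        rw [← Finset.card_pos, Finset.card_compl, Fintype.card_fin,
          Finset.card_insert_of_notMem (by simp [hba, hb]), Finset.card_insert_of_notMem ha]
        omega
      exact ⟨h'.choose, Finset.mem_compl.mp h'.choose_spec⟩
    simp only [Finset.mem_insert, not_or] at hu
    obtain ⟨hub, hua, hus⟩ := hu
    obtain ⟨t, ht, htT⟩ := S.exists_T a b u (Ne.symm hba) (Ne.symm hub) hua
    intro x hx
    have hy : S.ρ t⁻¹ x ∈ S.W s := by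
      rw [hstall]
      refine S.map_W _ (fun w hw => ?_) hx
      rw [map_inv, ht, c3_inv]
      rcases Finset.mem_insert.mp hw with rfl | hw
      · rw [c3_apply_snd hba (Ne.symm hua)]
        exact Finset.mem_insert_self a s
      · rw [c3_apply_other (fun h => hus (by rwa [← h])) (fun h => hb (by rwa [← h]))
          (fun h => ha (by rwa [← h]))]
        exact Finset.mem_insert_of_mem hw
    have := S.W_fixed hDC (Ne.symm hba) (Ne.symm hub) hua ha hb hus hy
    rw [← htT, S.ρ_inv_right] at this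
    rwa [this]
  let Inv : Fin r → Fin r → Fin r → Prop := fun x y z => ∀ w ∈ S.W s, S.T x y z w ∈ S.W s
  have two : ∀ x y z, x ∈ s → y ∈ s → Inv x y z := by
    intro x y z hx hy w hw
    have h1 : S.U x y z ≤ S.W s := by
      by_cases hz : z ∈ s
      · exact S.U_le_W hx hy hz
      · exact le_trans (S.U_le_W (Finset.mem_insert_of_mem hx) (Finset.mem_insert_of_mem hy)
          (Finset.mem_insert_self z s)) (hall z hz)
    simpa using add_mem (h1 (S.sub_mem_U x y z w)) hw
  have rot : ∀ x y z, Inv y z x → Inv x y z := fun x y z h w hw => by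
    rw [S.T_rot]; exact h w hw
  have one : ∀ x y z, x ≠ y → y ≠ z → z ≠ x → x ∈ s → y ∉ s → z ∉ s → Inv x y z := by
    intro x y z hxy hyz hzx hx hy hz w hw
    obtain ⟨s', hs', hs'x⟩ := Finset.exists_mem_ne (by omega : 1 < s.card) x
    obtain ⟨u, hu⟩ : ((s.erase x).erase s').Nonempty := by
      rw [← Finset.card_pos, Finset.card_erase_of_mem (Finset.mem_erase.mpr ⟨hs'x, hs'⟩),
        Finset.card_erase_of_mem hx]
      omega
    simp only [Finset.mem_erase] at hu
    obtain ⟨hus', hux, hus⟩ := hu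
    have h1 : s' ≠ y := fun h => hy (h ▸ hs')
    have h2 : y ≠ u := fun h => hy (h ▸ hus)
    obtain ⟨t, ht, htT⟩ := S.exists_T s' y u h1 h2 hus'
    have hI : Inv s' y u := rot _ _ _ (rot _ _ _ (two u s' y hus hs'))
    have hw' : S.ρ t⁻¹ w ∈ S.W s := by
      have h3 : S.ρ t⁻¹ w = S.T s' y u (S.T s' y u w) := by
        have := LinearMap.congr_fun (S.T_cube s' y u) w
        simp only [Module.End.mul_apply, Module.End.one_apply] at this
        conv_lhs => rw [← this, ← htT, S.ρ_inv_left]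
        rw [htT]
      rw [h3]
      exact hI _ (hI _ hw)
    have hc := LinearMap.congr_fun (S.T_conj t x s' z) (S.ρ t⁻¹ w)
    rw [Module.End.mul_apply, Module.End.mul_apply, S.ρ_inv_right, ht,
      c3_apply_other (Ne.symm hs'x) hxy (Ne.symm hux), c3_apply_fst h1 hus',
      c3_apply_other (fun h : z = s' => hz (h ▸ hs')) hyz.symm (fun h : z = u => hz (h ▸ hus))] at hc
    rw [← hc, htT]
    exact hI _ (two x s' z hx hs' _ hw')
  have hinv : ∀ x y z, x ≠ y → y ≠ z → z ≠ x → Inv x y z := by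
    intro x y z hxy hyz hzx
    by_cases hx : x ∈ s <;> by_cases hy : y ∈ s <;> by_cases hz : z ∈ s
    · exact two _ _ _ hx hy
    · exact two _ _ _ hx hy
    · exact rot _ _ _ (rot _ _ _ (two z x y hz hx))
    · exact one _ _ _ hxy hyz hzx hx hy hz
    · exact rot _ _ _ (two y z x hy hz)
    · exact rot _ _ _ (one y z x hyz hzx hxy hy hz hx)
    · exact rot _ _ _ (rot _ _ _ (one z x y hzx hxy hyz hz hx hy))
    · exact fun w hw => by rw [S.W_fixed hDC hxy hyz hzx hx hy hz hw]; exact hw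
  rcases S.irred _ (S.invariant_of_T _ hinv) with h | h
  · obtain ⟨x, hx, y, hy, z, hz, hxy, hxz, hyz⟩ := Finset.two_lt_card.mp (by omega : 2 < s.card)
    exact S.U_ne_bot hxy hyz hxz.symm (le_bot_iff.mp (h ▸ S.U_le_W hx hy hz))
  · obtain ⟨x, y, z, hx, hy, hz, hxy, hyz, hzx⟩ := exists_three_out s hr
    refine S.U_ne_bot hxy hyz hzx ((Submodule.eq_bot_iff _).mpr fun w hw => ?_)
    obtain ⟨w', rfl⟩ := S.mem_U.mp hw
    have hw' : w' ∈ S.W s := h ▸ Submodule.mem_top
    rw [S.W_fixed hDC hxy hyz hzx hx hy hz hw', sub_self]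

theorem W_chain (hDC : S.DC) {s : Finset (Fin r)} (hs : 3 ≤ s.card) (e : Finset (Fin r)) :
    Disjoint s e → s.card + e.card + 2 ≤ r →
      Module.finrank k (S.W s) + e.card ≤ Module.finrank k (S.W (s ∪ e)) := by
  induction e using Finset.induction with
  | empty => intro _ _; rw [Finset.union_empty, Finset.card_empty, add_zero]
  | @insert a e hae ih =>
    intro hd hr
    rw [Finset.disjoint_insert_right] at hd
    rw [Finset.card_insert_of_notMem hae] at hr ⊢
    have h1 := ih hd.2 (by omega)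
    have h2 := S.W_strict hDC (s := s ∪ e) (by rw [Finset.card_union_of_disjoint hd.2]; omega)
      (by rw [Finset.card_union_of_disjoint hd.2]; omega) (a := a) (by simp [hd.1, hae])
    rw [Finset.union_insert]
    omega

theorem bound (hDC : S.DC) {s : Finset (Fin r)} (hs : 3 ≤ s.card) (hs' : s.card + 3 ≤ r)
    {a b c : Fin r} (hab : a ≠ b) (hbc : b ≠ c) (hca : c ≠ a) :
    Module.finrank k (S.W s) + (r - 3 - s.card) + Module.finrank k (S.U a b c) ≤
      Module.finrank k V := by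
  obtain ⟨x, y, z, hx, hy, hz, hxy, hyz, hzx⟩ := exists_three_out s hs'
  let e : Finset (Fin r) := (s ∪ {x, y, z})ᶜ
  have he : e.card = r - 3 - s.card := by
    have h1 : (s ∪ {x, y, z}).card = s.card + 3 := by
      rw [Finset.card_union_of_disjoint (by simp [Finset.disjoint_right, hx, hy, hz]),
        Finset.card_eq_three.mpr ⟨x, y, z, hxy, hzx.symm, hyz, rfl⟩]
    rw [Finset.card_compl, Fintype.card_fin, h1]; omega
  have hd : Disjoint s e := by
    rw [Finset.disjoint_left]; intro w hw; simp [e, hw]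
  have h1 := S.W_chain hDC hs e hd (by omega)
  have hle : S.W (s ∪ e) ≤ LinearMap.ker (S.T x y z - 1) := by
    intro w hw
    have := S.W_fixed hDC hxy hyz hzx (s := s ∪ e) (by simp [e, hx]) (by simp [e, hy])
      (by simp [e, hz]) hw
    simp [this]
  have h2 := Submodule.finrank_mono hle
  have h3 := LinearMap.finrank_range_add_finrank_ker (S.T x y z - 1)
  have h4 := S.finrank_U_eq hab hbc hca hxy hyz hzx
  rw [U, U] at h4
  rw [U, ← he]
  omega

theorem bound_two (hDC : S.DC) {a b c : Fin r} (hab : a ≠ b) (hbc : b ≠ c) (hca : c ≠ a) :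
    r - 6 + 2 * Module.finrank k (S.U a b c) ≤ Module.finrank k V := by
  have hc3 : ({a, b, c} : Finset (Fin r)).card = 3 :=
    Finset.card_eq_three.mpr ⟨a, b, c, hab, hca.symm, hbc, rfl⟩
  have hr := S.nine
  have := S.bound hDC (s := {a, b, c}) (by omega) (by omega) hab hbc hca
  have h2 : Module.finrank k (S.U a b c) ≤ Module.finrank k (S.W {a, b, c}) :=
    Submodule.finrank_mono (S.U_le_W (by simp) (by simp) (by simp))
  omega

end Setup

end Cfsg.Agent.Components.AltSection
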