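import Cfsg.Agent.Components.AltSection.Minimal

/-!
The kernel of a minimal configuration consists of scalars.
-/

set_option autoImplicit false

namespace Cfsg.Agent.Components.AltSection

open Equiv
open scoped commutatorElement

universe u v w

/-- The bound for configurations of smaller degree over fields in the bottom universe. -/
def SmallBound (r n : ℕ) : Prop :=
  ∀ l < n, ∀ (k0 : Type) [Field k0] [IsAlgClosed k0] (H0 : Type w) [Group H0] [Finite H0]
    (ρ0 : Representation k0 H0 (Fin l → k0)) (π0 : H0 →* Perm (Fin r)),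
    π0.range = alternatingGroup (Fin r) → (∀ h, ρ0 h = 1 → π0 h = 1) → r ≤ l + 2

theorem two_pow_gt_sq (m : ℕ) (hm : 5 ≤ m) : m * m < 2 ^ m := by
  induction m, hm using Nat.le_induction with
  | base => norm_num
  | succ m hm ih => rw [pow_succ]; nlinarith

namespace Pre

variable {r : ℕ} {k : Type u} {V : Type v} {H : Type w} [Field k] [AddCommGroup V] [Module k V]
  [Group H] (S : Pre r k V H) [Finite H] [FiniteDimensional k V] [IsAlgClosed k]

include S in
omit [FiniteDimensional k V] [IsAlgClosed k] in
theorem ker_le_frattini : S.π.ker ≤ frattini H := by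
  simp only [frattini, Order.radical, le_iInf_iff, Set.mem_setOf_eq]
  intro M hM
  by_contra hle
  have h1 : M ⊔ S.π.ker = ⊤ := hM.2 _ (left_lt_sup.mpr hle)
  have h2 := congrArg (Subgroup.map S.π) h1
  rw [Subgroup.map_sup, (Subgroup.map_eq_bot_iff _).mpr le_rfl, sup_bot_eq,
    ← MonoidHom.range_eq_map, S.range_eq] at h2
  exact hM.1 (S.minimal M h2.ge)

include S in
omit [FiniteDimensional k V] [IsAlgClosed k] in
theorem ker_nilpotent : Group.IsNilpotent S.π.ker := by
  haveI : Group.IsNilpotent (frattini H) := frattini_nilpotent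
  exact Group.nilpotent_of_mulEquiv (Subgroup.subgroupOfEquivOfLe S.ker_le_frattini)

/-- An elementary abelian section of the kernel is small. -/
theorem elementary_section (hn : Module.finrank k V + 2 ≤ r)
    (hIH : SmallBound.{w} r (Module.finrank k V)) {q : ℕ} [Fact q.Prime] (R : Subgroup H)
    [R.Normal] (hRK : R ≤ S.π.ker) (hcomm : ⁅R, R⁆ ≤ S.scalars)
    (hexp : ∀ x ∈ R, x ^ q ∈ S.scalars) : R ≤ S.scalars := by
  classical
  haveI := S.scalars_normal
  have hcen : ∀ x ∈ R, (∀ g ∈ R, g * x = x * g) → x ∈ S.scalars := by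
    intro x hx hxc
    let A : Subgroup H := R ⊓ Subgroup.centralizer (R : Set H)
    haveI : A.Normal := Subgroup.normal_inf_normal _ _
    have hxA : x ∈ A := ⟨hx, Subgroup.mem_centralizer_iff.mpr hxc⟩
    exact S.scalar_of_abelian hn A (fun a ha b hb => Subgroup.mem_centralizer_iff.mp hb.2 a ha.1) hxA
  let Z0 : Subgroup R := S.scalars.subgroupOf R
  haveI : Z0.Normal := inferInstanceAs (S.scalars.subgroupOf R).Normal
  have hQcomm : ∀ a b : R ⧸ Z0, a * b = b * a := by
    intro a b
    induction a using QuotientGroup.induction_on with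
    | H a =>
    induction b using QuotientGroup.induction_on with
    | H b =>
    rw [← QuotientGroup.mk_mul, ← QuotientGroup.mk_mul, QuotientGroup.eq, Subgroup.mem_subgroupOf]
    have h1 := hcomm (Subgroup.commutator_mem_commutator (inv_mem b.2) (inv_mem a.2))
    simpa [commutatorElement_def, mul_assoc] using h1
  letI : AddCommGroup (Additive (R ⧸ Z0)) :=
    { (inferInstance : AddGroup (Additive (R ⧸ Z0))) with
      add_comm := fun a b => congrArg Additive.ofMul (hQcomm a.toMul b.toMul) }
  have hQexp : ∀ a : Additive (R ⧸ Z0), q • a = 0 := by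
    intro a
    show Additive.ofMul (a.toMul ^ q) = Additive.ofMul 1
    congr 1
    induction a.toMul using QuotientGroup.induction_on with
    | H a =>
    rw [← QuotientGroup.mk_pow, QuotientGroup.eq_one_iff, Subgroup.mem_subgroupOf]
    simpa using hexp a a.2
  letI := AddCommGroup.zmodModule (n := q) (G := Additive (R ⧸ Z0)) hQexp
  haveI : Finite (Additive (R ⧸ Z0)) := inferInstanceAs (Finite (R ⧸ Z0))
  have hfd : Module.Finite (ZMod q) (Additive (R ⧸ Z0)) := Module.Finite.of_finite
  let l := Module.finrank (ZMod q) (Additive (R ⧸ Z0))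
  let b : Module.Basis (Fin l) (ZMod q) (Additive (R ⧸ Z0)) :=
    Module.finBasis (ZMod q) (Additive (R ⧸ Z0))
  have hcard : Nat.card (R ⧸ Z0) = q ^ l := by
    rw [show Nat.card (R ⧸ Z0) = Nat.card (Additive (R ⧸ Z0)) from rfl,
      Nat.card_congr b.equivFun.toEquiv, Nat.card_fun, Nat.card_zmod, Nat.card_fin]
  have hsq : q ^ l ≤ Module.finrank k V * Module.finrank k V :=
    hcard ▸ S.card_quotient_le R hcomm hcen
  -- the conjugation action
  have hmap : ∀ h : H, Z0 ≤ Z0.comap (MulAut.conjNormal h : MulAut R).toMonoidHom := by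
    intro h x hx
    rw [Subgroup.mem_comap, Subgroup.mem_subgroupOf]
    show ((MulAut.conjNormal h x : R) : H) ∈ S.scalars
    rw [MulAut.conjNormal_apply]
    exact S.scalars_normal.conj_mem _ hx h
  let cj : H → (R ⧸ Z0 →* R ⧸ Z0) := fun h =>
    QuotientGroup.map Z0 Z0 (MulAut.conjNormal h : MulAut R).toMonoidHom (hmap h)
  let ρ0 : H →* Module.End (ZMod q) (Additive (R ⧸ Z0)) :=
    { toFun := fun h => AddMonoidHom.toZModLinearMap q (MonoidHom.toAdditive (cj h))
      map_one' := by
        refine LinearMap.ext fun a => ?_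
        show Additive.ofMul (cj 1 a.toMul) = a
        induction ha : a.toMul using QuotientGroup.induction_on with
        | H x =>
        have hax : a = Additive.ofMul (x : R ⧸ Z0) := by rw [← ha]; rfl
        rw [hax]
        show Additive.ofMul (((MulAut.conjNormal (1 : H) x : R)) : R ⧸ Z0) = _
        rw [map_one]; rfl
      map_mul' := fun g h => by
        refine LinearMap.ext fun a => ?_
        show Additive.ofMul (cj (g * h) a.toMul) = Additive.ofMul (cj g (cj h a.toMul))
        induction a.toMul using QuotientGroup.induction_on with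
        | H x =>
        show Additive.ofMul (((MulAut.conjNormal (g * h) x : R)) : R ⧸ Z0) = _
        rw [map_mul]; rfl }
  rcases S.normal_cases ρ0.toHomUnits.ker with hker | hker
  · exfalso
    let φ : H →* Matrix (Fin l) (Fin l) (ZMod q) :=
      (LinearMap.toMatrixAlgEquiv b).toAlgHom.toRingHom.toMonoidHom.comp ρ0
    have hφ : ∀ h, φ h = 1 → S.π h = 1 := by
      intro h hh
      refine hker (MonoidHom.mem_ker.mpr (Units.ext ?_))
      show ρ0 h = 1
      exact (LinearMap.toMatrixAlgEquiv b).injective (hh.trans (map_one _).symm)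
    by_cases hsmall : Module.finrank k V ≤ 4
    · -- too few matrices
      have hl4 : l ≤ 4 := by
        have h2 : 2 ^ l ≤ q ^ l := Nat.pow_le_pow_left (Fact.out : q.Prime).two_le l
        by_contra hlt
        have h5 : 2 ^ 5 ≤ 2 ^ l := Nat.pow_le_pow_right (by norm_num) (by omega)
        have : Module.finrank k V * Module.finrank k V ≤ 4 * 4 := Nat.mul_le_mul hsmall hsmall
        omega
      haveI : Finite (Matrix (Fin l) (Fin l) (ZMod q))ˣ := inferInstance
      have h1 := S.card_le_of_hom φ.toHomUnits (fun h hh => hφ h (congrArg Units.val hh))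
      have h2 : Nat.card (Matrix (Fin l) (Fin l) (ZMod q))ˣ ≤ (q ^ l) ^ l := by
        refine (Nat.card_le_card_of_injective _ Units.val_injective).trans (le_of_eq ?_)
        show Nat.card (Fin l → Fin l → ZMod q) = _
        rw [Nat.card_fun, Nat.card_fun, Nat.card_zmod, Nat.card_fin]
      have h3 : (q ^ l) ^ l ≤ 16 ^ 4 := by
        have h16 : q ^ l ≤ 16 := hsq.trans (Nat.mul_le_mul hsmall hsmall)
        exact (Nat.pow_le_pow_left h16 l).trans (Nat.pow_le_pow_right (by norm_num) hl4)
      have hr := S.nine
      haveI : Nontrivial (Fin r) := Fin.nontrivial_iff_two_le.mpr (by omega)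
      have h4 := two_mul_card_alternatingGroup (α := Fin r)
      rw [Fintype.card_perm, Fintype.card_fin] at h4
      rw [Nat.card_eq_fintype_card] at h1
      have h5 : Nat.factorial 9 ≤ r.factorial := Nat.factorial_le hr
      have h6 : Nat.factorial 9 = 362880 := by decide
      norm_num at h3
      omega
    · have hl : l < Module.finrank k V := by
        by_contra hle
        have h1 : 2 ^ Module.finrank k V ≤ 2 ^ l := Nat.pow_le_pow_right (by norm_num) (by omega)
        have h2 : 2 ^ l ≤ q ^ l := Nat.pow_le_pow_left (Fact.out : q.Prime).two_le l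
        have := two_pow_gt_sq (Module.finrank k V) (by omega)
        omega
      let k0 := AlgebraicClosure (ZMod q)
      let φ0 : Representation k0 H (Fin l → k0) :=
        (Matrix.toLinAlgEquiv' (R := k0)).toAlgHom.toRingHom.toMonoidHom.comp
          (((algebraMap (ZMod q) k0).mapMatrix).toMonoidHom.comp φ)
      have hb := hIH l hl k0 H φ0 S.π S.range_eq fun h hh => hφ h (by
        have h1 : (algebraMap (ZMod q) k0).mapMatrix (φ h) = 1 :=
          (Matrix.toLinAlgEquiv' (R := k0)).injective (hh.trans (map_one _).symm)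
        exact Matrix.map_injective (algebraMap (ZMod q) k0).injective
          (h1.trans (map_one (algebraMap (ZMod q) k0).mapMatrix).symm))
      have h1 : 2 ^ (r - 2) ≤ 2 ^ l := Nat.pow_le_pow_right (by norm_num) (by omega)
      have h2 : 2 ^ l ≤ q ^ l := Nat.pow_le_pow_left (Fact.out : q.Prime).two_le l
      have h3 := two_pow_gt_sq (r - 2) (by have := S.nine; omega)
      have h4 : Module.finrank k V * Module.finrank k V ≤ (r - 2) * (r - 2) :=
        Nat.mul_le_mul (by omega) (by omega)
      omega
  · intro x hx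
    refine hcen x hx fun g hg => ?_
    -- `h ↦ [h, x]` is a homomorphism to an abelian group
    have hz : ∀ h : H, h * x * h⁻¹ * x⁻¹ ∈ S.scalars := by
      intro h
      have h1 : h ∈ ρ0.toHomUnits.ker := by rw [hker]; trivial
      have h2 : ρ0 h = 1 := congrArg Units.val (MonoidHom.mem_ker.mp h1)
      have h3 : ((MulAut.conjNormal h ⟨x, hx⟩ : R) : R ⧸ Z0) = ((⟨x, hx⟩ : R) : R ⧸ Z0) :=
        Additive.ofMul.injective (LinearMap.congr_fun h2 (Additive.ofMul ((⟨x, hx⟩ : R) : R ⧸ Z0)))
      have h4 := QuotientGroup.eq.mp h3.symm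
      rw [Subgroup.mem_subgroupOf, Subgroup.coe_mul, Subgroup.coe_inv, MulAut.conjNormal_apply] at h4
      have h5 := S.scalars_normal.conj_mem _ h4 x
      simpa [mul_assoc] using h5
    letI : CommGroup S.scalars :=
      { (inferInstance : Group S.scalars) with
        mul_comm := fun a b => Subtype.ext (S.scalars_central a.2 b) }
    let d : H →* S.scalars :=
      { toFun := fun h => ⟨h * x * h⁻¹ * x⁻¹, hz h⟩
        map_one' := Subtype.ext (by simp)
        map_mul' := fun g h => Subtype.ext (by
          show g * h * x * (g * h)⁻¹ * x⁻¹ = (g * x * g⁻¹ * x⁻¹) * (h * x * h⁻¹ * x⁻¹)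
          rw [← S.scalars_central (hz h) (g * x * g⁻¹ * x⁻¹)]
          calc g * h * x * (g * h)⁻¹ * x⁻¹
              = (g * (h * x * h⁻¹ * x⁻¹)) * (x * g⁻¹ * x⁻¹) := by group
            _ = ((h * x * h⁻¹ * x⁻¹) * g) * (x * g⁻¹ * x⁻¹) := by rw [S.scalars_central (hz h) g]
            _ = _ := by group) }
    have hd : g ∈ d.ker := Abelianization.commutator_subset_ker d (by rw [S.perfect]; trivial)
    have h6 : g * x * g⁻¹ * x⁻¹ = 1 := congrArg Subtype.val (MonoidHom.mem_ker.mp hd)
    exact mul_inv_eq_iff_eq_mul.mp (mul_inv_eq_one.mp h6)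

theorem ker_le_scalars (hn : Module.finrank k V + 2 ≤ r)
    (hIH : SmallBound.{w} r (Module.finrank k V)) : S.π.ker ≤ S.scalars := by
  classical
  haveI := S.scalars_normal
  haveI := S.ker_nilpotent
  have hp : ∀ (q : ℕ) [Fact q.Prime] (P : Sylow q S.π.ker),
      (P : Subgroup S.π.ker).map S.π.ker.subtype ≤ S.scalars := by
    intro q _ P
    haveI hPn : (P : Subgroup S.π.ker).Normal :=
      P.normal_of_normalizerCondition Group.normalizerCondition_of_isNilpotent
    haveI : (P : Subgroup S.π.ker).Characteristic := P.characteristic_of_normal hPn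
    let Q : Subgroup H := (P : Subgroup S.π.ker).map S.π.ker.subtype
    haveI : Q.Normal := ConjAct.normal_of_characteristic_of_normal
    have hQp : IsPGroup q Q := P.isPGroup'.map _
    have hQK : Q ≤ S.π.ker := Subgroup.map_subtype_le _
    have hQc := S.commutator_scalar hn Q hQp.isNilpotent
    -- the elements of exponent `q` modulo scalars
    let m := QuotientGroup.mk' S.scalars
    have hm : ∀ a ∈ Q, ∀ b ∈ Q, Commute (m a) (m b) := by
      intro a ha b hb
      show m a * m b = m b * m a
      have h1 := hQc (Subgroup.commutator_mem_commutator ha hb)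
      rw [← QuotientGroup.eq_one_iff] at h1
      change m ⁅a, b⁆ = 1 at h1
      rw [map_commutatorElement, commutatorElement_eq_one_iff_mul_comm] at h1
      exact h1
    have hmem : ∀ a, a ∈ S.scalars ↔ m a = 1 := fun a => (QuotientGroup.eq_one_iff a).symm
    let R : Subgroup H :=
      { carrier := {a | a ∈ Q ∧ a ^ q ∈ S.scalars}
        one_mem' := ⟨one_mem _, by rw [one_pow]; exact one_mem _⟩
        mul_mem' := fun {a b} ha hb => ⟨mul_mem ha.1 hb.1, (hmem _).mpr (by
          rw [map_pow, map_mul, (hm a ha.1 b hb.1).mul_pow, ← map_pow, ← map_pow,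
            (hmem _).mp ha.2, (hmem _).mp hb.2, one_mul])⟩
        inv_mem' := fun {a} ha => ⟨inv_mem ha.1, by rw [inv_pow]; exact inv_mem ha.2⟩ }
    haveI : R.Normal := ⟨fun a ha g => ⟨Subgroup.Normal.conj_mem inferInstance a ha.1 g, by
      rw [conj_pow]; exact S.scalars_normal.conj_mem _ ha.2 g⟩⟩
    have hRQ : R ≤ Q := fun a ha => ha.1
    have hR : R ≤ S.scalars := S.elementary_section hn hIH R (hRQ.trans hQK)
      (le_trans (Subgroup.commutator_mono hRQ hRQ) hQc) fun a ha => ha.2
    intro a ha
    obtain ⟨t, ht⟩ := hQp ⟨a, ha⟩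
    have ht' : a ^ q ^ t = 1 := congrArg Subtype.val ht
    clear ht
    induction t generalizing a with
    | zero => rw [pow_zero, pow_one] at ht'; rw [ht']; exact one_mem _
    | succ t ih =>
      refine hR ⟨ha, ih (pow_mem ha q) ?_⟩
      rw [← pow_mul, ← pow_succ', ht']
  let T : Subgroup S.π.ker := S.scalars.subgroupOf S.π.ker
  have hdvd : Nat.card S.π.ker ∣ Nat.card T := by
    rw [Nat.dvd_iff_prime_pow_dvd_dvd]
    intro p j hp' hpj
    haveI := Fact.mk hp'
    let P : Sylow p S.π.ker := default
    have h1 : p ^ j ∣ Nat.card P := P.pow_dvd_card_of_pow_dvd_card hpj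
    refine h1.trans (Subgroup.card_dvd_of_le fun x hx => ?_)
    rw [Subgroup.mem_subgroupOf]
    exact hp p P ⟨x, hx, rfl⟩
  have hT : T = ⊤ := Subgroup.eq_top_of_card_eq _ (Nat.dvd_antisymm (Subgroup.card_subgroup_dvd_card T) hdvd)
  intro x hx
  have : (⟨x, hx⟩ : S.π.ker) ∈ T := by rw [hT]; trivial
  exact Subgroup.mem_subgroupOf.mp this

end Pre

end Cfsg.Agent.Components.AltSection
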