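import Cfsg.Agent.Components.AltSection.Perm

/-!
Canonical lifts of cycles in central extensions of alternating groups acting linearly.
-/

set_option autoImplicit false

namespace Cfsg.Agent.Components.AltSection

open Equiv

universe u v w

/-- A faithful irreducible projective representation of an alternating group. -/
structure Setup (r : ℕ) (k : Type u) (V : Type v) (H : Type w) [Field k] [AddCommGroup V]
    [Module k V] [Group H] where
  ρ : Representation k H V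
  π : H →* Perm (Fin r)
  range_eq : π.range = alternatingGroup (Fin r)
  inj : Function.Injective ρ
  scalar : ∀ h, π h = 1 → ∃ c : k, ρ h = c • (1 : Module.End k V)
  irred : ∀ W : Submodule k V, (∀ h, ∀ x ∈ W, ρ h x ∈ W) → W = ⊥ ∨ W = ⊤
  nontriv : Nontrivial V
  minimal : ∀ M : Subgroup H, alternatingGroup (Fin r) ≤ M.map π → M = ⊤
  nine : 9 ≤ r

namespace Setup

variable {r : ℕ} {k : Type u} {V : Type v} {H : Type w} [Field k] [AddCommGroup V] [Module k V]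
  [Group H] (S : Setup r k V H)

theorem mem_alt (h : H) : S.π h ∈ alternatingGroup (Fin r) := by
  rw [← S.range_eq]; exact ⟨h, rfl⟩

theorem exists_pre {σ : Perm (Fin r)} (hσ : σ ∈ alternatingGroup (Fin r)) : ∃ h, S.π h = σ := by
  rw [← S.range_eq] at hσ; exact hσ

theorem central {z : H} (hz : S.π z = 1) (h : H) : z * h = h * z := by
  obtain ⟨c, hc⟩ := S.scalar z hz
  apply S.inj
  rw [map_mul, map_mul, hc, smul_mul_assoc, mul_smul_comm, one_mul, mul_one]

theorem commute_central {z : H} (hz : S.π z = 1) (h : H) : Commute z h := S.central hz h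

/-- `z = [x, c]` for elements with commuting images. -/
theorem comm_pow {x c : H} (hcomm : Commute (S.π x) (S.π c)) {n : ℕ} (hn : S.π c ^ n = 1) :
    (x * c * x⁻¹ * c⁻¹) ^ n = 1 := by
  have hz : S.π (x * c * x⁻¹ * c⁻¹) = 1 := by
    rw [map_mul, map_mul, map_mul, map_inv, map_inv, hcomm.eq]; group
  have h1 : x * c * x⁻¹ = (x * c * x⁻¹ * c⁻¹) * c := by group
  have h2 : (x * c * x⁻¹) ^ n = (x * c * x⁻¹ * c⁻¹) ^ n * c ^ n := by
    rw [← (S.commute_central hz c).mul_pow, ← h1]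
  have h3 : (x * c * x⁻¹) ^ n = c ^ n := by
    rw [conj_pow, ← (S.commute_central (by rw [map_pow, hn]) x).eq]; group
  rw [h3] at h2
  exact mul_eq_right.mp h2.symm

theorem comm_symm {x c : H} (hcomm : Commute (S.π x) (S.π c)) :
    c * x * c⁻¹ * x⁻¹ = (x * c * x⁻¹ * c⁻¹)⁻¹ := by group

/-- Lifts of a cycle commute with every lift of a commuting element. -/
theorem commute_of_commute {q : ℕ} [Fact q.Prime] (hq : q = 3 ∨ q = 5) (e : ZMod q ↪ Fin r)
    {x c : H} (hx : S.π x = cyc e) (hc : Commute (S.π c) (cyc e)) : Commute c x := by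
  classical
  have hq2 : q ≠ 2 := by omega
  have hdisj : ∀ (a b d : Fin r), a ∉ Set.range e → b ∉ Set.range e → d ∉ Set.range e →
      a ≠ b → b ≠ d → d ≠ a → ∀ y : H, S.π y = c3 a b d → Commute y x := by
    intro a b d ha hb hd hab hbd hda y hy
    let e3 := emb3 a b d hab hbd hda
    have he3 : ∀ i, e3 i ∉ Set.range e := by
      intro i; fin_cases i <;> assumption
    have hcy : S.π y = cyc e3 := hy.trans (c3_eq_cyc a b d hab hbd hda)
    have hd1 : ∀ i, cyc e (e3 i) = e3 i := fun i => cyc_apply_out e (he3 i)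
    have hd2 : ∀ i, cyc e3 (e i) = e i := fun i => cyc_apply_out e3 fun ⟨j, hj⟩ => he3 j ⟨i, hj.symm⟩
    have hcom : Commute (S.π x) (S.π y) := by
      rw [hx, hcy]
      refine Equiv.ext fun w => ?_
      rw [Perm.mul_apply, Perm.mul_apply]
      by_cases h1 : w ∈ Set.range e
      · obtain ⟨i, rfl⟩ := h1; rw [hd2, cyc_apply, hd2]
      · by_cases h2 : w ∈ Set.range e3
        · obtain ⟨i, rfl⟩ := h2; rw [cyc_apply, hd1, hd1, cyc_apply]
        · rw [cyc_apply_out e3 h2, cyc_apply_out e h1, cyc_apply_out e3 h2]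
    have h3 : (x * y * x⁻¹ * y⁻¹) ^ 3 = 1 := S.comm_pow hcom (by rw [hcy]; exact cyc_pow_self e3)
    have h4 : (x * y * x⁻¹ * y⁻¹) ^ q = 1 := by
      have := S.comm_pow hcom.symm (n := q) (by rw [hx]; exact cyc_pow_self e)
      rw [S.comm_symm hcom, inv_pow, inv_eq_one] at this
      exact this
    have hz : x * y * x⁻¹ * y⁻¹ = 1 := by
      rcases hq with rfl | rfl
      · -- swap the two cycles
        let f : ZMod 3 ⊕ ZMod 3 ↪ Fin r :=
          ⟨Sum.elim e e3, e.injective.sumElim e3.injective fun i j h => he3 j ⟨i, h⟩⟩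
        let f' : ZMod 3 ⊕ ZMod 3 ↪ Fin r :=
          ⟨Sum.elim e3 e, e3.injective.sumElim e.injective fun i j h => he3 i ⟨j, h.symm⟩⟩
        have hr := S.nine
        obtain ⟨σ, hσ, hσf⟩ := exists_even_map f f'
          (by rw [Fintype.card_sum, ZMod.card]; omega)
        obtain ⟨g, rfl⟩ := S.exists_pre hσ
        have e1 : S.π g * cyc e * (S.π g)⁻¹ = cyc e3 :=
          cyc_conj e e3 _ fun i => hσf (Sum.inl i)
        have e2 : S.π g * cyc e3 * (S.π g)⁻¹ = cyc e :=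
          cyc_conj e3 e _ fun i => hσf (Sum.inr i)
        have z1 : S.π ((g * x * g⁻¹) * y⁻¹) = 1 := by
          rw [map_mul, map_mul, map_mul, map_inv, map_inv, hx, hcy, e1, mul_inv_cancel]
        have z2 : S.π ((g * y * g⁻¹) * x⁻¹) = 1 := by
          rw [map_mul, map_mul, map_mul, map_inv, map_inv, hx, hcy, e2, mul_inv_cancel]
        have hzc : S.π (x * y * x⁻¹ * y⁻¹) = 1 := by
          rw [map_mul, map_mul, map_mul, map_inv, map_inv, hcom.eq]; group
        obtain ⟨u, hu, hgx⟩ : ∃ u, S.π u = 1 ∧ g * x * g⁻¹ = u * y := ⟨_, z1, by group⟩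
        obtain ⟨u', hu', hgy⟩ : ∃ u', S.π u' = 1 ∧ g * y * g⁻¹ = u' * x := ⟨_, z2, by group⟩
        have h5 : x * y * x⁻¹ * y⁻¹ = y * x * y⁻¹ * x⁻¹ := by
          calc x * y * x⁻¹ * y⁻¹ = g * (x * y * x⁻¹ * y⁻¹) * g⁻¹ := by
                rw [← (S.commute_central hzc g).eq]; group
            _ = (g * x * g⁻¹) * (g * y * g⁻¹) * (g * x * g⁻¹)⁻¹ * (g * y * g⁻¹)⁻¹ := by group
            _ = u * (y * u') * x * y⁻¹ * u⁻¹ * x⁻¹ * u'⁻¹ := by rw [hgx, hgy]; group
            _ = (u * u') * (y * x * y⁻¹) * (u⁻¹ * x⁻¹) * u'⁻¹ := by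
                rw [← (S.commute_central hu' y).eq]; group
            _ = (u * u') * ((y * x * y⁻¹) * u⁻¹) * x⁻¹ * u'⁻¹ := by group
            _ = (u * u') * (u⁻¹ * (y * x * y⁻¹)) * x⁻¹ * u'⁻¹ := by
                rw [← (S.commute_central hu (y * x * y⁻¹)).inv_left.eq]
            _ = (u * u' * u⁻¹) * ((y * x * y⁻¹ * x⁻¹) * u'⁻¹) := by group
            _ = u' * (u'⁻¹ * (y * x * y⁻¹ * x⁻¹)) := by
                rw [(S.commute_central hu u').eq, ← (S.commute_central hu' _).inv_left.eq]; group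
            _ = y * x * y⁻¹ * x⁻¹ := by group
        rw [S.comm_symm hcom, eq_inv_iff_mul_eq_one, ← sq] at h5
        calc x * y * x⁻¹ * y⁻¹ = (x * y * x⁻¹ * y⁻¹) ^ 3 * ((x * y * x⁻¹ * y⁻¹) ^ 2)⁻¹ := by group
          _ = 1 := by rw [h3, h5]; group
      · calc x * y * x⁻¹ * y⁻¹ = ((x * y * x⁻¹ * y⁻¹) ^ 3) ^ 2 * ((x * y * x⁻¹ * y⁻¹) ^ 5)⁻¹ := by group
          _ = 1 := by rw [h3, h4]; group
    have := mul_inv_eq_one.mp hz
    exact (mul_inv_eq_iff_eq_mul.mp this).symm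
  -- the subgroup of images with all lifts commuting with x
  let Γ : Subgroup (Perm (Fin r)) := (Subgroup.centralizer ({x} : Set H)).map S.π
  have hlift : ∀ h : H, S.π h ∈ Γ → Commute h x := by
    rintro h ⟨h', hh', he⟩
    have hh'' : Commute h' x := Subgroup.mem_centralizer_singleton_iff.mp hh'
    have : S.π (h * h'⁻¹) = 1 := by rw [map_mul, map_inv, he, mul_inv_cancel]
    simpa using (S.commute_central this x).mul_left hh''
  refine hlift c (mem_of_commute_cyc hq2 Γ e ⟨x, ?_, hx⟩ ?_ (S.mem_alt c) hc)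
  · exact Subgroup.mem_centralizer_singleton_iff.mpr rfl
  · intro a b d ha hb hd hab hbd hda
    obtain ⟨y, hy⟩ := S.exists_pre (c3_mem a b d hab hbd)
    exact ⟨y, Subgroup.mem_centralizer_singleton_iff.mpr (hdisj a b d ha hb hd hab hbd hda y hy).eq,
      hy⟩

/-- A good lift: right order, and inverted by every lift of an inverting element. -/
def IsGood (q : ℕ) (x : H) : Prop :=
  x ^ q = 1 ∧ ∀ h, S.π h * S.π x * (S.π h)⁻¹ = (S.π x)⁻¹ → h * x * h⁻¹ = x⁻¹

theorem exists_inverter {q : ℕ} [Fact q.Prime] (e : ZMod q ↪ Fin r) (hr : q + 2 ≤ r) :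
    ∃ h : H, S.π h * cyc e * (S.π h)⁻¹ = (cyc e)⁻¹ := by
  obtain ⟨σ, hσ, hσe⟩ := exists_mul_elem e (-1) hr
  obtain ⟨h, rfl⟩ := S.exists_pre hσ
  refine ⟨h, hσe.trans (eq_inv_of_mul_eq_one_left ?_)⟩
  have hv : ((-1 : (ZMod q)ˣ) : ZMod q).val + 1 = q := by
    obtain ⟨m, hm⟩ : ∃ m, q = m + 1 := ⟨q - 1, by have := (Fact.out : q.Prime).pos; omega⟩
    subst hm
    rw [Units.val_neg, Units.val_one, ZMod.val_neg_one]
  rw [← pow_succ, hv, cyc_pow_self]

theorem good_unique {q : ℕ} [Fact q.Prime] (hq : q ≠ 2) {x x' : H} (hx : S.IsGood q x)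
    (hx' : S.IsGood q x') (h : S.π x = S.π x')
    (hinv : ∃ g, S.π g * S.π x * (S.π g)⁻¹ = (S.π x)⁻¹) : x = x' := by
  obtain ⟨g, hg⟩ := hinv
  obtain ⟨z, hz, rfl⟩ : ∃ z, S.π z = 1 ∧ x' = z * x :=
    ⟨x' * x⁻¹, by rw [map_mul, map_inv, h, mul_inv_cancel], by group⟩
  have h1 : z ^ q = 1 := by
    have := hx'.1
    rwa [(S.commute_central hz x).mul_pow, hx.1, mul_one] at this
  have h2 : z ^ 2 = 1 := by
    have e1 := hx'.2 g (by rw [← h]; exact hg)
    have e2 : g * (z * x) * g⁻¹ = z * x⁻¹ := by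
      rw [← hx.2 g hg]
      calc g * (z * x) * g⁻¹ = (g * z) * x * g⁻¹ := by group
        _ = (z * g) * x * g⁻¹ := by rw [(S.commute_central hz g).eq]
        _ = _ := by group
    rw [e2, mul_inv_rev, ← (S.commute_central hz x).inv_inv.eq] at e1
    rw [sq]
    calc z * z = (z * x⁻¹) * x * z := by group
      _ = (z⁻¹ * x⁻¹) * x * z := by rw [e1]
      _ = 1 := by group
  have : z = 1 := by
    rw [← orderOf_eq_one_iff]
    have := Nat.dvd_gcd (orderOf_dvd_of_pow_eq_one h1) (orderOf_dvd_of_pow_eq_one h2)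
    rwa [Nat.coprime_iff_gcd_eq_one.mp ((Nat.coprime_primes Fact.out Nat.prime_two).mpr hq),
      Nat.dvd_one] at this
  rw [this, one_mul]

theorem exists_good {q : ℕ} [Fact q.Prime] (hq : q = 3 ∨ q = 5) (e : ZMod q ↪ Fin r) :
    ∃ x, S.π x = cyc e ∧ S.IsGood q x := by
  have hr := S.nine
  have hr2 : q + 2 ≤ r := by omega
  obtain ⟨x, hx⟩ := S.exists_pre (cyc_mem (by omega) e)
  obtain ⟨g, hg⟩ := S.exists_inverter e hr2
  obtain ⟨z, hz, hgx⟩ : ∃ z, S.π z = 1 ∧ g * x * g⁻¹ = z * x⁻¹ :=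
    ⟨g * x * g⁻¹ * x, by rw [map_mul, map_mul, map_mul, map_inv, hx, hg, inv_mul_cancel], by group⟩
  have hzg := (S.commute_central hz g).eq
  have hzx := S.commute_central hz x
  -- a real lift of the square
  let x1 := x ^ 2 * z⁻¹
  have hx1 : S.π x1 = cyc e ^ 2 := by
    simp only [x1, map_mul, map_pow, map_inv, hz, hx, inv_one, mul_one]
  have hg1 : g * x1 * g⁻¹ = x1⁻¹ := by
    have e1 : g * x1 * g⁻¹ = (g * x * g⁻¹) ^ 2 * (g * z⁻¹ * g⁻¹) := by
      simp only [x1, conj_pow]; group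
    have e2 : g * z⁻¹ * g⁻¹ = z⁻¹ := by
      rw [← ((S.commute_central hz g).inv_left).eq]; group
    rw [e1, e2, hgx, hzx.inv_right.mul_pow]
    simp only [x1, mul_inv_rev, inv_inv]
    calc z ^ 2 * x⁻¹ ^ 2 * z⁻¹ = z ^ 2 * (x⁻¹ ^ 2 * z⁻¹) := by group
      _ = z ^ 2 * (z⁻¹ * x⁻¹ ^ 2) := by
          rw [((hzx.inv_inv).pow_right 2).eq]
      _ = z * (x ^ 2)⁻¹ := by group
  let n : ℕ := ((q + 1) / 2) * (q + 1)
  have hx4 : S.π (x1 ^ n) = cyc e := by
    rw [map_pow, hx1, ← pow_mul, show 2 * n = q * (q + 2) + 1 by rcases hq with rfl | rfl <;> rfl,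
      pow_succ, pow_mul, cyc_pow_self, one_pow, one_mul]
  have hg4 : g * x1 ^ n * g⁻¹ = (x1 ^ n)⁻¹ := by rw [← conj_pow, hg1, inv_pow]
  have hord : (x1 ^ n) ^ q = 1 := by
    have hc : S.π ((x1 ^ ((q + 1) / 2)) ^ q) = 1 := by
      rw [map_pow, map_pow, hx1, ← pow_mul, ← pow_mul,
        show 2 * ((q + 1) / 2 * q) = q * (q + 1) by rcases hq with rfl | rfl <;> rfl,
        pow_mul, cyc_pow_self, one_pow]
    have h2 : ((x1 ^ ((q + 1) / 2)) ^ q) ^ 2 = 1 := by
      have e1 : g * (x1 ^ ((q + 1) / 2)) ^ q * g⁻¹ = ((x1 ^ ((q + 1) / 2)) ^ q)⁻¹ := by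
        rw [← conj_pow, ← conj_pow, hg1, inv_pow, inv_pow]
      rw [← (S.commute_central hc g).eq, mul_inv_cancel_right] at e1
      rw [sq]; nth_rewrite 2 [e1]; exact mul_inv_cancel _
    rw [← pow_mul, show n * q = (q + 1) / 2 * q * 2 * ((q + 1) / 2) by
        rcases hq with rfl | rfl <;> rfl, pow_mul, pow_mul, pow_mul, h2, one_pow]
  refine ⟨x1 ^ n, hx4, hord, fun h hh => ?_⟩
  rw [hx4] at hh
  have hcomm : Commute (S.π (g⁻¹ * h)) (cyc e) := by
    have e3 : S.π g * cyc e * (S.π g)⁻¹ = S.π h * cyc e * (S.π h)⁻¹ := hg.trans hh.symm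
    rw [map_mul, map_inv]
    calc (S.π g)⁻¹ * S.π h * cyc e
        = (S.π g)⁻¹ * (S.π h * cyc e * (S.π h)⁻¹) * S.π h := by group
      _ = (S.π g)⁻¹ * (S.π g * cyc e * (S.π g)⁻¹) * S.π h := by rw [e3]
      _ = cyc e * ((S.π g)⁻¹ * S.π h) := by group
  have hcx := S.commute_of_commute hq e hx4 hcomm
  calc h * x1 ^ n * h⁻¹ = g * ((g⁻¹ * h) * x1 ^ n) * h⁻¹ := by group
    _ = g * (x1 ^ n * (g⁻¹ * h)) * h⁻¹ := by rw [hcx.eq]
    _ = (x1 ^ n)⁻¹ := by rw [← hg4]; group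

variable {q : ℕ} [Fact q.Prime]

/-- The canonical lift. -/
noncomputable def lift (hq : q = 3 ∨ q = 5) (e : ZMod q ↪ Fin r) : H :=
  (S.exists_good hq e).choose

theorem π_lift (hq : q = 3 ∨ q = 5) (e : ZMod q ↪ Fin r) : S.π (S.lift hq e) = cyc e :=
  (S.exists_good hq e).choose_spec.1

theorem good_lift (hq : q = 3 ∨ q = 5) (e : ZMod q ↪ Fin r) : S.IsGood q (S.lift hq e) :=
  (S.exists_good hq e).choose_spec.2

theorem lift_pow_self (hq : q = 3 ∨ q = 5) (e : ZMod q ↪ Fin r) : S.lift hq e ^ q = 1 :=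
  (S.good_lift hq e).1

theorem good_eq_lift (hq : q = 3 ∨ q = 5) (e : ZMod q ↪ Fin r) {x : H} (hx : S.IsGood q x)
    (h : S.π x = cyc e) : x = S.lift hq e := by
  have hr := S.nine
  refine S.good_unique (by omega) hx (S.good_lift hq e) (by rw [h, π_lift]) ?_
  rw [h]
  exact S.exists_inverter e (by omega)

theorem lift_conj (hq : q = 3 ∨ q = 5) (e e' : ZMod q ↪ Fin r) (g : H)
    (h : S.π g * cyc e * (S.π g)⁻¹ = cyc e') :
    g * S.lift hq e * g⁻¹ = S.lift hq e' := by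
  refine S.good_eq_lift hq e' ⟨by rw [conj_pow, S.lift_pow_self, mul_one, mul_inv_cancel],
    fun a ha => ?_⟩ (by rw [map_mul, map_mul, map_inv, π_lift, h])
  have := (S.good_lift hq e).2 (g⁻¹ * a * g) (by
    simp only [map_mul, map_inv, π_lift] at ha ⊢
    calc (S.π g)⁻¹ * S.π a * S.π g * cyc e * ((S.π g)⁻¹ * S.π a * S.π g)⁻¹
        = (S.π g)⁻¹ * (S.π a * (S.π g * cyc e * (S.π g)⁻¹) * (S.π a)⁻¹) * S.π g := by group
      _ = (cyc e)⁻¹ := by rw [ha]; group)
  calc a * (g * S.lift hq e * g⁻¹) * a⁻¹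
      = g * ((g⁻¹ * a * g) * S.lift hq e * (g⁻¹ * a * g)⁻¹) * g⁻¹ := by group
    _ = (g * S.lift hq e * g⁻¹)⁻¹ := by rw [this]; group

/-- Conjugation to a power. -/
theorem lift_conj_pow (hq : q = 3 ∨ q = 5) (e e' : ZMod q ↪ Fin r) (g : H) (n : ℕ)
    (hn : ¬ q ∣ n) (h : S.π g * cyc e * (S.π g)⁻¹ = cyc e' ^ n) :
    g * S.lift hq e * g⁻¹ = S.lift hq e' ^ n := by
  have hr := S.nine
  have hcop : n.Coprime q := ((Fact.out : q.Prime).coprime_iff_not_dvd.mpr hn).symm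
  obtain ⟨m, hm⟩ : ∃ m : ℕ, (n * m) % q = 1 := by
    obtain ⟨m, hm⟩ := Nat.exists_mul_mod_eq_one_of_coprime hcop (Fact.out : q.Prime).one_lt
    exact ⟨m, hm.2⟩
  have hback : ∀ x : H, x ^ q = 1 → (x ^ n) ^ m = x := fun x hx => by
    rw [← pow_mul, ← pow_mod_orderOf, Nat.ModEq.eq_1 .. |>.mp ?_, pow_mod_orderOf, pow_one]
    exact (Nat.ModEq.of_dvd (orderOf_dvd_of_pow_eq_one hx) (by
      rw [Nat.ModEq, hm, Nat.mod_eq_of_lt (Fact.out : q.Prime).one_lt]) : _ ≡ 1 [MOD orderOf x])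
  have hbackp : (cyc e' ^ n) ^ m = cyc e' := by
    rw [← pow_mul, ← Nat.mod_add_div (n * m) q, hm, pow_add, pow_one, pow_mul, cyc_pow_self,
      one_pow, mul_one]
  have hgood : S.IsGood q (S.lift hq e' ^ n) := by
    refine ⟨by rw [← pow_mul, mul_comm, pow_mul, S.lift_pow_self, one_pow], fun a ha => ?_⟩
    have h1 : S.π a * cyc e' * (S.π a)⁻¹ = (cyc e')⁻¹ := by
      rw [map_pow, π_lift] at ha
      have := congrArg (fun t => t ^ m) ha
      simp only [conj_pow, inv_pow, hbackp] at this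
      exact this
    rw [← conj_pow, (S.good_lift hq e').2 a (by rw [π_lift]; exact h1), inv_pow]
  have hgood' : S.IsGood q (g * S.lift hq e * g⁻¹) := by
    refine ⟨by rw [conj_pow, S.lift_pow_self, mul_one, mul_inv_cancel], fun a ha => ?_⟩
    have := (S.good_lift hq e).2 (g⁻¹ * a * g) (by
      simp only [map_mul, map_inv, π_lift] at ha ⊢
      calc (S.π g)⁻¹ * S.π a * S.π g * cyc e * ((S.π g)⁻¹ * S.π a * S.π g)⁻¹
          = (S.π g)⁻¹ * (S.π a * (S.π g * cyc e * (S.π g)⁻¹) * (S.π a)⁻¹) * S.π g := by group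
        _ = (cyc e)⁻¹ := by rw [ha]; group)
    calc a * (g * S.lift hq e * g⁻¹) * a⁻¹
        = g * ((g⁻¹ * a * g) * S.lift hq e * (g⁻¹ * a * g)⁻¹) * g⁻¹ := by group
      _ = (g * S.lift hq e * g⁻¹)⁻¹ := by rw [this]; group
  refine S.good_unique (by omega) hgood' hgood
    (by rw [map_mul, map_mul, map_inv, map_pow, π_lift, π_lift, h]) ?_
  obtain ⟨a, ha⟩ := S.exists_inverter e' (show q + 2 ≤ r by omega)
  refine ⟨a, ?_⟩
  rw [map_mul, map_mul, map_inv, π_lift, h, ← conj_pow, ha, inv_pow]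

theorem lift_commute (hq : q = 3 ∨ q = 5) {q' : ℕ} [Fact q'.Prime] (hq' : q' = 3 ∨ q' = 5)
    (e : ZMod q ↪ Fin r) (e' : ZMod q' ↪ Fin r) (h : Disjoint (Set.range e) (Set.range e')) :
    Commute (S.lift hq e) (S.lift hq' e') := by
  refine (S.commute_of_commute hq e (S.π_lift hq e) ?_).symm
  rw [π_lift]
  refine Equiv.ext fun w => ?_
  rw [Perm.mul_apply, Perm.mul_apply]
  by_cases h1 : w ∈ Set.range e
  · obtain ⟨i, rfl⟩ := h1
    rw [cyc_apply, cyc_apply_out e' (Set.disjoint_left.mp h ⟨i, rfl⟩),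
      cyc_apply_out e' (Set.disjoint_left.mp h ⟨i + 1, rfl⟩), cyc_apply]
  · by_cases h2 : w ∈ Set.range e'
    · obtain ⟨i, rfl⟩ := h2
      rw [cyc_apply, cyc_apply_out e h1, cyc_apply,
        cyc_apply_out e (Set.disjoint_right.mp h ⟨i + 1, rfl⟩)]
    · rw [cyc_apply_out e' h2, cyc_apply_out e h1, cyc_apply_out e' h2]

/-- The operator of a cycle. -/
noncomputable def op (hq : q = 3 ∨ q = 5) (e : ZMod q ↪ Fin r) : Module.End k V :=
  S.ρ (S.lift hq e)

theorem op_pow_self (hq : q = 3 ∨ q = 5) (e : ZMod q ↪ Fin r) : S.op hq e ^ q = 1 := by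
  rw [op, ← map_pow, S.lift_pow_self, map_one]

theorem op_ne_one (hq : q = 3 ∨ q = 5) (e : ZMod q ↪ Fin r) : S.op hq e ≠ 1 := by
  intro h
  have h1 : S.lift hq e = 1 := S.inj (by rw [map_one]; exact h)
  have h2 := S.π_lift hq e
  rw [h1, map_one] at h2
  exact cyc_ne_one e h2.symm

theorem ρ_inv_left (h : H) (x : V) : S.ρ h⁻¹ (S.ρ h x) = x := by
  rw [← Module.End.mul_apply, ← map_mul, inv_mul_cancel, map_one, Module.End.one_apply]

theorem ρ_inv_right (h : H) (x : V) : S.ρ h (S.ρ h⁻¹ x) = x := by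
  rw [← Module.End.mul_apply, ← map_mul, mul_inv_cancel, map_one, Module.End.one_apply]

theorem op_conj (hq : q = 3 ∨ q = 5) (e e' : ZMod q ↪ Fin r) (g : H)
    (h : S.π g * cyc e * (S.π g)⁻¹ = cyc e') :
    S.ρ g * S.op hq e = S.op hq e' * S.ρ g := by
  rw [op, op, ← map_mul, ← map_mul, ← S.lift_conj hq e e' g h]
  congr 1; group

/-- The 3-cycle operator. -/
noncomputable def T (a b c : Fin r) : Module.End k V :=
  haveI : Fact (Nat.Prime 3) := ⟨Nat.prime_three⟩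
  if h : a ≠ b ∧ b ≠ c ∧ c ≠ a then S.op (Or.inl rfl) (emb3 a b c h.1 h.2.1 h.2.2) else 1

theorem T_eq (a b c : Fin r) (hab : a ≠ b) (hbc : b ≠ c) (hca : c ≠ a) :
    haveI : Fact (Nat.Prime 3) := ⟨Nat.prime_three⟩
    S.T a b c = S.op (Or.inl rfl) (emb3 a b c hab hbc hca) := by
  simp [T, hab, hbc, hca]

/-- The lift of a 3-cycle. -/
theorem exists_T (a b c : Fin r) (hab : a ≠ b) (hbc : b ≠ c) (hca : c ≠ a) :
    ∃ t : H, S.π t = c3 a b c ∧ S.ρ t = S.T a b c := by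
  haveI : Fact (Nat.Prime 3) := ⟨Nat.prime_three⟩
  exact ⟨_, (S.π_lift _ _).trans (c3_eq_cyc a b c hab hbc hca).symm, (S.T_eq a b c hab hbc hca).symm⟩

theorem T_conj (g : H) (a b c : Fin r) :
    S.ρ g * S.T a b c = S.T (S.π g a) (S.π g b) (S.π g c) * S.ρ g := by
  haveI : Fact (Nat.Prime 3) := ⟨Nat.prime_three⟩
  by_cases h : a ≠ b ∧ b ≠ c ∧ c ≠ a
  · have h1 : S.π g a ≠ S.π g b := (S.π g).injective.ne h.1
    have h2 : S.π g b ≠ S.π g c := (S.π g).injective.ne h.2.1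
    have h3 : S.π g c ≠ S.π g a := (S.π g).injective.ne h.2.2
    rw [S.T_eq a b c h.1 h.2.1 h.2.2, S.T_eq _ _ _ h1 h2 h3]
    refine S.op_conj _ _ _ g ?_
    rw [← c3_eq_cyc, ← c3_eq_cyc, c3_conj]
  · simp only [T, dif_neg h, mul_one]
    rw [dif_neg, one_mul]
    simpa only [(S.π g).injective.ne_iff] using h

theorem T_rot (a b c : Fin r) : S.T a b c = S.T b c a := by
  haveI : Fact (Nat.Prime 3) := ⟨Nat.prime_three⟩
  by_cases h : a ≠ b ∧ b ≠ c ∧ c ≠ a
  · rw [S.T_eq a b c h.1 h.2.1 h.2.2, S.T_eq b c a h.2.1 h.2.2 h.1, op, op]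
    congr 1
    refine S.good_eq_lift _ _ (S.good_lift _ _) ?_
    rw [π_lift, ← c3_eq_cyc, ← c3_eq_cyc, c3_rot h.1 h.2.1 h.2.2]
  · simp only [T, dif_neg h]
    rw [dif_neg fun h' => h ⟨h'.2.2, h'.1, h'.2.1⟩]

theorem T_cube (a b c : Fin r) : S.T a b c * (S.T a b c * S.T a b c) = 1 := by
  haveI : Fact (Nat.Prime 3) := ⟨Nat.prime_three⟩
  unfold T
  split
  · rw [← mul_assoc, ← pow_three']; exact S.op_pow_self _ _
  · simp

theorem T_inv (a b c : Fin r) (hab : a ≠ b) (hbc : b ≠ c) (hca : c ≠ a) :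
    S.T c b a = S.T a b c * S.T a b c := by
  haveI : Fact (Nat.Prime 3) := ⟨Nat.prime_three⟩
  obtain ⟨σ, hσ, hσe⟩ := exists_mul_elem (emb3 a b c hab hbc hca) (-1) (by have := S.nine; omega)
  rw [S.T_eq a b c hab hbc hca, S.T_eq c b a hbc.symm hab.symm hca.symm, op, op, ← map_mul, ← sq]
  congr 1
  refine (S.good_eq_lift _ _ ?_ ?_).symm
  · obtain ⟨g, rfl⟩ := S.exists_pre hσ
    rw [← S.lift_conj_pow (Or.inl rfl) _ _ g 2 (by norm_num) (by simpa using hσe)]
    refine ⟨by rw [conj_pow, S.lift_pow_self, mul_one, mul_inv_cancel], fun x hx => ?_⟩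
    have := (S.good_lift (Or.inl rfl) (emb3 a b c hab hbc hca)).2 (g⁻¹ * x * g) (by
      simp only [map_mul, map_inv] at hx ⊢
      calc _ = (S.π g)⁻¹ * (S.π x * (S.π g * S.π (S.lift (Or.inl rfl) (emb3 a b c hab hbc hca)) *
              (S.π g)⁻¹) * (S.π x)⁻¹) * S.π g := by group
        _ = _ := by rw [hx]; group)
    calc x * (g * S.lift (Or.inl rfl) (emb3 a b c hab hbc hca) * g⁻¹) * x⁻¹
        = g * ((g⁻¹ * x * g) * S.lift (Or.inl rfl) (emb3 a b c hab hbc hca) * (g⁻¹ * x * g)⁻¹) *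
          g⁻¹ := by group
      _ = _ := by rw [this]; group
  · have h3 := cyc_pow_self (emb3 a b c hab hbc hca)
    rw [← c3_eq_cyc] at h3
    rw [map_pow, π_lift, ← c3_eq_cyc, ← c3_eq_cyc, ← c3_inv (a := a) (b := b) (c := c)]
    exact eq_inv_of_mul_eq_one_left (by rw [← pow_succ]; exact h3)

theorem invariant_of_T [Finite H] (W : Submodule k V)
    (hW : ∀ a b c, a ≠ b → b ≠ c → c ≠ a → ∀ x ∈ W, S.T a b c x ∈ W) :
    ∀ h, ∀ x ∈ W, S.ρ h x ∈ W := by
  let M : Subgroup H :=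
    { carrier := {h | ∀ x ∈ W, S.ρ h x ∈ W}
      one_mem' := fun x hx => by rwa [map_one, Module.End.one_apply]
      mul_mem' := fun {a b} ha hb x hx => by rw [map_mul, Module.End.mul_apply]; exact ha _ (hb x hx)
      inv_mem' := fun {a} ha => by
        have h1 : a⁻¹ = a ^ (orderOf a - 1) := by
          rw [inv_eq_iff_mul_eq_one, ← pow_succ', Nat.sub_add_cancel (orderOf_pos a)]
          exact pow_orderOf_eq_one a
        show ∀ x ∈ W, S.ρ a⁻¹ x ∈ W
        rw [h1]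
        generalize orderOf a - 1 = n
        induction n with
        | zero => intro x hx; rwa [pow_zero, map_one, Module.End.one_apply]
        | succ n ih => intro x hx; rw [pow_succ', map_mul, Module.End.mul_apply]; exact ha _ (ih x hx) }
  have : M = ⊤ := S.minimal M (alternating_le_of_c3 _ fun a b c hab hbc hca => by
    obtain ⟨t, ht, htT⟩ := S.exists_T a b c hab hbc hca
    exact ⟨t, fun x hx => by rw [htT]; exact hW a b c hab hbc hca x hx, ht⟩)
  intro h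
  have : h ∈ M := this ▸ Subgroup.mem_top h
  exact this

theorem no_fixed [Finite H] {x : V}
    (hx : ∀ a b c, a ≠ b → b ≠ c → c ≠ a → S.T a b c x = x) : x = 0 := by
  let W : Submodule k V :=
    { carrier := {y | ∀ a b c, a ≠ b → b ≠ c → c ≠ a → S.T a b c y = y}
      add_mem' := fun ha hb a b c h1 h2 h3 => by
        rw [map_add, ha a b c h1 h2 h3, hb a b c h1 h2 h3]
      zero_mem' := fun a b c _ _ _ => map_zero _
      smul_mem' := fun t y hy a b c h1 h2 h3 => by rw [map_smul, hy a b c h1 h2 h3] }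
  rcases S.irred W (S.invariant_of_T W fun a b c h1 h2 h3 y hy => by
      rw [hy a b c h1 h2 h3]; exact hy) with h | h
  · exact (Submodule.eq_bot_iff W).mp h x hx
  · exfalso
    haveI : Fact (Nat.Prime 3) := ⟨Nat.prime_three⟩
    have hr := S.nine
    have hab : (⟨0, by omega⟩ : Fin r) ≠ ⟨1, by omega⟩ := by simp
    have hbc : (⟨1, by omega⟩ : Fin r) ≠ ⟨2, by omega⟩ := by simp
    have hca : (⟨2, by omega⟩ : Fin r) ≠ ⟨0, by omega⟩ := by simp
    refine S.op_ne_one (Or.inl rfl) (emb3 _ _ _ hab hbc hca) (LinearMap.ext fun y => ?_)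
    rw [← S.T_eq _ _ _ hab hbc hca]
    have hy : y ∈ W := h ▸ Submodule.mem_top
    exact hy _ _ _ hab hbc hca

end Setup

end Cfsg.Agent.Components.AltSection
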