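import Cfsg.Agent.Components.AltSection.RankTwo

/-!
The extremal case: the deleted permutation module.
-/

set_option autoImplicit false

namespace Cfsg.Agent.Components.AltSection

open Equiv

universe u v w

namespace Setup

/-- Extremal data. -/
structure Ext {r : ℕ} {k : Type u} {V : Type v} {H : Type w} [Field k] [AddCommGroup V] [Module k V]
    [Group H] (S : Setup r k V H) : Prop where
  dc : S.DC
  d : ∀ a b c, a ≠ b → b ≠ c → c ≠ a → Module.finrank k (S.U a b c) = 2
  W4 : ∀ a b c d : Fin r, a ≠ b → b ≠ c → c ≠ a → d ∉ ({a, b, c} : Finset (Fin r)) →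
    Module.finrank k (S.W {a, b, c, d}) = 3

variable {r : ℕ} {k : Type u} {V : Type v} {H : Type w} [Field k] [AddCommGroup V] [Module k V]
  [Group H] (S : Setup r k V H) [Finite H] [FiniteDimensional k V]

theorem mem_three {a b c w : Fin r} :
    w ∈ ({a, b, c} : Finset (Fin r)) ↔ w = a ∨ w = b ∨ w = c := by simp

theorem card_four {a b c d : Fin r} (hab : a ≠ b) (hbc : b ≠ c) (hca : c ≠ a)
    (hd : d ∉ ({a, b, c} : Finset (Fin r))) : ({a, b, c, d} : Finset (Fin r)).card = 4 := by
  rw [mem_three, not_or, not_or] at hd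
  obtain ⟨hda, hdb, hdc⟩ := hd
  exact Finset.card_eq_four.mpr
    ⟨a, b, c, d, hab, hca.symm, Ne.symm hda, hbc, Ne.symm hdb, Ne.symm hdc, rfl⟩

theorem ext_of (hDC : S.DC) (h2 : ∀ a b c, a ≠ b → b ≠ c → c ≠ a → 2 ≤ Module.finrank k (S.U a b c))
    (hn : Module.finrank k V + 2 ≤ r) : S.Ext := by
  have hr := S.nine
  refine ⟨hDC, fun a b c hab hbc hca => ?_, fun a b c d hab hbc hca hd => ?_⟩
  · have := S.bound_two hDC hab hbc hca
    have := h2 a b c hab hbc hca
    omega
  · have h4 := card_four hab hbc hca hd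
    have h1 := S.bound hDC (s := {a, b, c, d}) (by omega) (by omega) hab hbc hca
    have hins : ({a, b, c, d} : Finset (Fin r)) = insert d {a, b, c} := by
      ext w; simp; tauto
    have hc3 : ({a, b, c} : Finset (Fin r)).card = 3 :=
      Finset.card_eq_three.mpr ⟨a, b, c, hab, hca.symm, hbc, rfl⟩
    have h3 := S.W_strict hDC (s := {a, b, c}) (by omega) (by omega) hd
    rw [← hins] at h3
    have h5 := h2 a b c hab hbc hca
    have h6 : Module.finrank k (S.U a b c) ≤ Module.finrank k (S.W {a, b, c}) :=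
      Submodule.finrank_mono (S.U_le_W (by simp) (by simp) (by simp))
    omega

namespace Ext

variable {S} (X : S.Ext)
include X

theorem U_ne {a b c d : Fin r} (hab : a ≠ b) (hbc : b ≠ c) (hca : c ≠ a)
    (hd : d ∉ ({a, b, c} : Finset (Fin r))) : S.U a b c ≠ S.U a b d := by
  intro heq
  have h4 := X.W4 a b c d hab hbc hca hd
  rw [mem_three, not_or, not_or] at hd
  obtain ⟨hda, hdb, hdc⟩ := hd
  have hinv : ∀ y ∈ S.U a b c, S.T a b c y ∈ S.U a b c := fun y hy => by
    simpa using add_mem (S.sub_mem_U a b c y) hy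
  obtain ⟨t, ht, htT⟩ := S.exists_T a b c hab hbc hca
  have step : ∀ {x y z}, S.U x y z ≤ S.U a b c →
      S.U (S.π t x) (S.π t y) (S.π t z) ≤ S.U a b c := by
    intro x y z h w hw
    have h1 := S.map_U t⁻¹ hw
    simp only [map_inv, Perm.inv_def, Equiv.symm_apply_apply] at h1
    have h2 := hinv _ (h h1)
    rwa [← htT, S.ρ_inv_right] at h2
  have u1 : S.U b c d ≤ S.U a b c := by
    have := step (x := a) (y := b) (z := d) heq.ge
    rwa [ht, c3_apply_fst hab hca, c3_apply_snd hbc hca, c3_apply_other hda hdb hdc] at this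
  have u2 : S.U c a d ≤ S.U a b c := by
    have := step u1
    rwa [ht, c3_apply_snd hbc hca, c3_apply_thd, c3_apply_other hda hdb hdc] at this
  have hW : S.W {a, b, c, d} ≤ S.U a b c := by
    refine S.W_le fun x hx y hy z hz hxy hyz hzx => ?_
    simp only [Finset.mem_insert, Finset.mem_singleton] at hx hy hz
    by_cases h0 : x ≠ d ∧ y ≠ d ∧ z ≠ d
    · exact (S.U_set hab hbc hca hxy hyz hzx (by clear * - hx h0; simp; tauto) (by clear * - hy h0; simp; tauto) (by clear * - hz h0; simp; tauto)).le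
    by_cases ha : x ≠ a ∧ y ≠ a ∧ z ≠ a
    · exact (S.U_set hbc (Ne.symm hdc) hdb hxy hyz hzx (by clear * - hx ha; simp; tauto) (by clear * - hy ha; simp; tauto)
        (by clear * - hz ha; simp; tauto)).le.trans u1
    by_cases hb : x ≠ b ∧ y ≠ b ∧ z ≠ b
    · exact (S.U_set hca (Ne.symm hda) hdc hxy hyz hzx (by clear * - hx hb; simp; tauto) (by clear * - hy hb; simp; tauto)
        (by clear * - hz hb; simp; tauto)).le.trans u2
    by_cases hc : x ≠ c ∧ y ≠ c ∧ z ≠ c
    · exact (S.U_set hab (Ne.symm hdb) hda hxy hyz hzx (by clear * - hx hc; simp; tauto) (by clear * - hy hc; simp; tauto)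
        (by clear * - hz hc; simp; tauto)).le.trans heq.ge
    · exfalso
      have mem : ∀ {u : Fin r}, ¬(x ≠ u ∧ y ≠ u ∧ z ≠ u) → u ∈ ({x, y, z} : Finset (Fin r)) := by
        intro u hu
        by_contra h
        rw [mem_three, not_or, not_or] at h
        exact hu ⟨Ne.symm h.1, Ne.symm h.2.1, Ne.symm h.2.2⟩
      have hsub : ({a, b, c, d} : Finset (Fin r)) ⊆ {x, y, z} := by
        intro w hw
        simp only [Finset.mem_insert, Finset.mem_singleton] at hw
        rcases hw with h | h | h | h <;> rw [h]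
        · exact mem ha
        · exact mem hb
        · exact mem hc
        · exact mem h0
      have h1 := Finset.card_le_card hsub
      have h2 := Finset.card_le_three (a := x) (b := y) (c := z)
      rw [card_four hab hbc hca (by simp [hda, hdb, hdc])] at h1
      omega
  have := Submodule.finrank_mono hW
  rw [h4, X.d a b c hab hbc hca] at this
  omega

theorem inf_sup {a b c d : Fin r} (hab : a ≠ b) (hbc : b ≠ c) (hca : c ≠ a)
    (hd : d ∉ ({a, b, c} : Finset (Fin r))) :
    Module.finrank k ↥(S.U a b c ⊓ S.U a b d) = 1 ∧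
      S.U a b c ⊔ S.U a b d = S.W {a, b, c, d} := by
  have hne := X.U_ne hab hbc hca hd
  have h4 := X.W4 a b c d hab hbc hca hd
  have hd' := hd
  rw [mem_three, not_or, not_or] at hd'
  have d1 := X.d a b c hab hbc hca
  have d2 := X.d a b d hab (Ne.symm hd'.2.1) hd'.1
  have hle : S.U a b c ⊔ S.U a b d ≤ S.W {a, b, c, d} :=
    sup_le (S.U_le_W (by simp) (by simp) (by simp)) (S.U_le_W (by simp) (by simp) (by simp))
  have h1 := Submodule.finrank_mono hle
  have h2 := Submodule.finrank_sup_add_finrank_inf_eq (S.U a b c) (S.U a b d)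
  have h3 : Module.finrank k ↥(S.U a b c ⊓ S.U a b d) < 2 := by
    by_contra hge
    have e1 := Submodule.eq_of_le_of_finrank_le (inf_le_left : S.U a b c ⊓ S.U a b d ≤ _) (by omega)
    have e2 := Submodule.eq_of_le_of_finrank_le (inf_le_right : S.U a b c ⊓ S.U a b d ≤ _) (by omega)
    exact hne (e1.symm.trans e2)
  exact ⟨by omega, Submodule.eq_of_le_of_finrank_le hle (by omega)⟩

theorem inf_le {a b c d e : Fin r} (hab : a ≠ b) (hbc : b ≠ c) (hca : c ≠ a)
    (hd : d ∉ ({a, b, c} : Finset (Fin r))) (hea : e ≠ a) (heb : e ≠ b) :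
    S.U a b c ⊓ S.U a b d ≤ S.U a b e := by
  by_cases hec : e = c
  · rw [hec]; exact inf_le_left
  by_cases hed : e = d
  · rw [hed]; exact inf_le_right
  have hd' := hd
  rw [mem_three, not_or, not_or] at hd'
  obtain ⟨hda, hdb, hdc⟩ := hd'
  have he : e ∉ ({a, b, c} : Finset (Fin r)) := by simp [hea, heb, hec]
  have he' : e ∉ ({a, b, d} : Finset (Fin r)) := by simp [hea, heb, hed]
  obtain ⟨i1, s1⟩ := X.inf_sup hab hbc hca hd
  obtain ⟨i2, s2⟩ := X.inf_sup hab hbc hca he
  obtain ⟨i3, s3⟩ := X.inf_sup hab (Ne.symm hdb) hda he'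
  by_contra hnle
  have join : ∀ {A B C : Submodule k V}, Module.finrank k A = 1 → Module.finrank k B = 1 → A ≠ B →
      A ≤ C → B ≤ C → Module.finrank k C = 2 → A ⊔ B = C := by
    intro A B C hA hB hAB hAC hBC hC
    refine Submodule.eq_of_le_of_finrank_le (sup_le hAC hBC) ?_
    have := Submodule.finrank_sup_add_finrank_inf_eq A B
    have : Module.finrank k ↥(A ⊓ B) = 0 := by
      by_contra h0
      exact hAB ((Submodule.eq_of_le_of_finrank_le (inf_le_left : A ⊓ B ≤ A) (by omega)).symm.trans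
        (Submodule.eq_of_le_of_finrank_le (inf_le_right : A ⊓ B ≤ B) (by omega)))
    omega
  have n12 : S.U a b c ⊓ S.U a b d ≠ S.U a b c ⊓ S.U a b e := fun h => hnle (h ▸ inf_le_right)
  have n23 : S.U a b c ⊓ S.U a b e ≠ S.U a b d ⊓ S.U a b e := by
    intro h
    refine n12 (Submodule.eq_of_le_of_finrank_le (le_inf ?_ ?_) (by omega)).symm
    · exact inf_le_left
    · rw [h]; exact inf_le_left
  have n13 : S.U a b c ⊓ S.U a b d ≠ S.U a b d ⊓ S.U a b e := fun h => hnle (h ▸ inf_le_right)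
  have dE := X.d a b e hab (Ne.symm heb) hea
  have hUe : S.U a b e ≤ S.W {a, b, c, d} := by
    rw [← join i2 i3 n23 inf_le_right inf_le_right dE, ← s1]
    exact sup_le (le_sup_of_le_left inf_le_left) (le_sup_of_le_right inf_le_left)
  have hX := X.W4 a b c d hab hbc hca hd
  have w2 : S.W {a, b, c, e} ≤ S.W {a, b, c, d} := by
    rw [← s2]; exact sup_le (S.U_le_W (by simp) (by simp) (by simp)) hUe
  have w3 : S.W {a, b, d, e} ≤ S.W {a, b, c, d} := by
    rw [← s3]; exact sup_le (S.U_le_W (by simp) (by simp) (by simp)) hUe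
  obtain ⟨t, ht, htT⟩ := S.exists_T a b c hab hbc hca
  have hcde : S.U c d e ≤ S.W {a, b, c, d} := by
    intro w hw
    have h1 := S.map_U t⁻¹ hw
    rw [map_inv, ht, c3_inv, c3_apply_fst hbc.symm hca.symm |>.trans rfl,
      c3_apply_other hdc hdb hda, c3_apply_other hec heb hea] at h1
    have h2 : S.ρ t⁻¹ w ∈ S.W {a, b, c, d} :=
      w3 (S.U_le_W (by simp) (by simp) (by simp) h1)
    have h3 : S.ρ t (S.ρ t⁻¹ w) ∈ S.W {a, b, c, d} := by
      refine S.map_W t (fun x hx => ?_) h2
      simp only [Finset.mem_insert, Finset.mem_singleton] at hx ⊢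
      rw [ht]
      rcases hx with rfl | rfl | rfl | rfl
      · rw [c3_apply_fst hab hca]; tauto
      · rw [c3_apply_snd hbc hca]; tauto
      · rw [c3_apply_thd]; tauto
      · rw [c3_apply_other hda hdb hdc]; tauto
    rwa [S.ρ_inv_right] at h3
  have hW5 : S.W (insert e {a, b, c, d}) ≤ S.W {a, b, c, d} := by
    refine S.W_le fun x hx y hy z hz hxy hyz hzx => ?_
    simp only [Finset.mem_insert, Finset.mem_singleton] at hx hy hz
    by_cases h1 : x ≠ e ∧ y ≠ e ∧ z ≠ e
    · exact S.U_le_W (by clear * - hx h1; simp; tauto) (by clear * - hy h1; simp; tauto) (by clear * - hz h1; simp; tauto)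
    by_cases h2 : x ≠ d ∧ y ≠ d ∧ z ≠ d
    · exact (S.U_le_W (by clear * - hx h2; simp; tauto) (by clear * - hy h2; simp; tauto) (by clear * - hz h2; simp; tauto)).trans w2
    by_cases h3 : x ≠ c ∧ y ≠ c ∧ z ≠ c
    · exact (S.U_le_W (by clear * - hx h3; simp; tauto) (by clear * - hy h3; simp; tauto) (by clear * - hz h3; simp; tauto)).trans w3
    · have mem : ∀ {u : Fin r}, ¬(x ≠ u ∧ y ≠ u ∧ z ≠ u) → u ∈ ({x, y, z} : Finset (Fin r)) := by
        intro u hu
        by_contra h
        rw [mem_three, not_or, not_or] at h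
        exact hu ⟨Ne.symm h.1, Ne.symm h.2.1, Ne.symm h.2.2⟩
      have hsub : ({c, d, e} : Finset (Fin r)) ⊆ {x, y, z} := by
        intro w hw
        rcases mem_three.mp hw with h | h | h <;> rw [h]
        · exact mem h3
        · exact mem h2
        · exact mem h1
      have heq' := Finset.eq_of_subset_of_card_le hsub (by
        rw [Finset.card_eq_three.mpr ⟨c, d, e, Ne.symm hdc, Ne.symm hec, Ne.symm hed, rfl⟩]
        exact Finset.card_le_three)
      exact (S.U_set (Ne.symm hdc) (Ne.symm hed) hec hxy hyz hzx (by simp [heq']) (by simp [heq'])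
        (by simp [heq'])).le.trans hcde
  have h4 := card_four hab hbc hca hd
  have hr := S.nine
  have := S.W_strict X.dc (s := {a, b, c, d}) (by omega) (by omega) (a := e)
    (by simp [hea, heb, hec, hed])
  have := Submodule.finrank_mono hW5
  omega

end Ext

/-- The line of a pair. -/
noncomputable def L (a b : Fin r) : Submodule k V :=
  ⨅ (c : Fin r) (_ : c ≠ a ∧ c ≠ b), S.U a b c

namespace Ext

variable {S} (X : S.Ext)
include X

theorem L_le {a b c : Fin r} (hca : c ≠ a) (hcb : c ≠ b) : S.L a b ≤ S.U a b c :=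
  iInf₂_le c ⟨hca, hcb⟩

theorem finrank_L {a b : Fin r} (hab : a ≠ b) : Module.finrank k (S.L a b) = 1 := by
  have hr := S.nine
  obtain ⟨c, d, hc, hd, hcd⟩ := exists_two_out ({a, b} : Finset (Fin r)) (by
    have := Finset.card_le_two (a := a) (b := b); omega)
  simp only [Finset.mem_insert, Finset.mem_singleton, not_or] at hc hd
  have hd' : d ∉ ({a, b, c} : Finset (Fin r)) := by simp [hd.1, hd.2, Ne.symm hcd]
  have heq : S.L a b = S.U a b c ⊓ S.U a b d :=
    le_antisymm (le_inf (X.L_le hc.1 hc.2) (X.L_le hd.1 hd.2))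
      (le_iInf₂ fun e he => X.inf_le hab (Ne.symm hc.2) hc.1 hd' he.1 he.2)
  rw [heq]
  exact (X.inf_sup hab (Ne.symm hc.2) hc.1 hd').1

theorem L_symm (a b : Fin r) : S.L a b = S.L b a := by
  have key : ∀ a b : Fin r, S.L a b ≤ S.L b a := by
    intro a b
    refine le_iInf₂ fun c hc => ?_
    by_cases hab : a = b
    · subst hab; exact X.L_le hc.1 hc.2
    · refine (X.L_le hc.2 hc.1).trans (le_of_eq ?_)
      exact (S.U_set (Ne.symm hab) (Ne.symm hc.2) hc.1 hab (Ne.symm hc.1) hc.2 (by simp) (by simp)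
        (by simp))
  exact le_antisymm (key a b) (key b a)

theorem map_L (g : H) {a b : Fin r} {x : V} (hx : x ∈ S.L a b) :
    S.ρ g x ∈ S.L (S.π g a) (S.π g b) := by
  simp only [L, Submodule.mem_iInf] at hx ⊢
  intro c hc
  obtain ⟨c, rfl⟩ := (S.π g).surjective c
  exact S.map_U g (hx c ⟨fun h => hc.1 (by rw [h]), fun h => hc.2 (by rw [h])⟩)

theorem eq_of_mem {A B : Submodule k V} (hA : Module.finrank k A = 1) (hB : Module.finrank k B = 1)
    {x : V} (hx : x ≠ 0) (hxA : x ∈ A) (hxB : x ∈ B) : A = B := by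
  have hspan : ∀ C : Submodule k V, Module.finrank k C = 1 → x ∈ C → k ∙ x = C := fun C hC hxC =>
    Submodule.eq_of_le_of_finrank_le ((Submodule.span_singleton_le_iff_mem _ _).mpr hxC)
      (by rw [hC, finrank_span_singleton hx])
  rw [← hspan A hA hxA, hspan B hB hxB]

theorem two_le_n {a b c : Fin r} (hab : a ≠ b) (hbc : b ≠ c) (hca : c ≠ a) :
    2 ≤ Module.finrank k V := by
  rw [← X.d a b c hab hbc hca]; exact Submodule.finrank_le _

theorem L_ne {a b c : Fin r} (hab : a ≠ b) (hbc : b ≠ c) (hca : c ≠ a) :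
    S.L a b ≠ S.L b c := by
  intro heq
  have hr := S.nine
  have adj : ∀ {x y z : Fin r}, x ≠ y → y ≠ z → z ≠ x → S.L x y = S.L y z := by
    intro x y z hxy hyz hzx
    obtain ⟨v, hv, hv0⟩ := Submodule.exists_mem_ne_zero_of_ne_bot (p := S.L a b) (fun h => by
      have := X.finrank_L hab; rw [h, finrank_bot] at this; omega)
    obtain ⟨g, rfl, rfl, rfl⟩ := S.exists_map_three hab hbc hca hxy hyz hzx
    exact X.eq_of_mem (X.finrank_L hxy) (X.finrank_L hyz)
      (fun h => hv0 (S.ρ_injective g (h.trans (map_zero _).symm))) (X.map_L g hv)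
      (X.map_L g (heq ▸ hv))
  have hall : ∀ {x y : Fin r}, x ≠ y → S.L x y = S.L a b := by
    intro x y hxy
    obtain ⟨z, -, hz, -, -⟩ := exists_two_out ({a, b, x, y} : Finset (Fin r)) (by
      have := Finset.card_le_four (a := a) (b := b) (c := x) (d := y); omega)
    simp only [Finset.mem_insert, Finset.mem_singleton, not_or] at hz
    obtain ⟨hza, hzb, hzx, hzy⟩ := hz
    have h1 : S.L a b = S.L b z := adj hab (Ne.symm hzb) hza
    have h2 : S.L b z = S.L z x := by
      by_cases hxb : x = b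
      · subst hxb; exact X.L_symm _ _
      · exact adj (Ne.symm hzb) hzx hxb
    have h3 : S.L z x = S.L x y := adj hzx hxy (Ne.symm hzy)
    rw [h1, h2, h3]
  rcases S.irred (S.L a b) (S.invariant_of_T _ (fun x y z hxy hyz hzx v hv => by
      obtain ⟨t, ht, htT⟩ := S.exists_T x y z hxy hyz hzx
      rw [← htT, ← hall ((S.π t).injective.ne hab)]
      exact X.map_L t hv)) with h | h
  · have := X.finrank_L hab; rw [h, finrank_bot] at this; omega
  · have := X.finrank_L hab
    rw [h, finrank_top] at this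
    have := X.two_le_n hab hbc hca
    omega

theorem U_eq_of_lines {a b c x y z : Fin r} {A B : Submodule k V} (hab : a ≠ b) (hbc : b ≠ c)
    (hca : c ≠ a) (hxy : x ≠ y) (hyz : y ≠ z) (hzx : z ≠ x) (hA : Module.finrank k A = 1)
    (hB : Module.finrank k B = 1) (hAB : A ≠ B) (a1 : A ≤ S.U a b c) (b1 : B ≤ S.U a b c)
    (a2 : A ≤ S.U x y z) (b2 : B ≤ S.U x y z) : S.U a b c = S.U x y z := by
  have h0 : Module.finrank k ↥(A ⊓ B) = 0 := by
    by_contra h0
    exact hAB ((Submodule.eq_of_le_of_finrank_le (inf_le_left : A ⊓ B ≤ A) (by omega)).symm.trans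
      (Submodule.eq_of_le_of_finrank_le (inf_le_right : A ⊓ B ≤ B) (by omega)))
  have := Submodule.finrank_sup_add_finrank_inf_eq A B
  rw [← Submodule.eq_of_le_of_finrank_le (sup_le a1 b1) (by rw [X.d a b c hab hbc hca]; omega),
    ← Submodule.eq_of_le_of_finrank_le (sup_le a2 b2) (by rw [X.d x y z hxy hyz hzx]; omega)]

/-- The extremal case forces the characteristic to divide the degree. -/
theorem char_dvd (hn : Module.finrank k V + 2 ≤ r) : (r : k) = 0 := by
  classical
  by_contra hrk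
  have hr := S.nine
  let o1 : Fin r := ⟨0, by omega⟩
  let o2 : Fin r := ⟨1, by omega⟩
  let o3 : Fin r := ⟨2, by omega⟩
  have h12 : o1 ≠ o2 := by simp [o1, o2]
  have h13 : o1 ≠ o3 := by simp [o1, o3]
  have h23 : o2 ≠ o3 := by simp [o2, o3]
  obtain ⟨v, hv, hv0⟩ := Submodule.exists_mem_ne_zero_of_ne_bot (p := S.L o1 o2) (fun h => by
    have := X.finrank_L h12; rw [h, finrank_bot] at this; omega)
  let wv : Fin r → V := fun i =>
    if i = o1 then 0 else if i = o2 then v else -(S.T o1 o2 i (S.T o1 o2 i v))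
  have w1 : wv o1 = 0 := if_pos rfl
  have w2 : wv o2 = v := by simp only [wv, if_neg h12.symm, if_true]
  have wi : ∀ {i}, i ≠ o1 → i ≠ o2 → wv i = -(S.T o1 o2 i (S.T o1 o2 i v)) := fun h1 h2 => by
    simp only [wv, if_neg h1, if_neg h2]
  -- first images of `v`
  have hxv : ∀ {i}, i ≠ o1 → i ≠ o2 → S.T o1 o2 i v = wv i - v := by
    intro i h1 h2
    obtain ⟨y, hy⟩ := S.mem_U.mp (X.L_le h1 h2 hv)
    have h3 := LinearMap.congr_fun (S.T_cube o1 o2 i) y
    simp only [Module.End.mul_apply, Module.End.one_apply] at h3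
    rw [wi h1 h2, ← hy, map_sub, map_sub, h3]
    abel
  have hwL : ∀ {i}, i ≠ o1 → i ≠ o2 → wv i ∈ S.L o1 i := by
    intro i h1 h2
    obtain ⟨t, ht, htT⟩ := S.exists_T o1 o2 i h12 (Ne.symm h2) h1
    have := X.map_L t (X.map_L t hv)
    rw [ht, c3_apply_fst h12 h1, c3_apply_snd (Ne.symm h2) h1, c3_apply_thd, htT, X.L_symm] at this
    rw [wi h1 h2]
    exact neg_mem this
  have hTL : ∀ {i}, i ≠ o1 → i ≠ o2 → S.T o1 o2 i v ∈ S.L o2 i := by
    intro i h1 h2
    obtain ⟨t, ht, htT⟩ := S.exists_T o1 o2 i h12 (Ne.symm h2) h1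
    have := X.map_L t hv
    rwa [ht, c3_apply_fst h12 h1, c3_apply_snd (Ne.symm h2) h1, htT] at this
  have hw0 : ∀ {i}, i ≠ o1 → i ≠ o2 → wv i ≠ 0 := by
    intro i h1 h2 h0
    obtain ⟨t, -, htT⟩ := S.exists_T o1 o2 i h12 (Ne.symm h2) h1
    rw [wi h1 h2, neg_eq_zero, ← htT] at h0
    exact hv0 (S.ρ_injective t (S.ρ_injective t (h0.trans (by simp))))
  -- equivariance
  have hσ : ∀ a b c, a ≠ b → b ≠ c → c ≠ a → a ∉ ({o1, o2} : Finset (Fin r)) →
      b ∉ ({o1, o2} : Finset (Fin r)) → c ∉ ({o1, o2} : Finset (Fin r)) →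
      ∀ i, S.T a b c (wv i) = wv (c3 a b c i) := by
    intro a b c hab hbc hca ha hb hc i
    simp only [Finset.mem_insert, Finset.mem_singleton, not_or] at ha hb hc
    have hfix : S.T a b c v = v := by
      obtain ⟨z, -, hz, -, -⟩ := exists_two_out ({a, b, c, o1, o2} : Finset (Fin r)) (by
        have := Finset.card_le_five (a := a) (b := b) (c := c) (d := o1) (e := o2); omega)
      simp only [Finset.mem_insert, Finset.mem_singleton, not_or] at hz
      obtain ⟨za, zb, zc, z1, z2⟩ := hz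
      refine S.W_fixed X.dc (s := {o1, o2, z}) hab hbc hca (by simp [ha.1, ha.2, Ne.symm za])
        (by simp [hb.1, hb.2, Ne.symm zb]) (by simp [hc.1, hc.2, Ne.symm zc]) ?_
      exact S.U_le_W (a := o1) (b := o2) (c := z) (by simp) (by simp) (by simp) (X.L_le z1 z2 hv)
    obtain ⟨t, ht, htT⟩ := S.exists_T a b c hab hbc hca
    have f1 : c3 a b c o1 = o1 := c3_apply_other (Ne.symm ha.1) (Ne.symm hb.1) (Ne.symm hc.1)
    have f2 : c3 a b c o2 = o2 := c3_apply_other (Ne.symm ha.2) (Ne.symm hb.2) (Ne.symm hc.2)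
    by_cases i1 : i = o1
    · rw [i1, f1, w1, map_zero]
    by_cases i2 : i = o2
    · rw [i2, f2, w2, hfix]
    have j1 : c3 a b c i ≠ o1 := fun h => i1 ((c3 a b c).injective (h.trans f1.symm))
    have j2 : c3 a b c i ≠ o2 := fun h => i2 ((c3 a b c).injective (h.trans f2.symm))
    rw [wi i1 i2, wi j1 j2, map_neg, neg_inj, ← htT]
    have hc' : ∀ y, S.ρ t (S.T o1 o2 i y) = S.T o1 o2 (c3 a b c i) (S.ρ t y) := by
      intro y
      have := LinearMap.congr_fun (S.T_conj t o1 o2 i) y
      rwa [Module.End.mul_apply, Module.End.mul_apply, ht, f1, f2] at this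
    rw [hc', hc', htT, hfix]
  -- a vector outside a plane
  have hnot : ∀ {a b i}, a ≠ o1 → a ≠ o2 → i ≠ o1 → i ≠ o2 → a ≠ i → b ≠ o1 → b ≠ a → b ≠ i →
      wv i ∉ S.U o1 a b ∧ True := by
    intro a b i a1 a2 i1 i2 hai b1 hba hbi
    refine ⟨fun hmem => ?_, trivial⟩
    have hL : S.L o1 i ≤ S.U o1 a b := by
      have : k ∙ wv i = S.L o1 i :=
        Submodule.eq_of_le_of_finrank_le ((Submodule.span_singleton_le_iff_mem _ _).mpr (hwL i1 i2))
          (by rw [X.finrank_L (Ne.symm i1), finrank_span_singleton (hw0 i1 i2)])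
      rw [← this, Submodule.span_singleton_le_iff_mem]; exact hmem
    have hLa : S.L o1 a ≤ S.U o1 a b := X.L_le b1 hba
    have n : S.L o1 a ≠ S.L o1 i := by
      rw [X.L_symm o1 a]; exact X.L_ne a1 (Ne.symm i1) (Ne.symm hai)
    have e1 : S.U o1 a b = S.U o1 a i :=
      X.U_eq_of_lines (Ne.symm a1) (Ne.symm hba) b1 (Ne.symm a1) hai i1 (X.finrank_L (Ne.symm a1))
        (X.finrank_L (Ne.symm i1)) n hLa hL (X.L_le i1 (Ne.symm hai))
        ((X.L_le a1 hai).trans (S.U_set (Ne.symm a1) hai i1 (Ne.symm i1) (Ne.symm hai) a1 (by simp)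
          (by simp) (by simp)).le)
    exact X.U_ne (Ne.symm a1) (Ne.symm hba) b1 (d := i) (by simp [i1, Ne.symm hai, Ne.symm hbi]) e1
  -- the relation
  have hdep : ¬ LinearIndependent k (fun i : {i : Fin r // i ≠ o1} => wv i) := by
    intro h
    have h' := h.fintype_card_le_finrank
    rw [Fintype.card_subtype_compl, Fintype.card_fin, Fintype.card_subtype_eq] at h'
    omega
  obtain ⟨g0, hg0, ⟨i0, hi0⟩, hgi⟩ := Fintype.not_linearIndependent_iff.mp hdep
  let c : Fin r → k := fun i => if h : i ≠ o1 then g0 ⟨i, h⟩ else 0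
  have hc : ∀ i (h : i ≠ o1), c i = g0 ⟨i, h⟩ := fun i h => dif_pos h
  have hrel : ∑ i, c i • wv i = 0 := by
    rw [← hg0, ← Finset.sum_subtype (Finset.univ.filter fun i : Fin r => i ≠ o1) (by simp)
      (fun i => c i • wv i) |>.trans (Finset.sum_congr rfl fun i _ => by rw [hc i.1 i.2])]
    symm
    refine Finset.sum_subset (Finset.subset_univ _) fun i _ hi => ?_
    have : i = o1 := by simpa using hi
    rw [this, w1, smul_zero]
  have hdiff : ∀ a b l, a ≠ b → b ≠ l → l ≠ a → a ∉ ({o1, o2} : Finset (Fin r)) →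
      b ∉ ({o1, o2} : Finset (Fin r)) → l ∉ ({o1, o2} : Finset (Fin r)) → c b = c l := by
    intro a b l hab hbl hla ha hb hl
    have h1 : ∑ i, c i • (wv (c3 a b l i) - wv i) = 0 := by
      have h2 := congrArg (S.T a b l) hrel
      rw [map_sum, map_zero] at h2
      simp only [map_smul, hσ a b l hab hbl hla ha hb hl] at h2
      simp only [smul_sub, Finset.sum_sub_distrib, h2, hrel, sub_self]
    rw [← Finset.sum_subset (Finset.subset_univ ({a, b, l} : Finset (Fin r))) (fun i _ hi => by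
      simp only [Finset.mem_insert, Finset.mem_singleton, not_or] at hi
      rw [c3_apply_other hi.1 hi.2.1 hi.2.2, sub_self, smul_zero]),
      Finset.sum_insert (by simp [hab, Ne.symm hla]), Finset.sum_pair hbl,
      c3_apply_fst hab hla, c3_apply_snd hbl hla, c3_apply_thd] at h1
    simp only [Finset.mem_insert, Finset.mem_singleton, not_or] at ha hb hl
    by_contra hne
    have hγ : c b - c l ≠ 0 := sub_ne_zero.mpr hne
    refine (hnot (a := a) (b := b) (i := l) ha.1 ha.2 hl.1 hl.2 (Ne.symm hla) hb.1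
      (Ne.symm hab) hbl).1 ?_
    have hb' : wv b ∈ S.U o1 a b := by
      rw [S.U_set (Ne.symm hb.1) (Ne.symm hab) ha.1 (Ne.symm ha.1) hab hb.1 (by simp) (by simp)
        (by simp)]
      exact X.L_le ha.1 hab (hwL hb.1 hb.2)
    have ha' : wv a ∈ S.U o1 a b := X.L_le hb.1 (Ne.symm hab) (hwL ha.1 ha.2)
    have : (c b - c l) • wv l = (c a - c l) • wv a + (c b - c a) • wv b := by
      linear_combination (norm := module) h1
    rw [← inv_smul_smul₀ hγ (wv l), this]
    exact Submodule.smul_mem _ _ (add_mem (Submodule.smul_mem _ _ ha') (Submodule.smul_mem _ _ hb'))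
  have h31 : o3 ≠ o1 := h13.symm
  have h32 : o3 ≠ o2 := h23.symm
  have hconst : ∀ i, i ≠ o1 → i ≠ o2 → c i = c o3 := by
    intro i i1 i2
    by_cases i3 : i = o3
    · rw [i3]
    obtain ⟨a, -, ha, -, -⟩ := exists_two_out ({o1, o2, i, o3} : Finset (Fin r)) (by
      have := Finset.card_le_four (a := o1) (b := o2) (c := i) (d := o3); omega)
    simp only [Finset.mem_insert, Finset.mem_singleton, not_or] at ha
    exact hdiff a i o3 ha.2.2.1 i3 (Ne.symm ha.2.2.2) (by simp [ha.1, ha.2.1]) (by simp [i1, i2])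
      (by simp [h31, h32])
  -- coefficients in a plane
  have hpair : ∀ {α β : k}, α • v + β • wv o3 = 0 → α = 0 ∧ β = 0 := by
    intro α β h
    have hβ : β = 0 := by
      by_contra hb
      refine X.L_ne (a := o2) (b := o1) (c := o3) h12.symm h13 h23.symm ?_
      rw [X.L_symm o2 o1]
      refine X.eq_of_mem (X.finrank_L h12) (X.finrank_L h13) (hw0 h31 h32) ?_ (hwL h31 h32)
      have : wv o3 = (-(β⁻¹ * α)) • v := by
        have := congrArg (β⁻¹ • ·) h
        simp only [smul_add, smul_smul, inv_mul_cancel₀ hb, one_smul, smul_zero] at this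
        linear_combination (norm := module) this
      rw [this]; exact Submodule.smul_mem _ _ hv
    rw [hβ, zero_smul, add_zero] at h
    exact ⟨(smul_eq_zero.mp h).resolve_right hv0, hβ⟩
  -- the action of the first cycle
  have hx3 : S.T o1 o2 o3 v = wv o3 - v := hxv h31 h32
  have hx3' : S.T o1 o2 o3 (wv o3) = -v := by
    have h3 := LinearMap.congr_fun (S.T_cube o1 o2 o3) v
    simp only [Module.End.mul_apply, Module.End.one_apply] at h3
    rw [wi h31 h32, map_neg, h3]
  have hxj : ∀ j, j ≠ o1 → j ≠ o2 → j ≠ o3 → S.T o1 o2 o3 (wv j) = wv j - v := by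
    intro j j1 j2 j3
    obtain ⟨t, ht, htT⟩ := S.exists_T o1 o2 o3 h12 h23 h31
    have h1 : S.T o1 o2 o3 (wv j) ∈ S.L o2 j := by
      have := X.map_L t (hwL j1 j2)
      rwa [ht, c3_apply_fst h12 h31, c3_apply_other j1 j2 j3, htT] at this
    obtain ⟨l, hl⟩ : ∃ l : k, l • (wv j - v) = S.T o1 o2 o3 (wv j) := by
      have hm : wv j - v ∈ S.L o2 j := hxv j1 j2 ▸ hTL j1 j2
      have hne : wv j - v ≠ 0 := by
        obtain ⟨t', -, htT'⟩ := S.exists_T o1 o2 j h12 (Ne.symm j2) j1
        rw [← hxv j1 j2, ← htT']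
        exact fun h => hv0 (S.ρ_injective t' (h.trans (map_zero _).symm))
      obtain ⟨l, hl⟩ := exists_smul_eq_of_finrank_eq_one (X.finrank_L (Ne.symm j2))
        (x := (⟨wv j - v, hm⟩ : S.L o2 j)) (by simpa using hne) ⟨_, h1⟩
      exact ⟨l, congrArg Subtype.val hl⟩
    have h3 := LinearMap.congr_fun (S.T_cube o1 o2 o3) (wv j)
    simp only [Module.End.mul_apply, Module.End.one_apply] at h3
    simp only [← hl, map_smul, map_sub, hx3, hx3', map_add, map_neg] at h3
    have heq : (l ^ 3 - 1) • wv j + (l ^ 2 - l ^ 3) • v + (l - l ^ 2) • wv o3 = 0 := by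
      linear_combination (norm := module) h3
    have hout := (hnot (a := o3) (b := o2) (i := j) h31 h32 j1 j2 (Ne.symm j3) h12.symm h23
      (Ne.symm j2)).1
    have hα : l ^ 3 - 1 = 0 := by
      by_contra hα
      refine hout ?_
      rw [← inv_smul_smul₀ hα (wv j)]
      refine Submodule.smul_mem _ _ ?_
      rw [show (l ^ 3 - 1) • wv j = -((l ^ 2 - l ^ 3) • v) - (l - l ^ 2) • wv o3 by
        linear_combination (norm := module) heq]
      refine sub_mem (neg_mem (Submodule.smul_mem _ _ ?_)) (Submodule.smul_mem _ _ ?_)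
      · exact (S.U_set h13 h32 h12.symm h12 h23 h31 (by simp) (by simp) (by simp)).le
          (X.L_le h31 h32 hv)
      · exact X.L_le h12.symm h23 (hwL h31 h32)
    rw [hα, zero_smul, zero_add] at heq
    obtain ⟨hb, -⟩ := hpair heq
    have hl1 : l = 1 := by
      have h4 : l ^ 2 = 1 := by linear_combination hα + hb
      linear_combination hα - l * h4
    rw [← hl, hl1, one_smul]
  -- conclusion
  have hsum : ∑ i, c i • (S.T o1 o2 o3 (wv i) - wv i) = 0 := by
    have h2 := congrArg (S.T o1 o2 o3) hrel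
    rw [map_sum, map_zero] at h2
    simp only [map_smul] at h2
    simp only [smul_sub, Finset.sum_sub_distrib, h2, hrel, sub_self]
  have hsub : ∑ i ∈ ({o1, o2, o3} : Finset (Fin r)),
      (c i • (S.T o1 o2 o3 (wv i) - wv i) + c o3 • v) =
      ∑ i, (c i • (S.T o1 o2 o3 (wv i) - wv i) + c o3 • v) := by
    refine Finset.sum_subset (Finset.subset_univ _) fun i _ hi => ?_
    simp only [Finset.mem_insert, Finset.mem_singleton, not_or] at hi
    rw [hxj i hi.1 hi.2.1 hi.2.2, hconst i hi.1 hi.2.1]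
    module
  rw [Finset.sum_add_distrib (s := Finset.univ), hsum, zero_add, Finset.sum_const, Finset.card_univ,
    Fintype.card_fin, ← Nat.cast_smul_eq_nsmul k, Finset.sum_insert (by simp [h12, h13]),
    Finset.sum_pair h23, w1, w2, hx3, hx3', map_zero, sub_self, smul_zero, zero_add] at hsub
  have hfin : ((3 : k) * c o3 - 2 * c o2 - c o3 - (r : k) * c o3) • v + (c o2 - c o3) • wv o3 = 0 := by
    linear_combination (norm := module) hsub
  obtain ⟨h1, h2⟩ := hpair hfin
  have hc3 : c o3 = 0 := by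
    have : (r : k) * c o3 = 0 := by linear_combination -h1 - 2 * h2
    exact (mul_eq_zero.mp this).resolve_left hrk
  apply hgi
  show g0 ⟨i0, hi0⟩ = 0
  rw [← hc i0 hi0]
  by_cases i2 : i0 = o2
  · rw [i2]; linear_combination h2 + hc3
  · rw [hconst i0 hi0 i2, hc3]

end Ext

end Setup

end Cfsg.Agent.Components.AltSection
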