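import Cfsg.Agent.Components.AltSection.Clifford

/-!
Lower bound for the degree of a projective representation of an alternating group.
-/

set_option autoImplicit false

namespace Cfsg.Agent.Components.AltSection

universe u v w

theorem le_choose_self {m s : ℕ} (h1 : 1 ≤ s) (h2 : s < m) : m ≤ m.choose s := by
  induction m generalizing s with
  | zero => omega
  | succ m ih =>
    obtain ⟨t, rfl⟩ : ∃ t, s = t + 1 := ⟨s - 1, by omega⟩
    rw [Nat.choose_succ_succ']
    rcases Nat.eq_zero_or_pos t with rfl | ht
    · simp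
    · have := ih (s := t) ht (by omega)
      have : 1 ≤ m.choose (t + 1) := Nat.choose_pos (by omega)
      omega

theorem count_three {r s : ℕ} (hr : 12 ≤ r) (h1 : 2 ≤ s) (h2 : s ≤ r / 3) :
    r - 1 ≤ (r / 3).choose s * (3 - 1) ^ s := by
  rcases Nat.lt_or_ge s (r / 3) with h | h
  · have := le_choose_self (by omega : 1 ≤ s) h
    have h4 : 4 ≤ (3 - 1) ^ s := (Nat.pow_le_pow_right (by norm_num : 0 < 3 - 1) h1)
    calc r - 1 ≤ r / 3 * 4 := by omega
      _ ≤ _ := Nat.mul_le_mul this h4
  · obtain rfl : s = r / 3 := le_antisymm h2 h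
    rw [Nat.choose_self, one_mul]
    have key : ∀ m, 4 ≤ m → 3 * m + 1 ≤ 2 ^ m := by
      intro m hm
      induction m, hm using Nat.le_induction with
      | base => norm_num
      | succ m hm ih => rw [pow_succ]; omega
    have := key (r / 3) (by omega)
    simp only [show 3 - 1 = 2 from rfl]
    omega

theorem count_five {r s : ℕ} (hr : 10 ≤ r) (h1 : 2 ≤ s) (h2 : s ≤ r / 5) :
    r - 1 ≤ (r / 5).choose s * (5 - 1) ^ s := by
  rcases Nat.lt_or_ge s (r / 5) with h | h
  · have := le_choose_self (by omega : 1 ≤ s) h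
    have h4 : 16 ≤ (5 - 1) ^ s := (Nat.pow_le_pow_right (by norm_num : 0 < 5 - 1) h1)
    calc r - 1 ≤ r / 5 * 16 := by omega
      _ ≤ _ := Nat.mul_le_mul this h4
  · obtain rfl : s = r / 5 := le_antisymm h2 h
    rw [Nat.choose_self, one_mul]
    have key : ∀ m, 2 ≤ m → 5 * m + 3 ≤ 4 ^ m := by
      intro m hm
      induction m, hm using Nat.le_induction with
      | base => norm_num
      | succ m hm ih => rw [pow_succ]; omega
    have := key (r / 5) (by omega)
    simp only [show 5 - 1 = 4 from rfl]
    omega

namespace Setup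

variable {r : ℕ} {k : Type u} {V : Type v} {H : Type w} [Field k] [AddCommGroup V] [Module k V]
  [Group H] (S : Setup r k V H) [Finite H] [FiniteDimensional k V] [IsAlgClosed k]

include S

open Classical in
theorem le_finrank : r - 1 - (if (r : k) = 0 then 1 else 0) ≤ Module.finrank k V := by
  haveI : Fact (Nat.Prime 3) := ⟨Nat.prime_three⟩
  haveI : Fact (Nat.Prime 5) := ⟨Nat.prime_five⟩
  have hr := S.nine
  by_contra hlt
  have h35 : (3 : k) = 0 → (5 : k) ≠ 0 := fun h3 h5 => one_ne_zero (α := k) (by
    linear_combination 2 * h3 - h5)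
  have hδ : (if (r : k) = 0 then 1 else 0 : ℕ) ≤ 1 := by split <;> omega
  have hn : Module.finrank k V + 2 ≤ r := by omega
  have five : (5 : k) ≠ 0 → 10 ≤ r → S.DC := by
    intro h5 h10
    rcases S.prod_zero_or (q := 5) (Or.inr rfl) (by exact_mod_cast h5) (m := r / 5) (by omega)
      (by omega) (fun _ => rfl) (r - 1) (fun s h1 h2 => count_five h10 h1 h2) with h | h
    · omega
    · exact S.dc_of_mixed (S.mixed_of_five h10 h)
  have hDC : S.DC := by
    by_cases h3 : (3 : k) = 0
    · by_cases h9 : r = 9
      · rcases S.nine_three h9 (h35 h3) h3 with h | h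
        · omega
        · exact S.dc_of_mixed h
      · exact five (h35 h3) (by omega)
    have hqk : ((3 : ℕ) : k) ≠ 0 := by exact_mod_cast h3
    have small : ∀ N, (∀ s, 2 ≤ s → s ≤ 3 → N ≤ Nat.choose 3 s * (3 - 1) ^ s) →
        N ≤ Module.finrank k V ∨ S.DC := fun N hN => by
      rcases S.prod_zero_or (q := 3) (Or.inl rfl) hqk (m := 3) (by omega) (by omega)
        (by omega) N hN with h | h
      · exact Or.inl h
      · exact Or.inr (S.dc_of_three h)
    have h8 : ∀ s, 2 ≤ s → s ≤ 3 → 8 ≤ Nat.choose 3 s * (3 - 1) ^ s := by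
      intro s h1 h2
      interval_cases s <;> norm_num [Nat.choose]
    by_cases h12 : 12 ≤ r
    · rcases S.prod_zero_or (q := 3) (Or.inl rfl) hqk (m := r / 3) (by omega) (by omega)
        (by omega) (r - 1) (fun s h1 h2 => count_three h12 h1 h2) with h | h
      · omega
      · exact S.dc_of_three h
    by_cases h9 : r = 9
    · rcases small 8 h8 with h | h
      · omega
      · exact h
    by_cases h5 : (5 : k) = 0
    · obtain rfl | rfl : r = 10 ∨ r = 11 := by omega
      · have h10 : ((10 : ℕ) : k) = 0 := by push_cast; linear_combination (2 : k) * h5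
        rw [if_pos h10] at hlt
        rcases small 8 h8 with h | h
        · omega
        · exact h
      · have h2 : (2 : k) ≠ 0 := fun h2 => one_ne_zero (α := k) (by linear_combination h5 - 2 * h2)
        rcases S.eleven rfl h3 with h | h | h
        · omega
        · exact h
        · have := S.clifford h2 h3 h5 rfl h
          omega
    · exact five h5 (by omega)
  have hpos : ∀ a b c : Fin r, a ≠ b → b ≠ c → c ≠ a → 2 ≤ Module.finrank k (S.U a b c) := by
    intro a b c hab hbc hca
    by_cases h3 : (3 : k) = 0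
    · refine S.two_le_U_of_five (h35 h3) ?_ hab hbc hca
      have h1 : Module.finrank k (S.U a b c) ≠ 0 := fun h =>
        S.U_ne_bot hab hbc hca (Submodule.finrank_eq_zero.mp h)
      have := S.bound_two hDC hab hbc hca
      omega
    · exact S.two_le_U_of_ne h3 hab hbc hca
  have hrk := (S.ext_of hDC hpos hn).char_dvd hn
  rw [if_pos hrk] at hlt
  obtain ⟨a, b, c, -, -, -, hab, hbc, hca⟩ := exists_three_out (∅ : Finset (Fin r)) (by simp; omega)
  have := S.bound_two hDC hab hbc hca
  have := hpos a b c hab hbc hca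
  omega

end Setup

end Cfsg.Agent.Components.AltSection
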