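import Cfsg.Agent.Components.AltSection.Main

/-!
The central kernel of a minimal irreducible configuration.
-/

set_option autoImplicit false

namespace Cfsg.Agent.Components.AltSection

open Equiv

universe u v w

theorem card_weights_le {k : Type u} {V : Type v} [Field k] [AddCommGroup V] [Module k V]
    [FiniteDimensional k V] {ι : Type*} (B : ι → Module.End k V) (hc : ∀ i j, Commute (B i) (B j)) :
    Finite {χ : ι → k // (⨅ i, (B i).eigenspace (χ i)) ≠ ⊥} ∧
      Nat.card {χ : ι → k // (⨅ i, (B i).eigenspace (χ i)) ≠ ⊥} ≤ Module.finrank k V := by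
  have hind : iSupIndep fun χ : ι → k => ⨅ i, (B i).eigenspace (χ i) :=
    (Module.End.independent_iInf_maxGenEigenspace_of_forall_mapsTo B fun i j φ =>
      Module.End.mapsTo_maxGenEigenspace_of_comm (hc j i) φ).mono fun χ =>
        iInf_mono fun i => Module.End.eigenspace_le_maxGenEigenspace
  letI := hind.fintypeNeBotOfFiniteDimensional
  exact ⟨Finite.of_fintype _, by rw [Nat.card_eq_fintype_card]; exact hind.subtype_ne_bot_le_finrank⟩

theorem c3_noncomm {r : ℕ} (hr : 4 ≤ r) : ∃ a b : Perm (Fin r),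
    a ∈ alternatingGroup (Fin r) ∧ b ∈ alternatingGroup (Fin r) ∧ a * b ≠ b * a := by
  let p : Fin 4 → Fin r := Fin.castLE hr
  have hp : ∀ {i j}, i ≠ j → p i ≠ p j := fun h => (Fin.castLE_injective hr).ne h
  refine ⟨c3 (p 0) (p 1) (p 2), c3 (p 0) (p 1) (p 3), c3_mem _ _ _ (hp (by decide)) (hp (by decide)),
    c3_mem _ _ _ (hp (by decide)) (hp (by decide)), fun h => ?_⟩
  have h' := congrArg (fun σ : Perm (Fin r) => σ (p 2)) h
  simp only [Perm.mul_apply] at h'
  rw [c3_apply_other (hp (by decide)) (hp (by decide)) (hp (by decide)), c3_apply_thd,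
    c3_apply_fst (hp (by decide)) (hp (by decide))] at h'
  exact hp (by decide) h'

/-- An irreducible faithful representation of a minimal cover. -/
structure Pre (r : ℕ) (k : Type u) (V : Type v) (H : Type w) [Field k] [AddCommGroup V]
    [Module k V] [Group H] where
  ρ : Representation k H V
  π : H →* Perm (Fin r)
  range_eq : π.range = alternatingGroup (Fin r)
  inj : Function.Injective ρ
  irred : ∀ W : Submodule k V, (∀ h, ∀ x ∈ W, ρ h x ∈ W) → W = ⊥ ∨ W = ⊤
  nontriv : Nontrivial V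
  minimal : ∀ M : Subgroup H, alternatingGroup (Fin r) ≤ M.map π → M = ⊤
  nine : 9 ≤ r

namespace Pre

variable {r : ℕ} {k : Type u} {V : Type v} {H : Type w} [Field k] [AddCommGroup V] [Module k V]
  [Group H] (S : Pre r k V H)

theorem normal_cases (N : Subgroup H) [N.Normal] : N ≤ S.π.ker ∨ N = ⊤ := by
  have hr := S.nine
  haveI : IsSimpleGroup (alternatingGroup (Fin r)) :=
    alternatingGroup.isSimpleGroup (by rw [Nat.card_eq_fintype_card, Fintype.card_fin]; omega)
  let π' : H →* alternatingGroup (Fin r) :=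
    S.π.codRestrict _ fun h => by rw [← S.range_eq]; exact ⟨h, rfl⟩
  have hsurj : Function.Surjective π' := fun σ => by
    obtain ⟨h, hh⟩ : σ.1 ∈ S.π.range := S.range_eq.symm ▸ σ.2
    exact ⟨h, Subtype.ext hh⟩
  haveI : (N.map π').Normal := Subgroup.Normal.map inferInstance _ hsurj
  rcases Subgroup.Normal.eq_bot_or_eq_top (H := N.map π') inferInstance with h | h
  · left
    intro x hx
    have : π' x ∈ N.map π' := ⟨x, hx, rfl⟩
    rw [h, Subgroup.mem_bot] at this
    exact congrArg Subtype.val this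
  · right
    refine S.minimal N fun σ hσ => ?_
    obtain ⟨x, hx, hxσ⟩ : (⟨σ, hσ⟩ : alternatingGroup (Fin r)) ∈ N.map π' := by rw [h]; trivial
    exact ⟨x, hx, congrArg Subtype.val hxσ⟩

theorem ker_ne_top : S.π.ker ≠ ⊤ := by
  intro h
  obtain ⟨a, b, ha, hb, hab⟩ := c3_noncomm (r := r) (by have := S.nine; omega)
  rw [← S.range_eq] at ha hb
  obtain ⟨x, rfl⟩ := ha
  have hx : x ∈ S.π.ker := by rw [h]; trivial
  rw [MonoidHom.mem_ker.mp hx] at hab
  exact hab (by rw [one_mul, mul_one])

include S in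
theorem perfect : commutator H = ⊤ := by
  refine (S.normal_cases (commutator H)).resolve_left fun h => ?_
  obtain ⟨a, b, ha, hb, hab⟩ := c3_noncomm (r := r) (by have := S.nine; omega)
  rw [← S.range_eq] at ha hb
  obtain ⟨x, rfl⟩ := ha
  obtain ⟨y, rfl⟩ := hb
  have hxy : x * y * x⁻¹ * y⁻¹ ∈ S.π.ker :=
    h (Subgroup.commutator_mem_commutator (Subgroup.mem_top x) (Subgroup.mem_top y))
  rw [MonoidHom.mem_ker, map_mul, map_mul, map_mul, map_inv, map_inv] at hxy
  exact hab (mul_inv_eq_iff_eq_mul.mp (mul_inv_eq_one.mp hxy))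

variable [Finite H]

theorem card_le_of_hom {G' : Type*} [Group G'] [Finite G'] (φ : H →* G') (h : φ.ker ≤ S.π.ker) :
    Nat.card (alternatingGroup (Fin r)) ≤ Nat.card G' := by
  have h1 : S.π.ker.index = Nat.card (alternatingGroup (Fin r)) := by
    rw [Subgroup.index_ker, S.range_eq]
  have h2 := Nat.le_of_dvd (Nat.pos_of_ne_zero Subgroup.index_ne_zero_of_finite)
    (Subgroup.index_dvd_of_le h)
  rw [h1, Subgroup.index_ker] at h2
  exact h2.trans (Subgroup.card_le_card_group _)

include S in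
theorem eq_one_of_perm {X : Type*} [Finite X] (φ : H →* Perm X) (hX : Nat.card X + 2 ≤ r) :
    ∀ h, φ h = 1 := by
  rcases S.normal_cases φ.ker with h | h
  · exfalso
    have h1 := S.card_le_of_hom φ h
    rw [Nat.card_perm] at h1
    have hr := S.nine
    haveI : Nontrivial (Fin r) := Fin.nontrivial_iff_two_le.mpr (by omega)
    have h2 := two_mul_card_alternatingGroup (α := Fin r)
    rw [Fintype.card_perm, Fintype.card_fin] at h2
    rw [Nat.card_eq_fintype_card] at h1
    have h3 := Nat.factorial_le hX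
    have h4 : (Nat.card X + 2).factorial =
        (Nat.card X + 2) * ((Nat.card X + 1) * (Nat.card X).factorial) := by
      rw [Nat.factorial_succ, Nat.factorial_succ]
    have hpos := Nat.factorial_pos (Nat.card X)
    rcases Nat.eq_zero_or_pos (Nat.card X) with h0 | h0
    · rw [h0, Nat.factorial_zero] at h1
      have h5 : 6 ≤ r.factorial := Nat.factorial_le (show 3 ≤ r by omega)
      omega
    · have : 3 * (Nat.card X).factorial ≤ (Nat.card X + 2).factorial := by
        rw [h4]
        exact Nat.mul_le_mul (by omega) (Nat.le_mul_of_pos_left _ (by omega))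
      omega
  · intro x
    have : x ∈ φ.ker := by rw [h]; trivial
    exact this

/-- Elements acting as scalars. -/
def scalars : Subgroup H where
  carrier := {h | ∃ c : k, S.ρ h = c • 1}
  one_mem' := ⟨1, by rw [map_one, one_smul]⟩
  mul_mem' := fun {a b} ⟨c, hc⟩ ⟨d, hd⟩ =>
    ⟨c * d, by rw [map_mul, hc, hd, smul_mul_assoc, one_mul, smul_smul]⟩
  inv_mem' := fun {a} ⟨c, hc⟩ => by
    haveI := S.nontriv
    have h1 : c • S.ρ a⁻¹ = 1 := by
      rw [← one_mul (S.ρ a⁻¹), ← smul_mul_assoc, ← hc, ← map_mul, mul_inv_cancel, map_one]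
    have hc0 : c ≠ 0 := by
      rintro rfl
      rw [zero_smul] at h1
      exact zero_ne_one h1
    exact ⟨c⁻¹, by rw [← h1, smul_smul, inv_mul_cancel₀ hc0, one_smul]⟩

theorem mem_scalars {h : H} : h ∈ S.scalars ↔ ∃ c : k, S.ρ h = c • 1 := Iff.rfl

theorem scalars_central {z : H} (hz : z ∈ S.scalars) (h : H) : z * h = h * z := by
  obtain ⟨c, hc⟩ := hz
  apply S.inj
  rw [map_mul, map_mul, hc, smul_mul_assoc, mul_smul_comm, one_mul, mul_one]

theorem scalars_normal : S.scalars.Normal :=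
  ⟨fun z hz g => by rwa [← S.scalars_central hz g, mul_inv_cancel_right]⟩

variable [FiniteDimensional k V] [IsAlgClosed k]

theorem scalar_of_abelian (hn : Module.finrank k V + 2 ≤ r) (A : Subgroup H) [hA : A.Normal]
    (hcomm : ∀ a ∈ A, ∀ b ∈ A, a * b = b * a) : A ≤ S.scalars := by
  classical
  haveI := S.nontriv
  let B : A → Module.End k V := fun a => S.ρ a
  have hB : ∀ a b, Commute (B a) (B b) := fun a b =>
    (show Commute (a : H) (b : H) from hcomm a a.2 b b.2).map S.ρ
  haveI : Fintype A := Fintype.ofFinite A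
  obtain ⟨z, -, hz, hzμ⟩ := exists_common_eigen B hB Finset.univ ⊤ top_ne_bot
    (fun _ x _ => Submodule.mem_top)
  choose χ hχ using fun a => hzμ a (Finset.mem_univ a)
  let X := {χ : A → k // (⨅ a, (B a).eigenspace (χ a)) ≠ ⊥}
  obtain ⟨hfin, hcard⟩ := card_weights_le B hB
  haveI : Finite X := hfin
  let act : H → (A → k) → (A → k) := fun h f a => f ⟨h⁻¹ * a * h, by simpa using hA.conj_mem _ a.2 h⁻¹⟩
  have hmove : ∀ h f x, x ∈ (⨅ a, (B a).eigenspace (f a)) →
      S.ρ h x ∈ ⨅ a, (B a).eigenspace (act h f a) := by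
    intro h f x hx
    rw [Submodule.mem_iInf] at hx ⊢
    intro a
    rw [Module.End.mem_eigenspace_iff]
    have h1 := Module.End.mem_eigenspace_iff.mp (hx ⟨h⁻¹ * a * h, by simpa using hA.conj_mem _ a.2 h⁻¹⟩)
    show S.ρ (a : H) (S.ρ h x) = _
    rw [← Module.End.mul_apply, ← map_mul, show (a : H) * h = h * (h⁻¹ * a * h) by group, map_mul,
      Module.End.mul_apply, h1, map_smul]
  have hne : ∀ h f, (⨅ a, (B a).eigenspace (f a)) ≠ ⊥ →
      (⨅ a, (B a).eigenspace (act h f a)) ≠ ⊥ := by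
    intro h f hf hbot
    obtain ⟨x, hx, hx0⟩ := Submodule.exists_mem_ne_zero_of_ne_bot hf
    have h1 := (Submodule.eq_bot_iff _).mp hbot _ (hmove h f x hx)
    refine hx0 ?_
    have h2 := congrArg (S.ρ h⁻¹) h1
    rwa [map_zero, ← Module.End.mul_apply, ← map_mul, inv_mul_cancel, map_one,
      Module.End.one_apply] at h2
  have act_mul : ∀ g h f, act (g * h) f = act g (act h f) := by
    intro g h f; funext a
    simp only [act]
    congr 1
    exact Subtype.ext (by group)
  have act_one : ∀ f, act 1 f = f := fun f => by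
    funext a
    simp only [act]
    congr 1
    exact Subtype.ext (by group)
  letI : MulAction H X :=
    { smul := fun h x => ⟨act h x.1, hne h x.1 x.2⟩
      one_smul := fun x => Subtype.ext (act_one x.1)
      mul_smul := fun g h x => Subtype.ext (act_mul g h x.1) }
  have htriv := S.eq_one_of_perm (MulAction.toPermHom H X) (le_trans (Nat.add_le_add_right hcard 2) hn)
  have hzE : z ∈ ⨅ a, (B a).eigenspace (χ a) :=
    (Submodule.mem_iInf _).mpr fun a => Module.End.mem_eigenspace_iff.mpr (hχ a)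
  have hne0 : (⨅ a, (B a).eigenspace (χ a)) ≠ ⊥ := fun h =>
    hz ((Submodule.eq_bot_iff _).mp h z hzE)
  rcases S.irred (⨅ a, (B a).eigenspace (χ a)) (fun h x hx => by
      have h1 := hmove h χ x hx
      have h2 : act h χ = χ := congrArg Subtype.val
        (Equiv.ext_iff.mp (htriv h) (⟨χ, hne0⟩ : X))
      rwa [h2] at h1) with h | h
  · exact absurd h hne0
  · intro a ha
    refine ⟨χ ⟨a, ha⟩, LinearMap.ext fun x => ?_⟩
    have hx : x ∈ ⨅ a, (B a).eigenspace (χ a) := h ▸ Submodule.mem_top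
    exact Module.End.mem_eigenspace_iff.mp ((Submodule.mem_iInf _).mp hx ⟨a, ha⟩)

theorem commutator_scalar (hn : Module.finrank k V + 2 ≤ r) (Q : Subgroup H) [Q.Normal]
    (hQ : Group.IsNilpotent Q) : ⁅Q, Q⁆ ≤ S.scalars := by
  obtain ⟨c, hc⟩ := (Subgroup.isNilpotent_iff_lowerCentralSeries (S := Q)).mp hQ
  let L := Q.lowerCentralSeries
  have hnorm : ∀ i, (L i).Normal := by
    intro i
    induction i with
    | zero => exact inferInstanceAs Q.Normal
    | succ i ih => exact Subgroup.commutator_normal _ _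
  have step : ∀ i, 1 ≤ i → L (i + 1) ≤ S.scalars → L i ≤ S.scalars := by
    intro i hi h
    haveI := hnorm i
    refine S.scalar_of_abelian hn (L i) fun a ha b hb => ?_
    have hcen : ∀ (M : Subgroup H), M ≤ S.scalars → ⁅M, Q⁆ = ⊥ := fun M hM =>
      Subgroup.commutator_eq_bot_iff_le_centralizer.mpr fun x hx =>
        Subgroup.mem_centralizer_iff.mpr fun y _ => (S.scalars_central (hM hx) y).symm
    have h1 : ⁅⁅Q, L i⁆, Q⁆ = ⊥ := by
      rw [Subgroup.commutator_comm Q (L i)]; exact hcen _ h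
    have h2 : ⁅⁅L i, Q⁆, Q⁆ = ⊥ := hcen _ h
    have h3 : ⁅⁅Q, Q⁆, L i⁆ = ⊥ := Subgroup.commutator_commutator_eq_bot_of_rotate h1 h2
    have h4 : L i ≤ ⁅Q, Q⁆ := Q.lowerCentralSeries_antitone hi
    exact (Subgroup.mem_centralizer_iff.mp
      (Subgroup.commutator_eq_bot_iff_le_centralizer.mp h3 (h4 ha)) b hb).symm
  have key : ∀ j i, 1 ≤ i → i + j = c + 1 → L i ≤ S.scalars := by
    intro j
    induction j with
    | zero =>
      intro i _ hij
      have : L i ≤ ⊥ := hc ▸ Q.lowerCentralSeries_antitone (by omega)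
      exact this.trans bot_le
    | succ j ih =>
      intro i hi hij
      exact step i hi (ih (i + 1) (by omega) (by omega))
  exact key c 1 le_rfl (by omega)

omit [IsAlgClosed k] in
/-- Coset representatives of the scalars give independent operators. -/
theorem card_quotient_le (R : Subgroup H) (hR : ⁅R, R⁆ ≤ S.scalars)
    (hcen : ∀ w ∈ R, (∀ g ∈ R, g * w = w * g) → w ∈ S.scalars) :
    Nat.card (R ⧸ S.scalars.subgroupOf R) ≤ Module.finrank k V * Module.finrank k V := by
  haveI := S.nontriv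
  let B : R → Module.End k (Module.End k V) := fun g =>
    { toFun := fun f => S.ρ g * f * S.ρ (g : H)⁻¹
      map_add' := fun f f' => by rw [mul_add, add_mul]
      map_smul' := fun c f => by simp [mul_smul_comm, smul_mul_assoc] }
  have hB : ∀ g g', Commute (B g) (B g') := by
    intro g g'
    refine LinearMap.ext fun f => ?_
    show S.ρ g * (S.ρ g' * f * S.ρ (g' : H)⁻¹) * S.ρ (g : H)⁻¹ =
      S.ρ g' * (S.ρ g * f * S.ρ (g : H)⁻¹) * S.ρ (g' : H)⁻¹
    obtain ⟨c, hc⟩ : (g : H) * g' * (g : H)⁻¹ * (g' : H)⁻¹ ∈ S.scalars :=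
      hR (Subgroup.commutator_mem_commutator g.2 g'.2)
    let zc := (g : H) * g' * (g : H)⁻¹ * (g' : H)⁻¹
    have e1 : (g : H) * g' = zc * (g' * g) := by simp only [zc]; group
    have e2 : (g' : H)⁻¹ * (g : H)⁻¹ = ((g' : H) * g)⁻¹ * zc⁻¹ * 1 := by simp only [zc]; group
    calc S.ρ g * (S.ρ g' * f * S.ρ (g' : H)⁻¹) * S.ρ (g : H)⁻¹
        = S.ρ ((g : H) * g') * f * S.ρ ((g' : H)⁻¹ * (g : H)⁻¹) := by
          simp only [map_mul, mul_assoc]
      _ = S.ρ zc * (S.ρ ((g' : H) * g) * f * S.ρ ((g' : H) * g)⁻¹) * S.ρ zc⁻¹ := by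
          rw [e1, e2, mul_one]; simp only [map_mul, mul_assoc]
      _ = (S.ρ ((g' : H) * g) * f * S.ρ ((g' : H) * g)⁻¹) * (S.ρ zc * S.ρ zc⁻¹) := by
          simp only [zc, hc, smul_mul_assoc, mul_smul_comm, one_mul, mul_one]
      _ = _ := by
          rw [← map_mul, mul_inv_cancel, map_one, mul_one, mul_inv_rev]
          simp only [map_mul, mul_assoc]
  obtain ⟨hfin, hcard⟩ := card_weights_le B hB
  rw [Module.finrank_linearMap] at hcard
  have hex : ∀ (g x : R), ∃ c : k, S.ρ ((g : H) * x * (g : H)⁻¹) = c • S.ρ x := by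
    intro g x
    obtain ⟨c, hc⟩ : (g : H) * x * (g : H)⁻¹ * (x : H)⁻¹ ∈ S.scalars :=
      hR (Subgroup.commutator_mem_commutator g.2 x.2)
    refine ⟨c, ?_⟩
    rw [show (g : H) * x * (g : H)⁻¹ = ((g : H) * x * (g : H)⁻¹ * (x : H)⁻¹) * x by group, map_mul, hc,
      smul_mul_assoc, one_mul]
  choose c hc using hex
  have hne : ∀ h : H, S.ρ h ≠ 0 := by
    intro h h0
    have : S.ρ h * S.ρ h⁻¹ = 1 := by rw [← map_mul, mul_inv_cancel, map_one]
    rw [h0, zero_mul] at this
    exact zero_ne_one this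
  let Ψ : R ⧸ S.scalars.subgroupOf R →
      {χ : R → k // (⨅ g, (B g).eigenspace (χ g)) ≠ ⊥} := fun q =>
    ⟨fun g => c g q.out, fun hbot => by
      refine hne (q.out : H) ((Submodule.eq_bot_iff _).mp hbot _ ((Submodule.mem_iInf _).mpr fun g => ?_))
      rw [Module.End.mem_eigenspace_iff, ← hc g q.out, map_mul, map_mul]
      rfl⟩
  have hΨ : Function.Injective Ψ := by
    intro q q' hqq
    have hχ : ∀ g, c g q.out = c g q'.out := fun g => congrFun (congrArg Subtype.val hqq) g
    rw [← QuotientGroup.out_eq' q, ← QuotientGroup.out_eq' q', QuotientGroup.eq]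
    rw [Subgroup.mem_subgroupOf]
    let w : H := (q.out : H)⁻¹ * q'.out
    refine hcen w (mul_mem (inv_mem q.out.2) q'.out.2) fun g hg => ?_
    have h1 := hc ⟨g, hg⟩ q.out
    have h2 := hc ⟨g, hg⟩ q'.out
    rw [← hχ ⟨g, hg⟩] at h2
    have h3 : S.ρ (g * q'.out * g⁻¹) = S.ρ (g * q.out * g⁻¹ * w) := by
      rw [h2, map_mul (S.ρ) (g * q.out * g⁻¹), h1, smul_mul_assoc, ← map_mul, mul_inv_cancel_left]
    have h4 := S.inj h3
    have h5 : g * w = w * g := by
      calc g * w = (g * (q.out : H)⁻¹ * g⁻¹) * (g * q'.out * g⁻¹) * g := by simp only [w]; group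
        _ = (g * (q.out : H)⁻¹ * g⁻¹) * (g * q.out * g⁻¹ * w) * g := by rw [h4]
        _ = w * g := by group
    exact h5
  exact (Nat.card_le_card_of_injective Ψ hΨ).trans hcard

end Pre

end Cfsg.Agent.Components.AltSection
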