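import Mathlib

/-!
Permutation combinatorics used for alternating sections of linear groups.
-/

set_option autoImplicit false

namespace Cfsg.Agent.Components.AltSection

open Equiv

variable {r : ℕ}

/-- The 3-cycle `a ↦ b ↦ c ↦ a`. -/
def c3 (a b c : Fin r) : Perm (Fin r) := swap a b * swap b c

theorem c3_conj (g : Perm (Fin r)) (a b c : Fin r) :
    g * c3 a b c * g⁻¹ = c3 (g a) (g b) (g c) := by
  unfold c3; rw [swap_apply_apply, swap_apply_apply]; group

theorem c3_mem (a b c : Fin r) (hab : a ≠ b) (hbc : b ≠ c) :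
    c3 a b c ∈ alternatingGroup (Fin r) := by
  rw [Perm.mem_alternatingGroup, c3, map_mul, Perm.sign_swap hab, Perm.sign_swap hbc]; rfl

theorem c3_apply_fst {a b c : Fin r} (hab : a ≠ b) (hca : c ≠ a) : c3 a b c a = b := by
  simp [c3, Perm.mul_apply, swap_apply_of_ne_of_ne hab hca.symm]

theorem c3_apply_snd {a b c : Fin r} (hbc : b ≠ c) (hca : c ≠ a) : c3 a b c b = c := by
  simp [c3, Perm.mul_apply, swap_apply_of_ne_of_ne hca hbc.symm]

theorem c3_apply_thd (a b c : Fin r) : c3 a b c c = a := by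
  simp [c3, Perm.mul_apply]

theorem c3_apply_other {a b c w : Fin r} (ha : w ≠ a) (hb : w ≠ b) (hc : w ≠ c) :
    c3 a b c w = w := by
  simp [c3, Perm.mul_apply, swap_apply_of_ne_of_ne hb hc, swap_apply_of_ne_of_ne ha hb]

theorem c3_rot {a b c : Fin r} (hab : a ≠ b) (hbc : b ≠ c) (hca : c ≠ a) :
    c3 a b c = c3 b c a := by
  ext w
  by_cases h1 : w = a
  · subst h1; rw [c3_apply_fst hab hca, c3_apply_thd]
  by_cases h2 : w = b
  · subst h2; rw [c3_apply_snd hbc hca, c3_apply_fst hbc hab]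
  by_cases h3 : w = c
  · subst h3; rw [c3_apply_thd, c3_apply_snd hca hab]
  rw [c3_apply_other h1 h2 h3, c3_apply_other h2 h3 h1]

theorem c3_inv {a b c : Fin r} : (c3 a b c)⁻¹ = c3 c b a := by
  simp [c3, swap_comm]

theorem exists_c3_of_isThreeCycle {σ : Perm (Fin r)} (h : σ.IsThreeCycle) :
    ∃ a b c, a ≠ b ∧ b ≠ c ∧ c ≠ a ∧ σ = c3 a b c := by
  obtain ⟨x, hx⟩ : σ.support.Nonempty := Finset.card_pos.mp (by rw [h.card_support]; norm_num)
  rw [Perm.mem_support] at hx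
  have h3 : σ ^ 3 = 1 := by rw [← h.orderOf]; exact pow_orderOf_eq_one σ
  have h3' : ∀ w, σ (σ (σ w)) = w := fun w => by
    rw [← Perm.mul_apply, ← Perm.mul_apply, ← pow_three', h3]; rfl
  have hab : x ≠ σ x := Ne.symm hx
  have hbc : σ x ≠ σ (σ x) := fun e => hab (σ.injective e)
  have hca : σ (σ x) ≠ x := fun e => hx (by conv_lhs => rw [← e]; rfl
                                            exact h3' x)
  refine ⟨x, σ x, σ (σ x), hab, hbc, hca, ?_⟩
  ext w
  by_cases h1 : w = x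
  · subst h1; rw [c3_apply_fst hab hca]
  by_cases h2 : w = σ x
  · subst h2; rw [c3_apply_snd hbc hca]
  by_cases h4 : w = σ (σ x)
  · subst h4; rw [c3_apply_thd, h3']
  rw [c3_apply_other h1 h2 h4]
  by_contra hw
  have hw' : σ w ≠ w := fun e => hw (congrArg Fin.val e)
  obtain ⟨i, -, hi⟩ := (h.isCycle.sameCycle hx hw').exists_pow_eq'
  rw [← pow_mod_orderOf, h.orderOf] at hi
  have : i % 3 = 0 ∨ i % 3 = 1 ∨ i % 3 = 2 := by omega
  rcases this with e | e | e <;> rw [e] at hi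
  · exact h1 hi.symm
  · exact h2 (by simpa using hi.symm)
  · exact h4 (by simpa [pow_two, Perm.mul_apply] using hi.symm)

theorem alternating_le_of_c3 (Γ : Subgroup (Perm (Fin r)))
    (h : ∀ a b c, a ≠ b → b ≠ c → c ≠ a → c3 a b c ∈ Γ) : alternatingGroup (Fin r) ≤ Γ := by
  rw [← Perm.closure_three_cycles_eq_alternating, Subgroup.closure_le]
  intro σ hσ
  obtain ⟨a, b, c, h1, h2, h3, rfl⟩ := exists_c3_of_isThreeCycle hσ
  exact h a b c h1 h2 h3

/-- An even permutation fixing `S` pointwise is generated by 3-cycles avoiding `S`. -/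
theorem mem_of_fix (Γ : Subgroup (Perm (Fin r))) (S : Finset (Fin r))
    (h : ∀ a b c, a ∉ S → b ∉ S → c ∉ S → a ≠ b → b ≠ c → c ≠ a → c3 a b c ∈ Γ)
    {d : Perm (Fin r)} (hd : d ∈ alternatingGroup (Fin r)) (hfix : ∀ x ∈ S, d x = x) : d ∈ Γ := by
  classical
  have hinv : ∀ x, x ∉ S ↔ d x ∉ S := by
    intro x
    constructor
    · intro hx hdx
      have h1 := hfix _ hdx
      exact hx (d.injective h1 ▸ hdx)
    · intro hdx hx
      exact hdx ((hfix x hx).symm ▸ hx)
  let d' : Perm {x // x ∉ S} := d.subtypePerm (fun x => (hinv x).symm)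
  have hofs : Perm.ofSubtype d' = d :=
    Perm.ofSubtype_subtypePerm (fun x => (hinv x).symm) fun x hx hxS => hx (hfix x hxS)
  have hd' : d' ∈ alternatingGroup {x // x ∉ S} := by
    rw [Perm.mem_alternatingGroup, ← Perm.sign_ofSubtype, hofs]
    exact Perm.mem_alternatingGroup.mp hd
  rw [← hofs]
  suffices alternatingGroup {x // x ∉ S} ≤ Γ.comap Perm.ofSubtype from this hd'
  rw [← Perm.closure_three_cycles_eq_alternating, Subgroup.closure_le]
  intro σ hσ
  have hσ' : (Perm.ofSubtype σ).IsThreeCycle := by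
    rw [Perm.IsThreeCycle, Perm.cycleType_ofSubtype]; exact hσ
  obtain ⟨a, b, c, h1, h2, h3, e⟩ := exists_c3_of_isThreeCycle hσ'
  have key : ∀ w, Perm.ofSubtype σ w ≠ w → w ∉ S := by
    intro w hw hwS
    exact hw (Perm.ofSubtype_apply_of_not_mem σ (by simpa using hwS))
  simp only [SetLike.mem_coe, Subgroup.mem_comap, e]
  refine h a b c (key a ?_) (key b ?_) (key c ?_) h1 h2 h3
  · rw [e, c3_apply_fst h1 h3]; exact h1.symm
  · rw [e, c3_apply_snd h2 h3]; exact h2.symm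
  · rw [e, c3_apply_thd]; exact h3.symm

theorem exists_two_out (S : Finset (Fin r)) (h : S.card + 2 ≤ r) :
    ∃ u v, u ∉ S ∧ v ∉ S ∧ u ≠ v := by
  have : 1 < Sᶜ.card := by rw [Finset.card_compl, Fintype.card_fin]; omega
  obtain ⟨u, hu, v, hv, huv⟩ := Finset.one_lt_card.mp this
  exact ⟨u, v, Finset.mem_compl.mp hu, Finset.mem_compl.mp hv, huv⟩

/-- Even permutations realise every partial injection leaving two free points. -/
theorem exists_even_map {β : Type*} [Fintype β] (f g : β ↪ Fin r)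
    (h : Fintype.card β + 2 ≤ r) : ∃ σ ∈ alternatingGroup (Fin r), ∀ x, σ (f x) = g x := by
  classical
  let e : Set.range f ≃ Set.range g :=
    (Equiv.ofInjective f f.injective).symm.trans (Equiv.ofInjective g g.injective)
  let σ := e.extendSubtype
  have hσ : ∀ x, σ (f x) = g x := by
    intro x
    simp [σ, Equiv.extendSubtype_apply_of_mem e (f x) ⟨x, rfl⟩, e]
  rcases Int.units_eq_one_or (Perm.sign σ) with hs | hs
  · exact ⟨σ, Perm.mem_alternatingGroup.mpr hs, hσ⟩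
  obtain ⟨u, v, hu, hv, huv⟩ := exists_two_out (Finset.univ.map g)
    (by rw [Finset.card_map, Finset.card_univ]; exact h)
  refine ⟨swap u v * σ, ?_, fun x => ?_⟩
  · rw [Perm.mem_alternatingGroup, map_mul, Perm.sign_swap huv, hs]; rfl
  · rw [Perm.mul_apply, hσ]
    refine swap_apply_of_ne_of_ne ?_ ?_
    · intro e'; exact hu (Finset.mem_map.mpr ⟨x, Finset.mem_univ _, e'⟩)
    · intro e'; exact hv (Finset.mem_map.mpr ⟨x, Finset.mem_univ _, e'⟩)

section blocks

variable {k q : ℕ}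

/-- The cycle of length `q` on the range of `e`. -/
noncomputable def cyc [NeZero q] (e : ZMod q ↪ Fin r) : Perm (Fin r) :=
  Perm.viaEmbedding (Equiv.addRight (1 : ZMod q)) e

theorem cyc_apply [NeZero q] (e : ZMod q ↪ Fin r) (a : ZMod q) : cyc e (e a) = e (a + 1) :=
  Perm.viaEmbedding_apply _ e a

theorem cyc_apply_out [NeZero q] (e : ZMod q ↪ Fin r) {w : Fin r} (h : w ∉ Set.range e) :
    cyc e w = w :=
  Perm.viaEmbedding_apply_of_notMem _ e w h

theorem cyc_pow_apply [NeZero q] (e : ZMod q ↪ Fin r) (n : ℕ) (a : ZMod q) :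
    (cyc e ^ n) (e a) = e (a + n) := by
  induction n with
  | zero => simp
  | succ n ih => rw [pow_succ', Perm.mul_apply, ih, cyc_apply]; push_cast; rw [add_assoc]

theorem cyc_pow_apply_out [NeZero q] (e : ZMod q ↪ Fin r) (n : ℕ) {w : Fin r}
    (h : w ∉ Set.range e) : (cyc e ^ n) w = w := by
  induction n with
  | zero => simp
  | succ n ih => rw [pow_succ', Perm.mul_apply, ih, cyc_apply_out e h]

theorem cyc_pow_self [NeZero q] (e : ZMod q ↪ Fin r) : cyc e ^ q = 1 := by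
  ext w
  by_cases h : w ∈ Set.range e
  · obtain ⟨a, rfl⟩ := h
    rw [cyc_pow_apply, ZMod.natCast_self, add_zero]; rfl
  · rw [cyc_pow_apply_out e q h]; rfl

theorem cyc_ne_one [Fact q.Prime] (e : ZMod q ↪ Fin r) : cyc e ≠ 1 := by
  intro h
  have h1 := cyc_apply e 0
  rw [h, Perm.one_apply] at h1
  exact zero_ne_one (α := ZMod q) (by simpa using e.injective h1)

theorem cyc_conj [NeZero q] (e e' : ZMod q ↪ Fin r) (g : Perm (Fin r))
    (h : ∀ a, g (e a) = e' a) : g * cyc e * g⁻¹ = cyc e' := by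
  ext w
  obtain ⟨u, rfl⟩ := g.surjective w
  rw [Perm.mul_apply, Perm.mul_apply, Perm.inv_def, Equiv.symm_apply_apply]
  by_cases hu : u ∈ Set.range e
  · obtain ⟨a, rfl⟩ := hu
    rw [cyc_apply, h, h, cyc_apply]
  · rw [cyc_apply_out e hu, cyc_apply_out e']
    rintro ⟨a, ha⟩
    exact hu ⟨a, g.injective ((h a).trans ha)⟩

theorem cyc_mem [Fact q.Prime] (hq : q ≠ 2) (e : ZMod q ↪ Fin r) :
    cyc e ∈ alternatingGroup (Fin r) := by
  rw [Perm.mem_alternatingGroup]
  have h1 : Perm.sign (cyc e) ^ q = 1 := by rw [← map_pow, cyc_pow_self, map_one]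
  rcases Int.units_eq_one_or (Perm.sign (cyc e)) with h | h
  · exact h
  · rw [h, Odd.neg_one_pow ((Fact.out : q.Prime).odd_of_ne_two hq)] at h1
    exact absurd h1 (by decide)

/-- Multiplication by a unit on the range of `e`, repaired to an even permutation outside. -/
theorem exists_mul_elem [Fact q.Prime] (e : ZMod q ↪ Fin r) (g : (ZMod q)ˣ) (hr : q + 2 ≤ r) :
    ∃ σ ∈ alternatingGroup (Fin r), σ * cyc e * σ⁻¹ = cyc e ^ ((g : ZMod q).val) := by
  let e' : ZMod q ↪ Fin r :=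
    ⟨fun a => e ((g : ZMod q) * a), fun a b h => (Units.mul_right_inj g).mp (e.injective h)⟩
  obtain ⟨σ, hσ, hσe⟩ := exists_even_map e e' (by rw [ZMod.card]; exact hr)
  refine ⟨σ, hσ, ?_⟩
  rw [cyc_conj e e' σ hσe]
  ext w
  by_cases hw : w ∈ Set.range e
  · obtain ⟨a, rfl⟩ := hw
    rw [cyc_pow_apply, ZMod.natCast_zmod_val]
    have : e a = e' ((↑g⁻¹ : ZMod q) * a) := by
      show e a = e ((g : ZMod q) * ((↑g⁻¹ : ZMod q) * a))
      rw [← mul_assoc, Units.mul_inv, one_mul]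
    conv_lhs => rw [this, cyc_apply]
    show (e ((g : ZMod q) * ((↑g⁻¹ : ZMod q) * a + 1)) : ℕ) = _
    rw [mul_add, ← mul_assoc, Units.mul_inv, one_mul, mul_one]
  · rw [cyc_pow_apply_out e _ hw, cyc_apply_out e']
    rintro ⟨a, ha⟩
    exact hw ⟨_, ha⟩

/-- Decomposition of the centraliser of a cycle. -/
theorem mem_of_commute_cyc [Fact q.Prime] (hq : q ≠ 2) (Γ : Subgroup (Perm (Fin r)))
    (e : ZMod q ↪ Fin r) (hs : cyc e ∈ Γ)
    (h : ∀ a b c, a ∉ Set.range e → b ∉ Set.range e → c ∉ Set.range e → a ≠ b → b ≠ c → c ≠ a →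
      c3 a b c ∈ Γ)
    {σ : Perm (Fin r)} (hσ : σ ∈ alternatingGroup (Fin r)) (hc : Commute σ (cyc e)) : σ ∈ Γ := by
  classical
  have hmem : ∀ w, w ∈ Set.range e ↔ cyc e w ≠ w := by
    intro w
    refine ⟨?_, fun hw => by_contra fun h' => hw (cyc_apply_out e h')⟩
    rintro ⟨a, rfl⟩
    rw [cyc_apply]
    exact fun e' => one_ne_zero (α := ZMod q) (add_eq_left.mp (e.injective e'))
  obtain ⟨i, hi⟩ : σ (e 0) ∈ Set.range e := by
    rw [hmem]
    intro h'
    rw [← Perm.mul_apply, ← hc.eq, Perm.mul_apply] at h'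
    exact (hmem _).mp ⟨0, rfl⟩ (σ.injective h')
  have hσe : ∀ a, σ (e a) = e (a + i) := by
    intro a
    have h1 : (cyc e ^ a.val) (e 0) = e a := by rw [cyc_pow_apply, zero_add, ZMod.natCast_zmod_val]
    rw [← h1, ← Perm.mul_apply, (hc.pow_right _).eq, Perm.mul_apply, ← hi, cyc_pow_apply,
      ZMod.natCast_zmod_val, add_comm]
  have hd : (cyc e ^ (-i).val) * σ ∈ Γ := by
    refine mem_of_fix Γ (Finset.univ.map e) ?_
      (Subgroup.mul_mem _ (Subgroup.pow_mem _ (cyc_mem hq e) _) hσ) ?_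
    · intro a b c ha hb hc'
      simp only [Finset.mem_map, Finset.mem_univ, true_and] at ha hb hc'
      exact h a b c ha hb hc'
    · intro x hx
      obtain ⟨a, -, rfl⟩ := Finset.mem_map.mp hx
      rw [Perm.mul_apply, hσe, cyc_pow_apply, ZMod.natCast_zmod_val, add_neg_cancel_right]
  simpa using Subgroup.mul_mem _ (Subgroup.inv_mem _ (Subgroup.pow_mem _ hs (-i).val)) hd

/-- The embedding of `ZMod 3` given by three points. -/
def emb3 (a b c : Fin r) (hab : a ≠ b) (hbc : b ≠ c) (hca : c ≠ a) : ZMod 3 ↪ Fin r :=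
  ⟨fun i : Fin 3 => ![a, b, c] i, by
    intro i j h
    fin_cases i <;> fin_cases j <;> simp_all [eq_comm] <;> rfl⟩

theorem c3_eq_cyc (a b c : Fin r) (hab : a ≠ b) (hbc : b ≠ c) (hca : c ≠ a) :
    c3 a b c = cyc (emb3 a b c hab hbc hca) := by
  ext w
  by_cases hw : w ∈ Set.range (emb3 a b c hab hbc hca)
  · obtain ⟨i, rfl⟩ := hw
    rw [cyc_apply]
    fin_cases i
    · exact congrArg Fin.val (c3_apply_fst hab hca)
    · exact congrArg Fin.val (c3_apply_snd hbc hca)
    · exact congrArg Fin.val (c3_apply_thd a b c)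
  · rw [cyc_apply_out _ hw]
    refine congrArg Fin.val (c3_apply_other ?_ ?_ ?_) <;> intro h <;> apply hw
    · exact ⟨(0 : Fin 3), h.symm⟩
    · exact ⟨(1 : Fin 3), h.symm⟩
    · exact ⟨(2 : Fin 3), h.symm⟩

/-- Any five distinct points: a 3-cycle is a product of two 5-cycles on them. -/
theorem c3_eq_mul_cyc (e : ZMod 5 ↪ Fin r) :
    ∃ e₁ e₂ : ZMod 5 ↪ Fin r, Set.range e₁ ⊆ Set.range e ∧ Set.range e₂ ⊆ Set.range e ∧
      c3 (e 0) (e 1) (e 2) = cyc e₁ * cyc e₂ := by
  have h : ∃ f g : Perm (ZMod 5),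
      swap (0 : ZMod 5) 1 * swap 1 2 =
        (f * Equiv.addRight 1 * f⁻¹) * (g * Equiv.addRight 1 * g⁻¹) := by
    refine ⟨swap 1 2, swap 1 2 * swap 2 4, Equiv.ext fun x => ?_⟩
    fin_cases x <;> rfl
  obtain ⟨f, g, hfg⟩ := h
  refine ⟨f.toEmbedding.trans e, g.toEmbedding.trans e, ?_, ?_, ?_⟩
  · rintro _ ⟨a, rfl⟩; exact ⟨_, rfl⟩
  · rintro _ ⟨a, rfl⟩; exact ⟨_, rfl⟩
  have hcyc : ∀ f : Perm (ZMod 5), cyc (f.toEmbedding.trans e) =
      Perm.viaEmbeddingHom e (f * Equiv.addRight 1 * f⁻¹) := by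
    intro f
    rw [Perm.viaEmbeddingHom_apply]
    ext w
    by_cases hw : w ∈ Set.range e
    · obtain ⟨a, rfl⟩ := hw
      obtain ⟨b, rfl⟩ := f.surjective a
      have h1 : (f.toEmbedding.trans e) b = e (f b) := rfl
      rw [← h1, cyc_apply, h1, Perm.viaEmbedding_apply]
      simp [Perm.mul_apply]
    · rw [cyc_apply_out _ (fun ⟨b, hb⟩ => hw ⟨f b, hb⟩), Perm.viaEmbedding_apply_of_notMem _ _ _ hw]
  have hsw : ∀ a b : ZMod 5, swap (e a) (e b) = Perm.viaEmbeddingHom e (swap a b) := by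
    intro a b
    rw [Perm.viaEmbeddingHom_apply]
    ext w
    by_cases hw : w ∈ Set.range e
    · obtain ⟨c, rfl⟩ := hw
      rw [Perm.viaEmbedding_apply, e.injective.swap_apply]
    · rw [Perm.viaEmbedding_apply_of_notMem _ _ _ hw,
        swap_apply_of_ne_of_ne (fun h => hw ⟨a, h.symm⟩) (fun h => hw ⟨b, h.symm⟩)]
  rw [hcyc, hcyc, ← map_mul, ← hfg, c3, hsw, hsw, ← map_mul]

end blocks

end Cfsg.Agent.Components.AltSection
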