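import Cfsg.Agent.Components.AltSection.Filtration

/-!
3-cycles do not act as transvections or reflections.
-/

set_option autoImplicit false

namespace Cfsg.Agent.Components.AltSection

open Equiv

universe u v w

namespace Setup

variable {r : ℕ} {k : Type u} {V : Type v} {H : Type w} [Field k] [AddCommGroup V] [Module k V]
  [Group H] (S : Setup r k V H) [Finite H] [FiniteDimensional k V]

theorem two_le_U_of_ne (h3 : (3 : k) ≠ 0) {a b c : Fin r} (hab : a ≠ b) (hbc : b ≠ c) (hca : c ≠ a) :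
    2 ≤ Module.finrank k (S.U a b c) := by
  haveI : Fact (Nat.Prime 3) := ⟨Nat.prime_three⟩
  have hqk : ((3 : ℕ) : k) ≠ 0 := by exact_mod_cast h3
  by_contra hlt
  have hpos : Module.finrank k (S.U a b c) ≠ 0 := fun h =>
    S.U_ne_bot hab hbc hca (Submodule.finrank_eq_zero.mp h)
  obtain ⟨z, hz, hz0⟩ := Submodule.exists_mem_ne_zero_of_ne_bot (S.U_ne_bot hab hbc hca)
  have hspan : ∀ y ∈ S.U a b c, ∃ t : k, t • z = y := by
    intro y hy
    have hd1 : Module.finrank k (S.U a b c) = 1 := by omega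
    obtain ⟨t, ht⟩ := exists_smul_eq_of_finrank_eq_one hd1
      (x := (⟨z, hz⟩ : S.U a b c)) (by simpa using hz0) ⟨y, hy⟩
    exact ⟨t, congrArg Subtype.val ht⟩
  have hT : S.T a b c z ∈ S.U a b c := by
    simpa using add_mem (S.sub_mem_U a b c z) hz
  obtain ⟨ω, hω⟩ := hspan _ hT
  have hω3 : ω * (ω * ω) = 1 := by
    have := LinearMap.congr_fun (S.T_cube a b c) z
    rw [Module.End.mul_apply, Module.End.mul_apply, Module.End.one_apply, ← hω, map_smul, ← hω,
      map_smul, map_smul, ← hω, smul_smul, smul_smul] at this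
    have h' := smul_left_injective k hz0 (this.trans (one_smul k z).symm)
    linear_combination h'
  have hω1 : ω ≠ 1 := by
    intro h
    refine hz0 (eq_zero_of_fixed_range hqk (f := S.T a b c) ?_ (by rw [← hω, h, one_smul]) hz)
    rw [pow_three', mul_assoc]; exact S.T_cube a b c
  obtain ⟨u, v, hu, hv, huv⟩ := exists_two_out ({a, b, c} : Finset (Fin r)) (by
    have := S.nine; have := Finset.card_le_three (a := a) (b := b) (c := c); omega)
  simp only [Finset.mem_insert, Finset.mem_singleton, not_or] at hu hv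
  obtain ⟨g, hg⟩ := S.exists_pre (σ := Equiv.swap a b * Equiv.swap u v)
    (Perm.mem_alternatingGroup.mpr (by
      rw [map_mul, Perm.sign_swap hab, Perm.sign_swap huv]; rfl))
  have g0 : S.π g a = b := by
    rw [hg, Perm.mul_apply, swap_apply_of_ne_of_ne (Ne.symm hu.1) (Ne.symm hv.1), swap_apply_left]
  have g1 : S.π g b = a := by
    rw [hg, Perm.mul_apply, swap_apply_of_ne_of_ne (Ne.symm hu.2.1) (Ne.symm hv.2.1), swap_apply_right]
  have g2 : S.π g c = c := by
    rw [hg, Perm.mul_apply, swap_apply_of_ne_of_ne (Ne.symm hu.2.2) (Ne.symm hv.2.2),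
      swap_apply_of_ne_of_ne hca hbc.symm]
  have hgz := S.map_U g hz
  rw [g0, g1, g2, S.U_rot b a c, S.U_rot a c b, S.U_rev hab hbc hca] at hgz
  obtain ⟨t, ht⟩ := hspan _ hgz
  have hc := LinearMap.congr_fun (S.T_conj g a b c) z
  rw [Module.End.mul_apply, Module.End.mul_apply, g0, g1, g2, S.T_rot b a c, S.T_rot a c b,
    S.T_inv a b c hab hbc hca, Module.End.mul_apply, ← hω, map_smul, ← ht, map_smul, ← hω, map_smul,
    map_smul, ← hω, smul_smul, smul_smul, smul_smul] at hc
  have ht0 : t ≠ 0 := by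
    intro h
    rw [h, zero_smul] at ht
    exact hz0 (by rw [← S.ρ_inv_left g z, ← ht, map_zero])
  have h' := smul_left_injective k hz0 hc
  have hω0 : ω ≠ 0 := fun h => by simp [h] at hω3
  have : ω = 1 := by
    have h2 : ω * t * (ω - 1) = 0 := by linear_combination -h'
    rcases mul_eq_zero.mp h2 with h2 | h2
    · exact absurd h2 (mul_ne_zero hω0 ht0)
    · exact sub_eq_zero.mp h2
  exact hω1 this

theorem c3_mul_c3 (e : ZMod 5 ↪ Fin r) :
    cyc e = c3 (e 0) (e 1) (e 2) * c3 (e 2) (e 3) (e 4) := by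
  have ne : ∀ i j : ZMod 5, i ≠ j → e i ≠ e j := fun i j h => e.injective.ne h
  ext w
  by_cases hw : w ∈ Set.range e
  · obtain ⟨(i : Fin 5), rfl⟩ := hw
    rw [Perm.mul_apply]
    refine Eq.trans (congrArg Fin.val (cyc_apply e i)) ?_
    fin_cases i
    · exact congrArg Fin.val (show e 1 = c3 (e 0) (e 1) (e 2) (c3 (e 2) (e 3) (e 4) (e 0)) by
        rw [c3_apply_other (ne 0 2 (by decide)) (ne 0 3 (by decide)) (ne 0 4 (by decide)),
          c3_apply_fst (ne 0 1 (by decide)) (ne 2 0 (by decide))])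
    · exact congrArg Fin.val (show e 2 = c3 (e 0) (e 1) (e 2) (c3 (e 2) (e 3) (e 4) (e 1)) by
        rw [c3_apply_other (ne 1 2 (by decide)) (ne 1 3 (by decide)) (ne 1 4 (by decide)),
          c3_apply_snd (ne 1 2 (by decide)) (ne 2 0 (by decide))])
    · exact congrArg Fin.val (show e 3 = c3 (e 0) (e 1) (e 2) (c3 (e 2) (e 3) (e 4) (e 2)) by
        rw [c3_apply_fst (ne 2 3 (by decide)) (ne 4 2 (by decide)),
          c3_apply_other (ne 3 0 (by decide)) (ne 3 1 (by decide)) (ne 3 2 (by decide))])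
    · exact congrArg Fin.val (show e 4 = c3 (e 0) (e 1) (e 2) (c3 (e 2) (e 3) (e 4) (e 3)) by
        rw [c3_apply_snd (ne 3 4 (by decide)) (ne 4 2 (by decide)),
          c3_apply_other (ne 4 0 (by decide)) (ne 4 1 (by decide)) (ne 4 2 (by decide))])
    · exact congrArg Fin.val (show e 0 = c3 (e 0) (e 1) (e 2) (c3 (e 2) (e 3) (e 4) (e 4)) by
        rw [c3_apply_thd, c3_apply_thd])
  · rw [cyc_apply_out _ hw, Perm.mul_apply]
    have h' : ∀ i, w ≠ e i := fun i h => hw ⟨i, h.symm⟩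
    rw [c3_apply_other (h' _) (h' _) (h' _), c3_apply_other (h' _) (h' _) (h' _)]

theorem two_le_U_of_five [IsAlgClosed k] (h5 : (5 : k) ≠ 0) (hn : 5 ≤ Module.finrank k V)
    {a b c : Fin r} (hab : a ≠ b) (hbc : b ≠ c) (hca : c ≠ a) :
    2 ≤ Module.finrank k (S.U a b c) := by
  haveI : Fact (Nat.Prime 5) := ⟨Nat.prime_five⟩
  have hqk : ((5 : ℕ) : k) ≠ 0 := by exact_mod_cast h5
  have hr := S.nine
  by_contra hlt
  obtain ⟨e, e0, e1, e2, -⟩ := exists_emb5 a b c hab hbc hca ∅ (by simp; omega) (by simp) (by simp)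
    (by simp)
  subst e0 e1 e2
  have h23 : e 2 ≠ e 3 := e.injective.ne (show (2 : Fin 5) ≠ 3 by decide)
  have h34 : e 3 ≠ e 4 := e.injective.ne (show (3 : Fin 5) ≠ 4 by decide)
  have h42 : e 4 ≠ e 2 := e.injective.ne (show (4 : Fin 5) ≠ 2 by decide)
  obtain ⟨t₁, ht₁, hT₁⟩ := S.exists_T _ _ _ hab hbc hca
  obtain ⟨t₂, ht₂, hT₂⟩ := S.exists_T _ _ _ h23 h34 h42
  obtain ⟨cY, hcY⟩ := S.scalar_of_π_eq (t := S.lift (q := 5) (Or.inr rfl) e) (y₁ := t₁) (y₂ := t₂)
    (by rw [π_lift, ht₁, ht₂]; exact c3_mul_c3 e)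
  let Y := S.op (q := 5) (Or.inr rfl) e
  have hY : Y = cY • (S.T (e 0) (e 1) (e 2) * S.T (e 2) (e 3) (e 4)) := by
    rw [← hT₁, ← hT₂]; exact hcY
  let K := LinearMap.ker (S.T (e 0) (e 1) (e 2) - 1) ⊓ LinearMap.ker (S.T (e 2) (e 3) (e 4) - 1)
  have hd2 := S.finrank_U_eq hab hbc hca h23 h34 h42
  have hK : Module.finrank k V ≤ Module.finrank k K + 2 := by
    have f1 := LinearMap.finrank_range_add_finrank_ker (S.T (e 0) (e 1) (e 2) - 1)
    have f2 := LinearMap.finrank_range_add_finrank_ker (S.T (e 2) (e 3) (e 4) - 1)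
    have f3 := Submodule.finrank_sup_add_finrank_inf_eq
      (LinearMap.ker (S.T (e 0) (e 1) (e 2) - 1)) (LinearMap.ker (S.T (e 2) (e 3) (e 4) - 1))
    have f4 := Submodule.finrank_le
      (LinearMap.ker (S.T (e 0) (e 1) (e 2) - 1) ⊔ LinearMap.ker (S.T (e 2) (e 3) (e 4) - 1))
    rw [U, U] at hd2
    rw [U] at hlt
    simp only [K]
    omega
  have hYK : ∀ x ∈ K, Y x = cY • x := by
    intro x hx
    obtain ⟨h1, h2⟩ := hx
    simp only [SetLike.mem_coe, LinearMap.mem_ker, LinearMap.sub_apply, Module.End.one_apply,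
      sub_eq_zero] at h1 h2
    rw [hY, LinearMap.smul_apply, Module.End.mul_apply, h2, h1]
  obtain ⟨x0, hx0K, hx0⟩ : ∃ x ∈ K, x ≠ 0 := by
    refine Submodule.exists_mem_ne_zero_of_ne_bot fun h => ?_
    rw [h, finrank_bot] at hK; omega
  have hc5 : cY ^ 5 = 1 := by
    have := pow_apply_eigen _ (hYK x0 hx0K) 5
    rw [S.op_pow_self, Module.End.one_apply] at this
    exact smul_left_injective k hx0 (by simpa using this.symm)
  -- conjugation moves eigenvectors
  have move : ∀ u : (ZMod 5)ˣ, ∃ g : H, ∀ (μ : k) (y : V), μ ^ 5 = 1 → Y y = μ • y →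
      Y (S.ρ g y) = μ ^ ((u⁻¹ : (ZMod 5)ˣ) : ZMod 5).val • S.ρ g y := by
    intro u
    obtain ⟨s, hs, hse⟩ := exists_mul_elem e u (by omega)
    obtain ⟨g, rfl⟩ := S.exists_pre hs
    refine ⟨g, fun μ y _ hy => ?_⟩
    have hnd : ¬ 5 ∣ (u : ZMod 5).val := fun hd' =>
      u.ne_zero ((ZMod.val_eq_zero _).mp (Nat.eq_zero_of_dvd_of_lt hd' (ZMod.val_lt _)))
    have hop : S.ρ g * Y = Y ^ (u : ZMod 5).val * S.ρ g := by
      simp only [Y, op]
      rw [← map_pow, ← map_mul, ← map_mul, ← S.lift_conj_pow (Or.inr rfl) _ _ g _ hnd hse]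
      congr 1; group
    have h1 : (Y ^ (u : ZMod 5).val) (S.ρ g y) = μ • S.ρ g y := by
      rw [← Module.End.mul_apply, ← hop, Module.End.mul_apply, hy, map_smul]
    have h2 := pow_apply_eigen _ h1 ((u⁻¹ : (ZMod 5)ˣ) : ZMod 5).val
    rwa [← pow_mul, pow_eq_pow_mod _ (S.op_pow_self _ e), ← ZMod.val_mul, Units.mul_inv,
      ZMod.val_one, pow_one] at h2
  by_cases hc1 : cY = 1
  · -- the range of `Y - 1` would contain three eigenvectors
    have hR : LinearMap.range (Y - 1) ≤ S.U (e 0) (e 1) (e 2) ⊔ S.U (e 2) (e 3) (e 4) := by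
      rintro _ ⟨x, rfl⟩
      rw [LinearMap.sub_apply, Module.End.one_apply, hY, hc1, one_smul, Module.End.mul_apply,
        ← sub_add_sub_cancel _ (S.T (e 2) (e 3) (e 4) x) x]
      exact add_mem (Submodule.mem_sup_left (S.sub_mem_U _ _ _ _))
        (Submodule.mem_sup_right (S.sub_mem_U _ _ _ _))
    have hRd : Module.finrank k (LinearMap.range (Y - 1)) ≤ 2 := by
      refine (Submodule.finrank_mono hR).trans ?_
      have := Submodule.finrank_sup_add_finrank_inf_eq (S.U (e 0) (e 1) (e 2))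
        (S.U (e 2) (e 3) (e 4))
      omega
    have hRne : LinearMap.range (Y - 1) ≠ ⊥ := by
      rw [ne_eq, LinearMap.range_eq_bot, sub_eq_zero]; exact S.op_ne_one _ e
    obtain ⟨z, hzR, hz, hzY⟩ := exists_common_eigen (fun _ : Unit => Y) (fun _ _ => Commute.refl _)
      Finset.univ _ hRne (by
        rintro - _ ⟨y, rfl⟩
        exact ⟨Y y, by simp [map_sub]⟩)
    obtain ⟨μ, hμ⟩ := hzY () (Finset.mem_univ _)
    have hμ5 : μ ^ 5 = 1 := by
      have := pow_apply_eigen _ hμ 5
      rw [S.op_pow_self, Module.End.one_apply] at this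
      exact smul_left_injective k hz (by simpa using this.symm)
    have hμ1 : μ ≠ 1 := fun h => hz (eq_zero_of_fixed_range hqk (S.op_pow_self _ _)
      (by rw [hμ, h, one_smul]) hzR)
    have hprim : IsPrimitiveRoot μ 5 := by
      rw [IsPrimitiveRoot.iff_orderOf]
      exact orderOf_eq_prime hμ5 hμ1
    let us : Fin 3 → (ZMod 5)ˣ := ![1, gen5val⁻¹, gen5val]
    choose g hg using fun i => move (us i)
    let zz : Fin 3 → V := fun i => S.ρ (g i) z
    let μs : Fin 3 → k := fun i => μ ^ (((us i)⁻¹ : (ZMod 5)ˣ) : ZMod 5).val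
    have hzz : ∀ i, Y.HasEigenvector (μs i) (zz i) := fun i =>
      ⟨Module.End.mem_eigenspace_iff.mpr (hg i μ z hμ5 hμ),
        fun h => hz (S.ρ_injective (g i) (h.trans (map_zero _).symm))⟩
    have hinj : Function.Injective μs := by
      intro i j hij
      have h1 := hprim.pow_inj (ZMod.val_lt _) (ZMod.val_lt _) hij
      have h2 : (us i)⁻¹ = (us j)⁻¹ := Units.ext (ZMod.val_injective 5 h1)
      have : ∀ a b : Fin 3, (![1, gen5val⁻¹, gen5val] a)⁻¹ = (![1, gen5val⁻¹, gen5val] b)⁻¹ → a = b := by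
        decide
      exact this i j h2
    have hli := Module.End.eigenvectors_linearIndependent' Y μs hinj zz hzz
    have hmem : ∀ i, zz i ∈ LinearMap.range (Y - 1) := by
      intro i
      have hne : μs i - 1 ≠ 0 := by
        refine sub_ne_zero.mpr fun h => ?_
        have h0 := hprim.pow_inj (ZMod.val_lt _) (by norm_num : 0 < 5) (by rw [pow_zero]; exact h)
        exact ((us i)⁻¹).ne_zero ((ZMod.val_eq_zero _).mp h0)
      refine ⟨(μs i - 1)⁻¹ • zz i, ?_⟩
      rw [LinearMap.sub_apply, Module.End.one_apply, map_smul, (hzz i).apply_eq_smul, smul_smul,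
        ← sub_smul, show (μs i - 1)⁻¹ * μs i - (μs i - 1)⁻¹ = 1 by field_simp, one_smul]
    have h3 : 3 ≤ Module.finrank k (LinearMap.range (Y - 1)) := by
      have hli' : LinearIndependent k (fun i => (⟨zz i, hmem i⟩ : LinearMap.range (Y - 1))) :=
        LinearIndependent.of_comp (LinearMap.range (Y - 1)).subtype hli
      simpa using hli'.fintype_card_le_finrank
    omega
  · obtain ⟨g, hg⟩ := move gen5val⁻¹
    rw [inv_inv] at hg
    have hdis : Disjoint (Y.eigenspace cY) (Y.eigenspace (cY ^ 2)) := by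
      refine (Y.eigenspaces_iSupIndep).pairwiseDisjoint fun h => hc1 ?_
      have hc0 : cY ≠ 0 := fun h0 => by simp [h0] at hc5
      exact mul_left_cancel₀ hc0 (by rw [← pow_two, ← h, mul_one])
    have hKE : K ≤ Y.eigenspace cY := fun x hx => Module.End.mem_eigenspace_iff.mpr (hYK x hx)
    have hmap : ∀ x ∈ Y.eigenspace cY, S.ρ g x ∈ Y.eigenspace (cY ^ 2) := fun x hx => by
      have := hg cY x hc5 (Module.End.mem_eigenspace_iff.mp hx)
      exact Module.End.mem_eigenspace_iff.mpr this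
    have h2 : Module.finrank k (Y.eigenspace cY) ≤ Module.finrank k (Y.eigenspace (cY ^ 2)) :=
      LinearMap.finrank_le_finrank_of_injective (f := (S.ρ g).restrict hmap)
        fun u v h => Subtype.ext (S.ρ_injective g (congrArg Subtype.val h))
    have h3 := Submodule.finrank_mono hKE
    have h4 := Submodule.finrank_sup_add_finrank_inf_eq (Y.eigenspace cY) (Y.eigenspace (cY ^ 2))
    rw [hdis.eq_bot, finrank_bot] at h4
    have h5' := Submodule.finrank_le (Y.eigenspace cY ⊔ Y.eigenspace (cY ^ 2))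
    omega

end Setup

end Cfsg.Agent.Components.AltSection
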