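import Cfsg.Agent.Components.AltSection.Kernel

/-!
Alternating sections of linear groups: reduction to a minimal irreducible central extension.
-/

set_option autoImplicit false

namespace Cfsg.Agent.Components.AltSection

open Equiv

universe u v w

theorem normal_cases_aux {r : ℕ} (hr : 5 ≤ r) {H : Type w} [Group H] (π : H →* Perm (Fin r))
    (hπ : π.range = alternatingGroup (Fin r))
    (hmin : ∀ M : Subgroup H, alternatingGroup (Fin r) ≤ M.map π → M = ⊤)
    (N : Subgroup H) [N.Normal] : N ≤ π.ker ∨ N = ⊤ := by
  haveI : IsSimpleGroup (alternatingGroup (Fin r)) :=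
    alternatingGroup.isSimpleGroup (by rw [Nat.card_eq_fintype_card, Fintype.card_fin]; omega)
  let π' : H →* alternatingGroup (Fin r) := π.codRestrict _ fun h => by rw [← hπ]; exact ⟨h, rfl⟩
  have hsurj : Function.Surjective π' := fun σ => by
    obtain ⟨h, hh⟩ : σ.1 ∈ π.range := hπ.symm ▸ σ.2
    exact ⟨h, Subtype.ext hh⟩
  haveI : (N.map π').Normal := Subgroup.Normal.map inferInstance _ hsurj
  rcases Subgroup.Normal.eq_bot_or_eq_top (H := N.map π') inferInstance with h | h
  · left
    intro x hx
    have : π' x ∈ N.map π' := ⟨x, hx, rfl⟩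
    rw [h, Subgroup.mem_bot] at this
    exact congrArg Subtype.val this
  · right
    refine hmin N fun σ hσ => ?_
    obtain ⟨x, hx, hxσ⟩ : (⟨σ, hσ⟩ : alternatingGroup (Fin r)) ∈ N.map π' := by rw [h]; trivial
    exact ⟨x, hx, congrArg Subtype.val hxσ⟩

/-- The degree bound. -/
noncomputable def target (r : ℕ) (k : Type u) [Field k] : ℕ :=
  r - 1 - (@ite ℕ ((r : k) = 0) (Classical.propDecidable _) 1 0)

theorem target_le (r : ℕ) (k : Type u) [Field k] : target r k ≤ r - 1 := Nat.sub_le _ _

theorem le_target (r : ℕ) (k : Type u) [Field k] : r ≤ target r k + 2 := by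
  unfold target; split <;> omega

theorem bound_aux {r : ℕ} (hr : 9 ≤ r) (k : Type u) [Field k] [IsAlgClosed k] :
    ∀ n, SmallBound.{w} r n → ∀ (V : Type v) [AddCommGroup V] [Module k V] [FiniteDimensional k V]
      (H : Type w) [Group H] [Finite H] (ρ : Representation k H V) (π : H →* Perm (Fin r)),
      Module.finrank k V = n → π.range = alternatingGroup (Fin r) → (∀ h, ρ h = 1 → π h = 1) →
      target r k ≤ n := by
  intro n
  induction n using Nat.strong_induction_on with
  | _ n ih =>
  intro hIH V _ _ _ H _ _ ρ π hdim hπ hker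
  by_contra hlt
  have hn : Module.finrank k V + 2 ≤ r := by have := target_le r k; omega
  -- a minimal subgroup covering the alternating group
  obtain ⟨M, hMπ, hMmin⟩ := exists_minimal_of_wellFoundedLT
    (fun M : Subgroup H => alternatingGroup (Fin r) ≤ M.map π)
    ⟨⊤, by rw [← MonoidHom.range_eq_map, hπ]⟩
  let ρM : M →* Module.End k V := ρ.comp M.subtype
  let πM : M →* Perm (Fin r) := π.comp M.subtype
  have hkerM : ρM.ker ≤ πM.ker := fun h hh => hker h hh
  let Hq := M ⧸ ρM.ker
  let ρq : Representation k Hq V := QuotientGroup.lift ρM.ker ρM le_rfl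
  let πq : Hq →* Perm (Fin r) := QuotientGroup.lift ρM.ker πM hkerM
  have hπq : πq.range = alternatingGroup (Fin r) := by
    refine le_antisymm ?_ fun σ hσ => ?_
    · rintro _ ⟨x, rfl⟩
      induction x using QuotientGroup.induction_on with
      | H x => rw [← hπ]; exact ⟨x, rfl⟩
    · obtain ⟨x, hx, rfl⟩ := hMπ hσ
      exact ⟨((⟨x, hx⟩ : M) : Hq), rfl⟩
  have hinj : Function.Injective ρq := by
    intro a b
    induction a using QuotientGroup.induction_on with
    | H a =>
    induction b using QuotientGroup.induction_on with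
    | H b =>
    intro h
    have h' : ρM a = ρM b := h
    rw [QuotientGroup.eq, MonoidHom.mem_ker, map_mul, ← h', ← map_mul, inv_mul_cancel, map_one]
  have hmin : ∀ L : Subgroup Hq, alternatingGroup (Fin r) ≤ L.map πq → L = ⊤ := by
    intro L hL
    let L' : Subgroup H := (L.comap (QuotientGroup.mk' ρM.ker)).map M.subtype
    have hL' : alternatingGroup (Fin r) ≤ L'.map π := by
      intro σ hσ
      obtain ⟨x, hx, rfl⟩ := hL hσ
      induction x using QuotientGroup.induction_on with
      | H x => exact ⟨x, ⟨x, hx, rfl⟩, rfl⟩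
    have hle : L' ≤ M := Subgroup.map_subtype_le _
    have heq : M ≤ L' := hMmin hL' hle
    rw [eq_top_iff]
    intro x _
    induction x using QuotientGroup.induction_on with
    | H x =>
      obtain ⟨y, hy, hyx⟩ := heq x.2
      rw [show x = y from Subtype.ext hyx.symm]
      exact hy
  obtain ⟨a, b, ha, hb, hab⟩ := c3_noncomm (r := r) (by omega)
  rw [← hπq] at ha hb
  obtain ⟨ga, rfl⟩ := ha
  obtain ⟨gb, rfl⟩ := hb
  haveI hnt : Nontrivial V := by
    by_contra hV
    haveI : Subsingleton V := not_nontrivial_iff_subsingleton.mp hV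
    have h1 : ∀ x : Hq, x = 1 := fun x => hinj (LinearMap.ext fun y => Subsingleton.elim _ _)
    exact hab (by rw [h1 ga, h1 gb])
  have hirred : ∀ W : Submodule k V, (∀ h, ∀ x ∈ W, ρq h x ∈ W) → W = ⊥ ∨ W = ⊤ := by
    intro W hW
    by_contra hW2
    rw [not_or] at hW2
    have d1 : Module.finrank k W < n := hdim ▸ Submodule.finrank_lt hW2.2
    have d2 : Module.finrank k (V ⧸ W) < n := by
      have := Submodule.finrank_quotient_add_finrank W
      have h0 : Module.finrank k W ≠ 0 := fun h => hW2.1 (Submodule.finrank_eq_zero.mp h)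
      omega
    let ρ1 : Representation k Hq W :=
      { toFun := fun h => (ρq h).restrict (hW h)
        map_one' := LinearMap.ext fun x => Subtype.ext (by
          simp [LinearMap.restrict_coe_apply])
        map_mul' := fun g h => LinearMap.ext fun x => Subtype.ext (by
          simp [LinearMap.restrict_coe_apply]) }
    let ρ2 : Representation k Hq (V ⧸ W) :=
      { toFun := fun h => W.mapQ W (ρq h) (fun x hx => hW h x hx)
        map_one' := by
          ext x; simp
        map_mul' := fun g h => by
          ext x; simp }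
    have hsm : ∀ m < n, SmallBound.{w} r m := fun m hm l hl => hIH l (hl.trans hm)
    have e1 : ρ1.ker = ⊤ := by
      refine (normal_cases_aux (by omega) πq hπq hmin ρ1.ker).resolve_left fun h => ?_
      have := ih _ d1 (hsm _ d1) W Hq ρ1 πq rfl hπq fun x hx => h (MonoidHom.mem_ker.mpr hx)
      omega
    have e2 : ρ2.ker = ⊤ := by
      refine (normal_cases_aux (by omega) πq hπq hmin ρ2.ker).resolve_left fun h => ?_
      have := ih _ d2 (hsm _ d2) (V ⧸ W) Hq ρ2 πq rfl hπq fun x hx => h (MonoidHom.mem_ker.mpr hx)
      omega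
    have f1 : ∀ g, ∀ x ∈ W, ρq g x = x := by
      intro g x hx
      have : g ∈ ρ1.ker := by rw [e1]; trivial
      exact congrArg Subtype.val (LinearMap.congr_fun (MonoidHom.mem_ker.mp this) ⟨x, hx⟩)
    have f2 : ∀ g x, ρq g x - x ∈ W := by
      intro g x
      have : g ∈ ρ2.ker := by rw [e2]; trivial
      exact (Submodule.Quotient.eq W).mp
        (LinearMap.congr_fun (MonoidHom.mem_ker.mp this) (Submodule.Quotient.mk x))
    have hcomm : ρq (ga * gb) = ρq (gb * ga) := LinearMap.ext fun x => by
      have e : ∀ g h, ρq (g * h) x = (ρq g x - x) + (ρq h x - x) + x := by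
        intro g h
        rw [map_mul, Module.End.mul_apply]
        have h1 := f1 g _ (f2 h x)
        rw [map_sub] at h1
        linear_combination (norm := module) h1
      rw [e, e]; abel
    exact hab (by rw [← map_mul, hinj hcomm, map_mul])
  let P : Pre r k V Hq := ⟨ρq, πq, hπq, hinj, hirred, hnt, hmin, hr⟩
  haveI : Finite Hq := inferInstanceAs (Finite (M ⧸ ρM.ker))
  have hsc : πq.ker ≤ P.scalars := P.ker_le_scalars hn (hdim.symm ▸ hIH)
  let S : Setup r k V Hq := ⟨ρq, πq, hπq, hinj, fun h hh => hsc hh, hirred, hnt, hmin, hr⟩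
  have := S.le_finrank
  unfold target at hlt
  rw [hdim] at this
  convert hlt this

theorem smallBound {r : ℕ} (hr : 9 ≤ r) : ∀ n, SmallBound.{w} r n := by
  intro n
  induction n using Nat.strong_induction_on with
  | _ n ih =>
  intro l hl k0 _ _ H0 _ _ ρ0 π0 hπ0 hker
  have := bound_aux.{0, 0, w} hr k0 l (ih l hl) (Fin l → k0) H0 ρ0 π0
    (Module.finrank_fin_fun k0) hπ0 hker
  have := le_target r k0
  omega

/-- A group with an alternating section of degree `r ≥ 9` needs degree at least `r - 2`,
and `r - 1` unless the characteristic divides `r`. -/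
theorem target_le_finrank {r : ℕ} (hr : 9 ≤ r) (k : Type u) [Field k] [IsAlgClosed k] (V : Type v)
    [AddCommGroup V] [Module k V] [FiniteDimensional k V] (H : Type w) [Group H] [Finite H]
    (ρ : Representation k H V) (π : H →* Perm (Fin r))
    (hπ : π.range = alternatingGroup (Fin r)) (hker : ∀ h, ρ h = 1 → π h = 1) :
    target r k ≤ Module.finrank k V :=
  bound_aux hr k _ (smallBound hr _) V H ρ π rfl hπ hker

end Cfsg.Agent.Components.AltSection
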