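import Cfsg.Agent.Components.AltSection.Lift
import Cfsg.Agent.Components.AltSection.Comb

/-!
Joint weights of commuting cycle lifts.
-/

set_option autoImplicit false

namespace Cfsg.Agent.Components.AltSection

open Equiv

universe u v w

section lin

variable {k : Type u} {V : Type v} [Field k] [AddCommGroup V] [Module k V] [FiniteDimensional k V]
  [IsAlgClosed k]

/-- Commuting operators on a nonzero invariant subspace have a common eigenvector there. -/
theorem exists_common_eigen {ι : Type*} (B : ι → Module.End k V) (hc : ∀ i j, Commute (B i) (B j))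
    (s : Finset ι) : ∀ N : Submodule k V, N ≠ ⊥ → (∀ i, ∀ x ∈ N, B i x ∈ N) →
      ∃ z ∈ N, z ≠ 0 ∧ ∀ i ∈ s, ∃ μ : k, B i z = μ • z := by
  classical
  induction s using Finset.induction with
  | empty =>
    intro N hN _
    obtain ⟨z, hz, hz0⟩ := Submodule.exists_mem_ne_zero_of_ne_bot hN
    exact ⟨z, hz, hz0, fun i hi => absurd hi (Finset.notMem_empty i)⟩
  | @insert a s _ ih =>
    intro N hN hinv
    haveI : Nontrivial N := Submodule.nontrivial_iff_ne_bot.mpr hN
    obtain ⟨μ, hμ⟩ := Module.End.exists_eigenvalue ((B a).restrict (hinv a))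
    obtain ⟨y, hy⟩ := hμ.exists_hasEigenvector
    have hy1 : B a y = μ • (y : V) := by
      have := congrArg Subtype.val hy.apply_eq_smul
      simpa using this
    have hy0 : (y : V) ≠ 0 := fun h => hy.2 (Subtype.ext h)
    let N' := N ⊓ (B a).eigenspace μ
    have hyN : (y : V) ∈ N' := ⟨y.2, Module.End.mem_eigenspace_iff.mpr hy1⟩
    obtain ⟨z, hz, hz0, hzs⟩ := ih N' (fun h => hy0 ((Submodule.eq_bot_iff _).mp h _ hyN)) (by
      rintro i x ⟨hx1, hx2⟩
      refine ⟨hinv i x hx1, Module.End.mem_eigenspace_iff.mpr ?_⟩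
      have hx3 := Module.End.mem_eigenspace_iff.mp hx2
      rw [← Module.End.mul_apply, (hc a i).eq, Module.End.mul_apply, hx3, map_smul])
    refine ⟨z, hz.1, hz0, fun i hi => ?_⟩
    rcases Finset.mem_insert.mp hi with rfl | hi
    · exact ⟨μ, Module.End.mem_eigenspace_iff.mp hz.2⟩
    · exact hzs i hi

omit [FiniteDimensional k V] [IsAlgClosed k] in
theorem pow_apply_eigen (f : Module.End k V) {μ : k} {x : V} (h : f x = μ • x) (n : ℕ) :
    (f ^ n) x = μ ^ n • x := by
  induction n with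
  | zero => simp
  | succ n ih => rw [pow_succ', Module.End.mul_apply, ih, map_smul, h, smul_smul, ← pow_succ]

omit [FiniteDimensional k V] [IsAlgClosed k] in
theorem eq_zero_of_fixed_range {f : Module.End k V} {q : ℕ} (hq : (q : k) ≠ 0) (hf : f ^ q = 1)
    {z : V} (h1 : f z = z) (h2 : z ∈ LinearMap.range (f - 1)) : z = 0 := by
  obtain ⟨u, hu⟩ := h2
  rw [LinearMap.sub_apply, Module.End.one_apply, sub_eq_iff_eq_add] at hu
  have hn : ∀ n : ℕ, (f ^ n) u = u + (n : k) • z := by
    intro n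
    induction n with
    | zero => simp
    | succ n ih =>
      rw [pow_succ', Module.End.mul_apply, ih, map_add, map_smul, h1, hu]
      push_cast
      rw [add_smul, one_smul]; abel
  have := hn q
  rw [hf, Module.End.one_apply, left_eq_add] at this
  exact (smul_eq_zero.mp this).resolve_left hq

end lin

section mulp

/-- Multiplication by a unit. -/
def mulPerm {q : ℕ} (c : (ZMod q)ˣ) : Perm (ZMod q) := Units.mulLeft c

theorem mulPerm_apply {q : ℕ} (c : (ZMod q)ˣ) (a : ZMod q) :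
    mulPerm c a = (c : ZMod q) * a := rfl

end mulp

section perm

variable {r m q : ℕ} [Fact q.Prime]

/-- Row of an embedded grid. -/
def row (E : Fin m × ZMod q ↪ Fin r) (i : Fin m) : ZMod q ↪ Fin r :=
  ⟨fun a => E (i, a), fun a b h => (Prod.mk.injEq .. ▸ E.injective h).2⟩

theorem row_disjoint (E : Fin m × ZMod q ↪ Fin r) {i j : Fin m} (h : i ≠ j) :
    Disjoint (Set.range (row E i)) (Set.range (row E j)) := by
  rw [Set.disjoint_left]
  rintro _ ⟨a, rfl⟩ ⟨b, hb⟩
  exact h (congrArg Prod.fst (E.injective hb)).symm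

theorem cyc_mul (e : ZMod q ↪ Fin r) (c : (ZMod q)ˣ) :
    cyc ((mulPerm c).toEmbedding.trans e) = cyc e ^ (c : ZMod q).val := by
  ext w
  by_cases hw : w ∈ Set.range e
  · obtain ⟨a, rfl⟩ := hw
    rw [cyc_pow_apply, ZMod.natCast_zmod_val]
    obtain ⟨b, rfl⟩ := (mulPerm c).surjective a
    have h1 : ∀ x, (mulPerm c).toEmbedding.trans e x = e (mulPerm c x) := fun x => rfl
    rw [← h1, cyc_apply, h1, mulPerm_apply, mulPerm_apply, mul_add, mul_one]
  · rw [cyc_pow_apply_out e _ hw, cyc_apply_out]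
    rintro ⟨a, ha⟩
    exact hw ⟨_, ha⟩

theorem sign_viaEmbedding {α : Type*} [Fintype α] [DecidableEq α] (τ : Perm α) (E : α ↪ Fin r) :
    Perm.sign (τ.viaEmbedding E) = Perm.sign τ := by
  rw [Perm.viaEmbedding]
  convert Perm.sign_extendDomain τ _

end perm

section gens

theorem gen3 : (∀ u : (ZMod 3)ˣ, ∃ e : ℕ, u = (-1) ^ e) ∧
    Perm.sign (mulPerm (-1 : (ZMod 3)ˣ)⁻¹) = -1 := by
  refine ⟨?_, ?_⟩
  · intro u
    have : ∀ u : (ZMod 3)ˣ, u = 1 ∨ u = -1 := by decide
    rcases this u with rfl | rfl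
    · exact ⟨0, rfl⟩
    · exact ⟨1, (pow_one _).symm⟩
  · have : mulPerm (-1 : (ZMod 3)ˣ)⁻¹ = Equiv.swap (1 : ZMod 3) 2 :=
      Equiv.ext (by decide)
    rw [this, Perm.sign_swap (by decide)]

/-- The generator 2 of the units modulo 5. -/
def gen5val : (ZMod 5)ˣ := ⟨2, 3, rfl, rfl⟩

theorem gen5 : (∀ u : (ZMod 5)ˣ, ∃ e : ℕ, u = gen5val ^ e) ∧
    Perm.sign (mulPerm gen5val⁻¹) = -1 ∧
      (gen5val ^ 4 = 1 ∧ Perm.sign (mulPerm (gen5val * gen5val)⁻¹) = 1) := by
  refine ⟨?_, ?_, rfl, ?_⟩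
  · intro u
    have : ∀ u : (ZMod 5)ˣ, u = 1 ∨ u = gen5val ∨ u = gen5val ^ 2 ∨ u = gen5val ^ 3 := by decide
    rcases this u with h | h | h | h
    · exact ⟨0, h⟩
    · exact ⟨1, by rw [h, pow_one]⟩
    · exact ⟨2, h⟩
    · exact ⟨3, h⟩
  · have : mulPerm gen5val⁻¹ =
        Equiv.swap (1 : ZMod 5) 3 * Equiv.swap 3 4 * Equiv.swap 4 2 :=
      Equiv.ext (by decide)
    rw [this, map_mul, map_mul, Perm.sign_swap (by decide), Perm.sign_swap (by decide),
      Perm.sign_swap (by decide)]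
    rfl
  · have : mulPerm (gen5val * gen5val)⁻¹ = Equiv.swap (1 : ZMod 5) 4 * Equiv.swap 2 3 :=
      Equiv.ext (by decide)
    rw [this, map_mul, Perm.sign_swap (by decide), Perm.sign_swap (by decide)]
    rfl

end gens

namespace Setup

variable {r : ℕ} {k : Type u} {V : Type v} {H : Type w} [Field k] [AddCommGroup V] [Module k V]
  [Group H] (S : Setup r k V H)
variable {q m : ℕ} [Fact q.Prime] (hq : q = 3 ∨ q = 5) (E : Fin m × ZMod q ↪ Fin r)

theorem B_commute (i j : Fin m) :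
    Commute (S.op hq (row E i)) (S.op hq (row E j)) := by
  rcases eq_or_ne i j with rfl | h
  · exact Commute.refl _
  · exact (S.lift_commute hq hq _ _ (row_disjoint E h)).map S.ρ

theorem exists_move (τ : Perm (Fin m × ZMod q)) (hτ : Perm.sign τ = 1) :
    ∃ g : H, ∀ x, S.π g (E x) = E (τ x) := by
  obtain ⟨g, hg⟩ := S.exists_pre (σ := τ.viaEmbedding E)
    (by rw [Perm.mem_alternatingGroup, sign_viaEmbedding, hτ])
  exact ⟨g, fun x => by rw [hg, Perm.viaEmbedding_apply]⟩

/-- A weight: the exponents of a common eigenvector. -/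
def IsWt (ζ : k) (w : Fin m → ZMod q) : Prop :=
  ∃ x : V, x ≠ 0 ∧ ∀ i, S.op hq (row E i) x = ζ ^ (w i).val • x

theorem isWt_move {ζ : k} (hζ : ζ ^ q = 1) {w : Fin m → ZMod q} (hw : S.IsWt hq E ζ w)
    (τ : Perm (Fin m × ZMod q)) (hτ : Perm.sign τ = 1) (p : Perm (Fin m)) (c : Fin m → (ZMod q)ˣ)
    (h : ∀ i a, τ (i, a) = (p i, (c i : ZMod q) * a)) (w' : Fin m → ZMod q)
    (hw' : ∀ i, w' (p i) = w i * ((c i)⁻¹ : (ZMod q)ˣ)) : S.IsWt hq E ζ w' := by
  obtain ⟨x, hx0, hx⟩ := hw
  obtain ⟨g, hg⟩ := S.exists_move E τ hτ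
  refine ⟨S.ρ g x, fun h0 => hx0 ?_, fun l => ?_⟩
  · rw [← S.ρ_inv_left g x, h0, map_zero]
  obtain ⟨i, rfl⟩ := p.surjective l
  have hconj : S.π g * cyc (row E i) * (S.π g)⁻¹ = cyc (row E (p i)) ^ (c i : ZMod q).val := by
    rw [← cyc_mul]
    refine cyc_conj _ _ _ fun a => ?_
    show S.π g (E (i, a)) = E (p i, (c i : ZMod q) * a)
    rw [hg, h]
  have hnd : ¬ q ∣ (c i : ZMod q).val := fun hd =>
    (c i).ne_zero ((ZMod.val_eq_zero _).mp (Nat.eq_zero_of_dvd_of_lt hd (ZMod.val_lt _)))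
  have hop : S.ρ g * S.op hq (row E i) = S.op hq (row E (p i)) ^ (c i : ZMod q).val * S.ρ g := by
    rw [op, op, ← map_pow, ← map_mul, ← map_mul, ← S.lift_conj_pow hq _ _ g _ hnd hconj]
    congr 1; group
  have h1 : (S.op hq (row E (p i)) ^ (c i : ZMod q).val) (S.ρ g x) = ζ ^ (w i).val • S.ρ g x := by
    rw [← Module.End.mul_apply, ← hop, Module.End.mul_apply, hx i, map_smul]
  have h2 := pow_apply_eigen _ h1 ((((c i)⁻¹ : (ZMod q)ˣ) : ZMod q)).val
  rw [← pow_mul, ← pow_mul, pow_eq_pow_mod _ (S.op_pow_self hq _), ← ZMod.val_mul, Units.mul_inv,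
    ZMod.val_one, pow_one, pow_eq_pow_mod _ hζ, ← ZMod.val_mul] at h2
  rw [h2, hw' i]

theorem exists_wt [FiniteDimensional k V] [IsAlgClosed k] (hqk : (q : k) ≠ 0) {ζ : k}
    (hζ : IsPrimitiveRoot ζ q) {y : V} (hy : y ≠ 0) :
    ∃ w, S.IsWt hq E ζ w ∧
      (∀ i, y ∈ LinearMap.range (S.op hq (row E i) - 1) → w i ≠ 0) ∧
      (∀ i, S.op hq (row E i) y = y → w i = 0) := by
  classical
  let B := fun i => S.op hq (row E i)
  let N : Submodule k V :=
    (⨅ i, ⨅ (_ : y ∈ LinearMap.range (B i - 1)), LinearMap.range (B i - 1)) ⊓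
      (⨅ i, ⨅ (_ : B i y = y), (B i).eigenspace 1)
  have hmemN : ∀ x, x ∈ N ↔ (∀ i, y ∈ LinearMap.range (B i - 1) → x ∈ LinearMap.range (B i - 1)) ∧
      (∀ i, B i y = y → B i x = x) := by
    intro x
    simp [N, Submodule.mem_iInf]
  have hyN : y ∈ N := (hmemN y).mpr ⟨fun _ h => h, fun _ h => h⟩
  obtain ⟨z, hz, hz0, hzs⟩ := exists_common_eigen B (S.B_commute hq E) Finset.univ N
    (fun h => hy ((Submodule.eq_bot_iff _).mp h y hyN)) (by
      intro l x hx
      rw [hmemN] at hx ⊢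
      refine ⟨fun i hi => ?_, fun i hi => ?_⟩
      · obtain ⟨u, hu⟩ := hx.1 i hi
        refine ⟨B l u, ?_⟩
        rw [← hu, ← Module.End.mul_apply, ← Module.End.mul_apply]
        exact congrArg (· u) (((S.B_commute hq E i l).sub_left (Commute.one_left _)).eq)
      · rw [← Module.End.mul_apply, (S.B_commute hq E i l).eq, Module.End.mul_apply, hx.2 i hi])
  choose μ hμ using fun i => hzs i (Finset.mem_univ i)
  have hμq : ∀ i, μ i ^ q = 1 := by
    intro i
    have := pow_apply_eigen _ (hμ i) q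
    rw [S.op_pow_self, Module.End.one_apply] at this
    exact smul_left_injective k hz0 (by simpa using this.symm)
  choose e he1 he2 using fun i => hζ.eq_pow_of_pow_eq_one (hμq i)
  have hv : ∀ i, ((e i : ZMod q)).val = e i := fun i => ZMod.val_cast_of_lt (he1 i)
  obtain ⟨hzR, hzF⟩ := (hmemN z).mp hz
  refine ⟨fun i => (e i : ZMod q), ⟨z, hz0, fun i => by rw [hv, he2]; exact hμ i⟩,
    fun i hi h0 => hz0 (eq_zero_of_fixed_range hqk (S.op_pow_self hq (row E i)) ?_ (hzR i hi)),
    fun i hi => ?_⟩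
  · have : e i = 0 := by rw [← hv i]; simp [h0]
    rw [hμ i, ← he2, this, pow_zero, one_smul]
  · have h1 := hμ i
    rw [hzF i hi] at h1
    have h2 : μ i = 1 := smul_left_injective k hz0 (by simpa using h1.symm)
    have h3 : e i = 0 := hζ.pow_inj (he1 i) (Fact.out : q.Prime).pos (by rw [he2, h2, pow_zero])
    simp [h3]

/-- The set of weights. -/
noncomputable def wts (ζ : k) : Finset (Fin m → ZMod q) :=
  @Finset.filter _ (S.IsWt hq E ζ) (Classical.decPred _) Finset.univ

theorem mem_wts {ζ : k} {w : Fin m → ZMod q} : w ∈ S.wts hq E ζ ↔ S.IsWt hq E ζ w := by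
  simp [wts]

theorem card_wts_le [FiniteDimensional k V] {ζ : k} (hζ : IsPrimitiveRoot ζ q) :
    (S.wts hq E ζ).card ≤ Module.finrank k V := by
  classical
  let B := fun i => S.op hq (row E i)
  let P : (Fin m → ZMod q) → Submodule k V := fun w => ⨅ i, (B i).eigenspace (ζ ^ (w i).val)
  have hind : iSupIndep P := by
    refine ((Module.End.independent_iInf_maxGenEigenspace_of_forall_mapsTo B fun i j φ => ?_).comp
      (f := fun (w : Fin m → ZMod q) i => ζ ^ (w i).val) ?_).mono fun w => ?_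
    · exact Module.End.mapsTo_maxGenEigenspace_of_comm (S.B_commute hq E j i) φ
    · intro a b hab
      funext i
      exact ZMod.val_injective q
        (hζ.pow_inj (ZMod.val_lt _) (ZMod.val_lt _) (congrFun hab i))
    · exact iInf_mono fun i => Module.End.eigenspace_le_maxGenEigenspace
  refine le_trans ?_ hind.subtype_ne_bot_le_finrank
  rw [Fintype.card_subtype]
  refine Finset.card_le_card fun w hw => ?_
  obtain ⟨x, hx0, hx⟩ := (S.mem_wts hq E).mp hw
  rw [Finset.mem_filter]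
  refine ⟨Finset.mem_univ _, fun h => hx0 ((Submodule.eq_bot_iff _).mp h x ?_)⟩
  exact Submodule.mem_iInf _ |>.mpr fun i => Module.End.mem_eigenspace_iff.mpr (hx i)

/-- The scalar generating the units. -/
theorem exists_gen (hq : q = 3 ∨ q = 5) : ∃ g : (ZMod q)ˣ,
    (∀ u, ∃ e : ℕ, u = g ^ e) ∧ Perm.sign (mulPerm g⁻¹) = -1 ∧
      (q = 5 → g ^ 4 = 1 ∧ Perm.sign (mulPerm (g * g)⁻¹) = 1) := by
  rcases hq with rfl | rfl
  · exact ⟨-1, gen3.1, gen3.2, fun h => absurd h (by norm_num)⟩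
  · exact ⟨gen5val, gen5.1, gen5.2.1, fun _ => gen5.2.2⟩

theorem wts_moves {ζ : k} (hζ : ζ ^ q = 1) (h2 : m = 2 → q = 5) :
    ∃ g, Moves g (S.wts hq E ζ) := by
  obtain ⟨g, hgen, hodd, h5⟩ := exists_gen hq
  refine ⟨g, ⟨hgen, ?_, ?_, fun hm => ?_⟩⟩
  · intro i j hij w hw
    rw [mem_wts] at hw ⊢
    refine S.isWt_move hq E hζ hw
      (Perm.prodExtendRight i (mulPerm g⁻¹) * Perm.prodExtendRight j (mulPerm g⁻¹)) ?_ 1
      (fun l => if l = i ∨ l = j then g⁻¹ else 1) ?_ _ ?_
    · rw [map_mul, Perm.sign_prodExtendRight, Perm.sign_prodExtendRight, Int.units_mul_self]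
    · intro l a
      rw [Perm.mul_apply, Perm.one_apply]
      rcases eq_or_ne l j with rfl | hj
      · rw [Perm.prodExtendRight_apply_eq, Perm.prodExtendRight_apply_ne _ hij.symm, if_pos (Or.inr rfl)]
        rfl
      rw [Perm.prodExtendRight_apply_ne _ hj]
      rcases eq_or_ne l i with rfl | hi
      · rw [Perm.prodExtendRight_apply_eq, if_pos (Or.inl rfl)]; rfl
      · rw [Perm.prodExtendRight_apply_ne _ hi, if_neg (by tauto), Units.val_one, one_mul]
    · intro l
      rw [Perm.one_apply]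
      rcases eq_or_ne l i with rfl | hi
      · rw [scl_same, scl_ne hij, if_pos (Or.inl rfl), inv_inv, mul_comm]
      rw [scl_ne hi]
      rcases eq_or_ne l j with rfl | hj
      · rw [scl_same, if_pos (Or.inr rfl), inv_inv, mul_comm]
      · rw [scl_ne hj, if_neg (by tauto), inv_one, Units.val_one, mul_one]
  · intro i j hij w hw
    rw [mem_wts] at hw ⊢
    refine S.isWt_move hq E hζ hw
      (Equiv.prodCongrLeft (fun _ : ZMod q => Equiv.swap i j) *
        Perm.prodExtendRight j (mulPerm g⁻¹)) ?_ (Equiv.swap i j)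
      (fun l => if l = j then g⁻¹ else 1) ?_ _ ?_
    · rw [map_mul, Perm.sign_prodExtendRight, Perm.sign_prodCongrLeft, hodd,
        Finset.prod_const, Finset.card_univ, ZMod.card, Perm.sign_swap hij,
        Odd.neg_one_pow (by rcases hq with rfl | rfl <;> decide), Int.units_mul_self]
    · intro l a
      rw [Perm.mul_apply]
      rcases eq_or_ne l j with rfl | hj
      · rw [Perm.prodExtendRight_apply_eq, if_pos rfl]; rfl
      · rw [Perm.prodExtendRight_apply_ne _ hj, if_neg hj, Units.val_one, one_mul]; rfl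
    · intro l
      rcases eq_or_ne l j with rfl | hj
      · rw [swap_apply_right, scl_same, Function.comp_apply, swap_apply_left, if_pos rfl, inv_inv,
          mul_comm]
      · have : Equiv.swap i j l ≠ i := fun h => hj (by
          have := congrArg (Equiv.swap i j) h
          rwa [swap_apply_self, swap_apply_left] at this)
        rw [scl_ne this, Function.comp_apply, swap_apply_self, if_neg hj, inv_one, Units.val_one,
          mul_one]
  · obtain ⟨h4, heven⟩ := h5 (h2 hm)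
    refine ⟨h4, fun i w hw => ?_⟩
    rw [mem_wts] at hw ⊢
    refine S.isWt_move hq E hζ hw (Perm.prodExtendRight i (mulPerm (g * g)⁻¹)) ?_ 1
      (fun l => if l = i then (g * g)⁻¹ else 1) ?_ _ ?_
    · rw [Perm.sign_prodExtendRight, heven]
    · intro l a
      rw [Perm.one_apply]
      rcases eq_or_ne l i with rfl | hi
      · rw [Perm.prodExtendRight_apply_eq, if_pos rfl]; rfl
      · rw [Perm.prodExtendRight_apply_ne _ hi, if_neg hi, Units.val_one, one_mul]
    · intro l
      rw [Perm.one_apply]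
      rcases eq_or_ne l i with rfl | hi
      · rw [scl_same, if_pos rfl, inv_inv, mul_comm]
      · rw [scl_ne hi, if_neg hi, inv_one, Units.val_one, mul_one]

end Setup

/-- Extend two disjoint embeddings to a grid. -/
theorem exists_grid {r m q : ℕ} [Fact q.Prime] (hm : 2 ≤ m) (hr : m * q ≤ r)
    (e e' : ZMod q ↪ Fin r) (h : Disjoint (Set.range e) (Set.range e')) :
    ∃ (E : Fin m × ZMod q ↪ Fin r), row E ⟨0, by omega⟩ = e ∧ row E ⟨1, by omega⟩ = e' := by
  classical
  obtain ⟨E0⟩ : Nonempty (Fin m × ZMod q ↪ Fin r) :=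
    Function.Embedding.nonempty_of_card_le (by simpa [ZMod.card] using hr)
  let f : ZMod q ⊕ ZMod q ↪ Fin r := ⟨Sum.elim (row E0 ⟨0, by omega⟩) (row E0 ⟨1, by omega⟩),
    (row E0 _).injective.sumElim (row E0 _).injective fun a b hab =>
      Set.disjoint_left.mp (row_disjoint E0 (i := (⟨0, by omega⟩ : Fin m))
        (j := (⟨1, by omega⟩ : Fin m)) (by simp)) ⟨a, rfl⟩ ⟨b, hab.symm⟩⟩
  let f' : ZMod q ⊕ ZMod q ↪ Fin r := ⟨Sum.elim e e',
    e.injective.sumElim e'.injective fun a b hab => Set.disjoint_left.mp h ⟨a, rfl⟩ ⟨b, hab.symm⟩⟩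
  let d : Set.range f ≃ Set.range f' :=
    (Equiv.ofInjective f f.injective).symm.trans (Equiv.ofInjective f' f'.injective)
  let σ := d.extendSubtype
  have hσ : ∀ x, σ (f x) = f' x := by
    intro x
    simp [σ, Equiv.extendSubtype_apply_of_mem d (f x) ⟨x, rfl⟩, d]
  refine ⟨E0.trans σ.toEmbedding, ?_, ?_⟩
  · ext a; exact congrArg Fin.val (hσ (Sum.inl a))
  · ext a; exact congrArg Fin.val (hσ (Sum.inr a))

end Cfsg.Agent.Components.AltSection
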